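import Cfsg.Agent.Lib.Root.Sub4

set_option autoImplicit false

/-! Planes of abstract transvection groups. -/

namespace Cfsg.Agent.Lib.Root

open Cfsg

variable {G : Type*} [Group G] {A B C D F : Subgroup G} {n : G}

/-- the commutator map attached to `n` -/
def phi (n x : G) : G := x⁻¹ * (n * x * n⁻¹)

/-- the basic configuration -/
structure PlaneCfg (D F : Subgroup G) (n : G) : Prop where
  r : IsRankOnePair D F
  cF : Comm F F
  nD : ∀ d ∈ D, n * d = d * n
  cn : Comm F (conjBy F n)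
  ne : conjBy F n ≠ F

namespace PlaneCfg

variable (h : PlaneCfg D F n) {x y : G}
include h

theorem phi_comm (hx : x ∈ F) (hy : y ∈ F) : Commute (phi n x) y :=
  Commute.mul_left (h.cF _ (F.inv_mem hx) y hy) (h.cn y hy _ (conj_mem_conjBy hx n)).symm

theorem phi_comm' (hx : x ∈ F) (hy : y ∈ conjBy F n) : Commute (phi n x) y :=
  Commute.mul_left (h.cn _ (F.inv_mem hx) y hy) (h.cF.conj n _ (conj_mem_conjBy hx n) y hy)

theorem phi_mul (hx : x ∈ F) (hy : y ∈ F) : phi n (x * y) = phi n x * phi n y := by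
  calc phi n (x * y) = y⁻¹ * phi n x * (n * y * n⁻¹) := by unfold phi; group
    _ = _ := by rw [← (h.phi_comm hx (F.inv_mem hy)).eq, mul_assoc]; rfl

theorem phi_phi (hx : x ∈ F) (hy : y ∈ F) : Commute (phi n x) (phi n y) :=
  (h.phi_comm hx (F.inv_mem hy)).mul_right (h.phi_comm' hx (conj_mem_conjBy hy n))

theorem phi_inv (hx : x ∈ F) : phi n x⁻¹ = (phi n x)⁻¹ := by
  apply eq_inv_of_mul_eq_one_left
  rw [← h.phi_mul (F.inv_mem hx) hx]; simp [phi]

theorem conj_phi {d : G} (p : Partner D F d x) :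
    conjBy D (phi n x) = conjBy (conjBy F n) (x⁻¹ * d) := by
  have e1 : conjBy D n⁻¹ = D := (conjBy_eq_iff.1 (conjBy_eq_of_commute h.nD)).symm
  calc conjBy D (phi n x) = conjBy (conjBy (conjBy D n⁻¹) x) (x⁻¹ * n) := by
        rw [conjBy_conjBy, conjBy_conjBy]; congr 1; unfold phi; group
    _ = _ := by rw [e1, p.2.2, conjBy_conjBy, conjBy_conjBy, mul_assoc, h.nD d p.1, mul_assoc]

theorem eq_one (hx : x ∈ F) (e : conjBy D (phi n x) = D) : x = 1 := by
  by_contra hx1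
  obtain ⟨d, p⟩ := exists_partner' h.r hx hx1
  rw [h.conj_phi p] at e
  have : D = conjBy F (x⁻¹ * d) := (conjBy_eq_conjBy_iff.1 p.2.2.symm).symm
  exact h.ne (conjBy_inj.1 (e.trans this))

theorem inj (hx : x ∈ F) (hy : y ∈ F) (e : conjBy D (phi n x) = conjBy D (phi n y)) : x = y := by
  rw [conjBy_eq_conjBy_iff, ← h.phi_inv hy, ← h.phi_mul (F.inv_mem hy) hx] at e
  exact (inv_mul_eq_one.1 (h.eq_one (F.mul_mem (F.inv_mem hy) hx) e)).symm

theorem comm_one (hD : Comm D D) (hx : x ∈ F) : Comm D (conjBy D (phi n x)) := by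
  by_cases hx1 : x = 1
  · subst hx1; simpa [phi] using hD
  obtain ⟨d, p⟩ := exists_partner' h.r hx hx1
  have := h.cn.conj (x⁻¹ * d)
  rwa [conjBy_eq_conjBy_iff.1 p.2.2.symm, ← h.conj_phi p] at this

theorem comm_two (hD : Comm D D) (hx : x ∈ F) (hy : y ∈ F) :
    Comm (conjBy D (phi n x)) (conjBy D (phi n y)) := by
  have := (h.comm_one hD (F.mul_mem (F.inv_mem hx) hy)).conj (phi n x)
  rwa [conjBy_conjBy, ← h.phi_mul hx (F.mul_mem (F.inv_mem hx) hy), mul_inv_cancel_left] at this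

theorem comm_m (hD : Comm D D) (hx : x ∈ F) (hy : y ∈ F) {d : G} (hd : d ∈ D) :
    ∀ f ∈ conjBy F (phi n x * d * (phi n x)⁻¹ * d⁻¹), Commute (phi n y) f := by
  by_cases hd1 : d = 1
  · subst hd1
    intro f hf
    exact h.phi_comm hy (by simpa using hf)
  obtain ⟨w, p⟩ := exists_partner h.r hd hd1
  have hw := p.2.1
  have e0 : conjBy F (phi n x)⁻¹ = F :=
    conjBy_eq_of_commute fun f hf => ((h.phi_comm hx hf).inv_left).eq
  have e1 : conjBy F (phi n x * d * (phi n x)⁻¹ * d⁻¹) = conjBy (conjBy D (phi n x)) (d⁻¹ * w) := by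
    rw [← h.comm_one hD hx _ (D.inv_mem hd) _ (conj_mem_conjBy hd _), ← mul_assoc, ← conjBy_conjBy,
      e0, ← mul_assoc, ← conjBy_conjBy, ← p.2.2, conjBy_conjBy, conjBy_conjBy, mul_assoc,
      (h.phi_comm hx hw).eq, mul_assoc]
  have e2 : F = conjBy D (d⁻¹ * w) := (conjBy_eq_conjBy_iff.1 p.2.2).symm
  have e3 : conjBy F n = conjBy (conjBy D (phi n w)) (d⁻¹ * w) := by
    rw [h.conj_phi p, conjBy_conjBy _ (d⁻¹ * w)]; simp
  have c1 := (h.comm_one hD hx).conj (d⁻¹ * w)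
  have c2 := (h.comm_two hD hw hx).conj (d⁻¹ * w)
  rw [← e1, ← e2] at c1
  rw [← e1, ← e3] at c2
  exact fun f hf => Commute.mul_left (c1 _ (F.inv_mem hy) f hf) (c2 _ (conj_mem_conjBy hy n) f hf)

end PlaneCfg

theorem planeCfg_of (hA : Comm A A) (hB : Comm B B) (hAC : Comm A C) (hne : A ≠ C)
    (r : IsRankOnePair A B) {a b c : G} (p : Partner A B a b) (q : Partner C B c b) :
    PlaneCfg A B (c * a⁻¹) ∧ conjBy A (phi (c * a⁻¹) b) = C := by
  have e : c * a⁻¹ = a⁻¹ * c := (hAC _ (A.inv_mem p.1) c q.1).symm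
  have e2 : conjBy B (c * a⁻¹) = conjBy C (a⁻¹ * b) := by
    rw [e, ← conjBy_conjBy, ← q.2.2, conjBy_conjBy]
  have e3 : B = conjBy A (a⁻¹ * b) := (conjBy_eq_conjBy_iff.1 p.2.2).symm
  have h : PlaneCfg A B (c * a⁻¹) := by
    refine ⟨r, hB, fun d hd => Commute.mul_left (hAC d hd c q.1).symm (hA _ (A.inv_mem p.1) d hd),
      ?_, fun h => hne (conjBy_inj.1 (e3.symm.trans (h.symm.trans e2)))⟩
    rw [e2]
    have := hAC.conj (a⁻¹ * b)
    rwa [← e3] at this
  exact ⟨h, by rw [h.conj_phi p, e2, conjBy_conjBy]; simp⟩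

theorem special_of_common (hA : Comm A A) (hB : Comm B B) (hC : Comm C C) (hAC : Comm A C)
    (hne : A ≠ C) (r : IsRankOnePair A B) (r' : IsRankOnePair C B) : IsSpecialRankOnePair A B := by
  refine special_of_inv r fun a b p => ?_
  obtain ⟨c, q⟩ := exists_partner' r' p.2.1 (p.ne_one' r)
  obtain ⟨h, e⟩ := planeCfg_of hA hB hAC hne r p q
  obtain ⟨b', p'⟩ := exists_partner r (A.inv_mem p.1) (by simpa using p.ne_one r)
  obtain ⟨b'', q'⟩ := exists_partner r' (C.inv_mem q.1) (by simpa using q.ne_one r')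
  have c1 : Comm (conjBy A b') (conjBy C b'') := by
    have := h.cn.symm.conj c⁻¹
    rwa [conjBy_conjBy, inv_mul_cancel_left, ← p'.2.2, ← q'.2.2] at this
  have eb : b'' = b' := by
    by_contra hb
    have h1 : b'⁻¹ * b'' ≠ 1 := fun e => hb (inv_mul_eq_one.1 e).symm
    have hm := B.mul_mem (B.inv_mem p'.2.1) q'.2.1
    have c2 := c1.conj b'⁻¹
    rw [conjBy_inv_conjBy, conjBy_conjBy] at c2
    have c3 := hAC.sup_right c2
    rw [sup_right_conj (r1_symm r') hm h1] at c3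
    exact r1_not_comm r (c3.mono le_rfl le_sup_left)
  subst eb
  obtain ⟨h', e'⟩ := planeCfg_of hA hB hAC hne r p' q'
  have hn : c⁻¹ * a⁻¹⁻¹ = (c * a⁻¹)⁻¹ := by
    rw [mul_inv_rev]; exact (hAC _ (A.inv_mem (A.inv_mem p.1)) _ (C.inv_mem q.1)).symm
  rw [hn] at e'
  have nC : conjBy C (c * a⁻¹) = C :=
    conjBy_eq_of_commute fun d hd => Commute.mul_left (hC c q.1 d hd) (hAC _ (A.inv_mem p.1) d hd)
  have nA : conjBy A (c * a⁻¹)⁻¹ = A := (conjBy_eq_iff.1 (conjBy_eq_of_commute h.nD)).symm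
  have e4 : conjBy A (phi (c * a⁻¹) b''⁻¹) = C := by
    rw [← nC, ← e', conjBy_conjBy]
    conv_rhs => rw [← nA, conjBy_conjBy]
    congr 1
    have := h.cn _ p'.2.1 _ (conj_mem_conjBy (B.inv_mem p'.2.1) (c * a⁻¹))
    unfold phi
    rw [inv_inv, this]; group
  have := h.inj p.2.1 (B.inv_mem p'.2.1) (e.trans e4.symm)
  rw [this, inv_inv]; exact p'

theorem false_of_block (hA : Comm A A) (hD : Comm D D) (hF : Comm F F) (hDA : Comm D A)
    (hne : D ≠ A) (r : IsRankOnePair D F) (r' : IsRankOnePair A F) (rB : IsRankOnePair A B)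
    (hB : ∀ g, Comm (conjBy D g) A → conjBy D g ≠ A → Comm (conjBy D g) B) {x y z : G}
    (hx : x ∈ F) (hy : y ∈ F) (hz : z ∈ F) (h1 : x ≠ 1) (h2 : y ≠ 1) (h3 : z ≠ 1) (h4 : y * x ≠ 1)
    (h5 : z * x ≠ 1) (h6 : z * y ≠ 1) (h7 : z * (y * x) ≠ 1) : False := by
  obtain ⟨d, p⟩ := exists_partner' r hx h1
  obtain ⟨a, q⟩ := exists_partner' r' hx h1
  obtain ⟨h, e⟩ := planeCfg_of hD hF hDA hne r p q
  generalize hn : a * d⁻¹ = n at h e
  have hd := p.1
  set P : G → G := fun w => phi n w * d * (phi n w)⁻¹ with hP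
  have PD : ∀ w, P w ∈ conjBy D (phi n w) := fun w => conj_mem_conjBy hd _
  have cA : ∀ w ∈ F, Comm (conjBy D (phi n w)) A := fun w hw => e ▸ h.comm_two hD hw hx
  have Pn : ∀ w ∈ F, Commute (P w) n := fun w hw => by
    rw [← hn]
    exact Commute.mul_right (cA w hw _ (PD w) a q.1)
      ((h.comm_one hD hw).symm _ (PD w) _ (D.inv_mem hd))
  have PK : ∀ w ∈ F, w ≠ 1 → P (x * w) ∈ Subgroup.centralizer (B : Set G) := by
    intro w hw hw1
    have hxw := F.mul_mem hx hw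
    refine comm_iff_le_centralizer.1 (hB _ (cA _ hxw) fun e' => hw1 ?_) (PD _)
    simpa using h.inj hxw hx (e'.trans e.symm)
  have Pmul : ∀ u ∈ F, ∀ w ∈ F, P (u * w) = phi n u * P w * (phi n u)⁻¹ := by
    intro u hu w hw
    simp only [hP, h.phi_mul hu hw]; group
  have P1 : P 1 = d := by simp [hP, phi]
  set t := P (y * x) * (P y)⁻¹ * (P x * (P 1)⁻¹)⁻¹ with ht
  have tn : Commute t n :=
    ((Pn _ (F.mul_mem hy hx)).mul_left (Pn y hy).inv_left).mul_left
      ((Pn x hx).mul_left (Pn 1 F.one_mem).inv_left).inv_left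
  have tF : ∀ f ∈ F, Commute t f := by
    intro f hf
    have e1 : t = phi n y * ((P x * d⁻¹) * (phi n y)⁻¹ * (P x * d⁻¹)⁻¹) := by
      rw [ht, Pmul y hy x hx, P1]; simp only [hP]; group
    rw [e1]
    refine (h.phi_comm hy hf).mul_left ?_
    have e2 : (P x * d⁻¹)⁻¹ = phi n x * d⁻¹ * (phi n x)⁻¹ * d⁻¹⁻¹ := by
      have := h.comm_one hD hx d hd _ (conj_mem_conjBy (D.inv_mem hd) (phi n x))
      rw [inv_inv, ← this]; simp only [hP]; group
    have c := (h.comm_m hD hx hy (D.inv_mem hd) _ (conj_mem_conjBy hf _)).inv_left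
    rw [← e2] at c
    have c' := c.map (MulAut.conj (P x * d⁻¹))
    simpa only [MulAut.conj_apply, inv_inv, mul_assoc, mul_inv_cancel_left, mul_inv_cancel, mul_one,
      inv_mul_cancel] using c'
  have tphi : ∀ w ∈ F, phi n w * t * (phi n w)⁻¹ = t := by
    intro w hw
    have : Commute t (phi n w) :=
      (tF _ (F.inv_mem hw)).mul_right ((tn.mul_right (tF w hw)).mul_right tn.inv_right)
    rw [← this.eq]; group
  have R : ∀ w ∈ F, P (w * (y * x)) * (P (w * y))⁻¹ * (P (w * x) * (P w)⁻¹)⁻¹ = t := by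
    intro w hw
    rw [← tphi w hw, Pmul w hw _ (F.mul_mem hy hx), Pmul w hw y hy, Pmul w hw x hx, ht]
    conv_lhs => rw [← mul_one w, Pmul w hw 1 F.one_mem, mul_one]
    group
  have k1 : t ∈ Subgroup.centralizer (B : Set G) := by
    rw [← R _ (F.mul_mem hx hz)]
    simp only [mul_assoc x z]
    exact mul_mem (mul_mem (PK _ (F.mul_mem hz (F.mul_mem hy hx)) h7)
      (inv_mem (PK _ (F.mul_mem hz hy) h6)))
      (inv_mem (mul_mem (PK _ (F.mul_mem hz hx) h5) (inv_mem (PK z hz h3))))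
  rw [← R x hx, Subgroup.mul_mem_cancel_left _ (mul_mem (PK _ (F.mul_mem hy hx) h4)
    (inv_mem (PK y hy h2))), inv_mem_iff, Subgroup.mul_mem_cancel_left _ (PK x hx h1),
    inv_mem_iff] at k1
  have hPx : P x ∈ A := e ▸ PD x
  have := r1_norm rB hPx (conjBy_eq_of_commute fun b hb => (k1 b hb).symm)
  apply p.ne_one r
  simpa [hP] using this

end Cfsg.Agent.Lib.Root
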