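import Cfsg.Agent.Lib.Root.Inv3

set_option autoImplicit false
set_option linter.unusedSectionVars false

/-! # Root involutions: the root structure theorem -/

namespace Cfsg.Agent.Lib.Root

open Cfsg Cfsg.Agent.Lib.Invol
open scoped commutatorElement

variable {G : Type*} [Group G] {D : Set G}

/-- the members with the same odd partners form a group -/
def HE (D : Set G) : Prop :=
  ∀ a ∈ D, ∀ b ∈ D, ASet D a = ASet D b → a = b ∨ (a * b ∈ D ∧ ASet D (a * b) = ASet D a)

/-- `c` is central in `⟨W_d⟩` modulo `E(d)` -/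
def Nice (D : Set G) (c d : G) : Prop :=
  c ∈ WSet D d ∧ ASet D c ≠ ASet D d ∧ ∀ w ∈ WSet D d, Commute c w ∨ ASet D (cm c w) = ASet D d

/-- the doubling map -/
def phi2 (g s : G) : G := g * s * g⁻¹ * (g⁻¹ * s * g)

theorem phi2_sq {s : G} (hs : s * s = 1) (g : G) : phi2 (g * g) s = phi2 g (phi2 g s) := by
  have : ∀ x, s * (s * x) = x := fun x => by rw [← mul_assoc, hs, one_mul]
  simp [phi2, mul_assoc, this]

theorem exists_two_pow_root {g : G} (h : Odd (orderOf g)) : ∃ i : ℕ, g ^ 2 ^ i * g ^ 2 ^ i = g := by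
  have hpos : 0 < orderOf g := h.pos
  have h1 := Nat.ModEq.pow_totient (Nat.coprime_two_left.mpr h)
  have h2 : 0 < Nat.totient (orderOf g) := Nat.totient_pos.mpr hpos
  refine ⟨Nat.totient (orderOf g) - 1, ?_⟩
  rw [← pow_add, ← two_mul, ← pow_succ', Nat.sub_add_cancel h2]
  conv_rhs => rw [← pow_one g]
  exact pow_eq_pow_iff_modEq.mpr h1

section RI
variable (hD : IsRootInvolutionSet D)
include hD

theorem wset_conj {w d : G} (hw : w ∈ WSet D d) (g : G) : g * w * g⁻¹ ∈ WSet D (g * d * g⁻¹) := by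
  refine ⟨hD.conj_mem w hw.1 g, commute_conj hw.2.1 g, fun x hx hxd h => ?_⟩
  refine hw.2.2 _ (hD.conj_mem x hx g⁻¹) ?_ ?_
  · have := commute_conj hxd g⁻¹
    simpa [mul_assoc] using this
  · have := h.conj g⁻¹
    simpa [mul_assoc] using this

theorem wset_congr [Finite G] (hc : IsConnectedSet (OddAdj D) D) {d e : G} (hd : d ∈ D) (he : e ∈ D)
    (h : ASet D d = ASet D e) : WSet D d = WSet D e := by
  ext w
  exact ⟨fun hw => ⟨hw.1, csub_of_aset_eq hD hc hd he h hw.1 hw.2.1,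
      fun x hx hxe => hw.2.2 x hx (csub_of_aset_eq hD hc he hd h.symm hx hxe)⟩,
    fun hw => ⟨hw.1, csub_of_aset_eq hD hc he hd h.symm hw.1 hw.2.1,
      fun x hx hxe => hw.2.2 x hx (csub_of_aset_eq hD hc hd he h hx hxe)⟩⟩

theorem Col.mem_wset {d w : G} (l : Col D d w) : w ∈ WSet D d :=
  ⟨l.right, l.comm.symm, fun _ hx hxd => l.not_oa hD hx hxd.symm⟩

theorem self_mem_wset {d : G} (hd : d ∈ D) : d ∈ WSet D d :=
  ⟨hd, Commute.refl d, fun _ hx hxd => ri_not_oa_of_comm hD hd hx hxd.symm⟩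

theorem mem_wset_of_same [Finite G] (hc : IsConnectedSet (OddAdj D) D) {d w e : G} (hd : d ∈ D)
    (hw : w ∈ WSet D d) (he : e ∈ D) (h : ASet D e = ASet D w) : e ∈ WSet D d := by
  refine ⟨he, (csub_of_aset_eq hD hc hw.1 he h.symm hd hw.2.1.symm).symm, fun x hx hxd hex => ?_⟩
  have : x ∈ ASet D e := ⟨hx, hex⟩
  rw [h] at this
  exact hw.2.2 x hx hxd this.2

omit hD in
theorem commute_of_mem_wclosure {d x : G} (hx : x ∈ Subgroup.closure (WSet D d)) : Commute x d := by
  have : Subgroup.closure (WSet D d) ≤ Subgroup.centralizer {d} := by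
    rw [Subgroup.closure_le]
    intro w hw
    exact Subgroup.mem_centralizer_singleton_iff.mpr hw.2.1
  exact Subgroup.mem_centralizer_singleton_iff.mp (this hx)

theorem wset_conj' {w d g : G} (hw : w ∈ WSet D d) (hg : Commute g d) : g * w * g⁻¹ ∈ WSet D d := by
  have := wset_conj hD hw g
  rwa [hg.eq, mul_assoc d, mul_inv_cancel, mul_one] at this

theorem wclosure_conj {x d g : G} (hx : x ∈ Subgroup.closure (WSet D d)) (hg : Commute g d) :
    g * x * g⁻¹ ∈ Subgroup.closure (WSet D d) := by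
  induction hx using Subgroup.closure_induction with
  | mem w hw => exact Subgroup.subset_closure (wset_conj' hD hw hg)
  | one => simp
  | mul a b _ _ ha hb =>
    have := mul_mem ha hb
    convert this using 1; group
  | inv a _ ha =>
    have := inv_mem ha
    convert this using 1; group

theorem wset_pgroup [Finite G] (d : G) : IsPGroup 2 (Subgroup.closure (WSet D d)) :=
  pgroup_closure_of_pairs_in (Subgroup.closure (WSet D d)) Subgroup.subset_closure
    (fun _ hx _ hg => wset_conj' hD hx (commute_of_mem_wclosure hg))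
    (fun a ha b hb => pgroup_pair (ri_sq hD ha.1) (ri_sq hD hb.1)
      (ri_pow4 hD ha.1 hb.1 (ha.2.2 b hb.1 hb.2.1)))

theorem mem_wset_of_closure [Finite G] {x d : G} (hxD : x ∈ D)
    (hx : x ∈ Subgroup.closure (WSet D d)) : x ∈ WSet D d := by
  refine ⟨hxD, commute_of_mem_wclosure hx, fun y hy hyd h => ?_⟩
  have h1 : (x * y) ^ 2 ∈ Subgroup.closure (WSet D d) := by
    have := mul_mem hx (wclosure_conj hD hx hyd)
    rw [ri_inv hD hy] at this
    simpa [pow_two, mul_assoc] using this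
  have h2 := eq_one_of_odd_pgroup (wset_pgroup hD d) h1 (h.2.of_dvd_nat (orderOf_pow_dvd _))
  exact h.1 (ri_eq_of_mul hD hxD (eq_one_of_odd_pow h.2 1 (by simpa using h2)))

theorem four_of_wset {a b d : G} (ha : a ∈ WSet D d) (hb : b ∈ WSet D d) (h : ¬ Commute a b) :
    orderOf (a * b) = 4 := ri_four_of hD ha.1 hb.1 h (ha.2.2 b hb.1 hb.2.1)

theorem aset_conj_iff {d e g : G} :
    ASet D (g * d * g⁻¹) = ASet D (g * e * g⁻¹) ↔ ASet D d = ASet D e := by
  refine ⟨fun h => ?_, fun h => aset_conj_congr hD h g⟩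
  have := aset_conj_congr hD h g⁻¹
  simpa [mul_assoc] using this

theorem Nice.conj {c d : G} (n : Nice D c d) (g : G) : Nice D (g * c * g⁻¹) (g * d * g⁻¹) := by
  refine ⟨wset_conj hD n.1 g, fun h => n.2.1 ((aset_conj_iff hD).mp h), fun w hw => ?_⟩
  have hw' : g⁻¹ * w * g ∈ WSet D d := by
    have := wset_conj hD hw g⁻¹
    simpa [mul_assoc] using this
  have e : w = g * (g⁻¹ * w * g) * g⁻¹ := by group
  rcases n.2.2 _ hw' with h | h
  · left; rw [e]; exact commute_conj h g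
  · right; rw [e, ← cm_conj]; exact aset_conj_congr hD h g

theorem Nice.congr [Finite G] (hc : IsConnectedSet (OddAdj D) D) {c d e : G} (n : Nice D c d)
    (hd : d ∈ D) (he : e ∈ D) (h : ASet D d = ASet D e) : Nice D c e := by
  unfold Nice at n ⊢
  rwa [← wset_congr hD hc hd he h, ← h]

theorem ncard_same [Finite G] (hc : IsConnectedSet (OddAdj D) D) {d e : G} (hd : d ∈ D)
    (he : e ∈ D) : {x | x ∈ D ∧ ASet D x = ASet D e}.ncard = {x | x ∈ D ∧ ASet D x = ASet D d}.ncard := by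
  obtain ⟨g, rfl⟩ := conj_of_reach hD (hc d hd e he)
  have : {x | x ∈ D ∧ ASet D x = ASet D (g * d * g⁻¹)} =
      (fun x => g * x * g⁻¹) '' {x | x ∈ D ∧ ASet D x = ASet D d} := by
    ext x
    constructor
    · rintro ⟨hx, h⟩
      refine ⟨g⁻¹ * x * g, ⟨by simpa using hD.conj_mem x hx g⁻¹, ?_⟩, by simp [mul_assoc]⟩
      rw [← aset_conj_iff hD (g := g), ← h]; simp [mul_assoc]
    · rintro ⟨y, hy, rfl⟩
      exact ⟨hD.conj_mem y hy.1 g, aset_conj_congr hD hy.2 g⟩
  rw [this, Set.ncard_image_of_injective]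
  intro x y hxy
  simpa using hxy

theorem exists_four_of_wset [Finite G] (hc : IsConnectedSet (OddAdj D) D) {c d : G} (hd : d ∈ D)
    (hw : c ∈ WSet D d) (hne : ASet D c ≠ ASet D d) : ∃ f, Col D d f ∧ orderOf (c * f) = 4 := by
  obtain ⟨y, hy, hcy, hdy⟩ := exists_aset_diff hD hc hw.1 hd hne
  have h4 : orderOf (d * y) = 4 := ri_four_of hD hd hy (fun h => hw.2.2 y hy h.symm hcy) hdy
  exact ⟨cm d y, col_cm hD hd hy h4, four_symm (four_cm hD hw.1 hd hy hcy h4 hw.2.1)⟩

/-- (N1) -/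
theorem Nice.exists_f [Finite G] (hc : IsConnectedSet (OddAdj D) D) (hE : HE D) {c d e : G}
    (n : Nice D c d) (hd : d ∈ D) (he : e ∈ D) (hed : ASet D e = ASet D d) :
    ∃ f ∈ WSet D d, orderOf (c * f) = 4 ∧ cm c f = e := by
  have hcD := n.1.1
  obtain ⟨f0, l0, h0⟩ := exists_four_of_wset hD hc hd n.1 n.2.1
  have hw0 := l0.mem_wset hD
  have k1 : ∀ x ∈ D, ASet D x = ASet D f0 → ¬ Commute c x := fun x hx h h1 =>
    ri_not_four_of_comm hD hcD l0.right (csub_of_aset_eq hD hc hx l0.right h hcD h1) h0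
  have k2 : ∀ x ∈ D, ASet D x = ASet D f0 → x ∈ WSet D d := fun x hx h =>
    mem_wset_of_same hD hc hd hw0 hx h
  have k3 : ∀ x ∈ D, ASet D x = ASet D f0 → orderOf (c * x) = 4 := fun x hx h =>
    four_of_wset hD n.1 (k2 x hx h) (k1 x hx h)
  have := Set.surj_on_of_inj_on_of_ncard_le (s := {x | x ∈ D ∧ ASet D x = ASet D f0})
    (t := {x | x ∈ D ∧ ASet D x = ASet D d}) (fun x _ => cm c x)
    (fun x hx => ⟨cm_mem hD hcD hx.1 (k3 x hx.1 hx.2),
      (n.2.2 x (k2 x hx.1 hx.2)).resolve_left (k1 x hx.1 hx.2)⟩)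
    (fun x x' hx hx' h => ?_) (ncard_same hD hc l0.right hd).le (Set.toFinite _) e ⟨he, hed⟩
  · obtain ⟨f, hf, e1⟩ := this
    exact ⟨f, k2 f hf.1 hf.2, k3 f hf.1 hf.2, e1.symm⟩
  · rcases hE x hx.1 x' hx'.1 (hx.2.trans hx'.2.symm) with h1 | h1
    · exact h1
    exfalso
    refine k1 _ h1.1 (h1.2.trans hx.2) ?_
    have q1 : c * x * c = x * cm c x := by
      rw [conj_eq_mul_cm hD hx.1, cm_swap hD hcD hx.1 (k3 x hx.1 hx.2)]
    have q2 : c * x' * c = x' * cm c x := by
      rw [conj_eq_mul_cm hD hx'.1, cm_swap hD hcD hx'.1 (k3 x' hx'.1 hx'.2)]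
      exact congrArg _ h.symm
    have l2 : Col D x' (cm c x) := by
      have := col_cm' hD hcD hx'.1 (k3 x' hx'.1 hx'.2)
      rwa [show cm c x' = cm c x from h.symm] at this
    have q3 : c * (x * x') * c = x * x' := by
      rw [ri_conj_mul hD hcD, q1, q2, l2.comm.eq, mul_assoc, ri_cancel hD l2.right]
    show c * (x * x') = x * x' * c
    conv_rhs => rw [← q3]
    rw [mul_assoc, ri_sq hD hcD, mul_one]

theorem Nice.col [Finite G] (hc : IsConnectedSet (OddAdj D) D) (hE : HE D) {c d e : G}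
    (n : Nice D c d) (hd : d ∈ D) (he : e ∈ D) (hed : ASet D e = ASet D d) : Col D c e := by
  obtain ⟨f, hf, h4, rfl⟩ := n.exists_f hD hc hE hd he hed
  exact col_cm hD n.1.1 hf.1 h4

/-- (N4) -/
theorem nice_of_oa [Finite G] (hc : IsConnectedSet (OddAdj D) D) {d y u : G} (hy : y ∈ D)
    (hdy : orderOf (d * y) = 4) (n : Nice D y (cm d y)) (l : Col D d u) (huy : OA u y) :
    Nice D u d := by
  have hd := l.left
  have hu := l.right
  have hfD := cm_mem hD hd hy hdy
  let O : Set G := {s | Col D u s ∧ orderOf (s * y) = 4 ∧ ASet D (cm s y) = ASet D (cm d y)}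
  have hdO : d ∈ O := ⟨l.symm, hdy, rfl⟩
  have a1 : ∀ s ∈ O, phi2 (y * u) s = cm (cm s y) u := by
    rintro s ⟨ls, hs4, -⟩
    have hs := ls.right
    have us : u * s * u = s := by rw [ls.comm.eq, mul_assoc, ri_sq hD hu, mul_one]
    have c1 : s * (y * s * y) * s = y * s * y := by
      have := ((col_cm hD hs hy hs4).third hD).comm
      rw [← conj_eq_mul_cm hD hs] at this
      rw [this.eq, mul_assoc, ri_sq hD hs, mul_one]
    calc phi2 (y * u) s = y * (u * s * u) * y * (u * (y * s * y) * u) := by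
          simp [phi2, ri_inv hD hy, ri_inv hD hu, mul_assoc]
      _ = s * (y * s * y) * (u * s * u) * (u * (y * s * y) * u) := by rw [us, c1]
      _ = cm (cm s y) u := by simp [cm, mul_assoc, ri_cancel hD hu]
  have a2 : ∀ s ∈ O, Col D y (cm s y) ∧ orderOf (cm s y * u) = 4 := fun s hs =>
    ⟨col_cm' hD hs.1.right hy hs.2.1, four_cm hD hu hs.1.right hy huy hs.2.1 hs.1.comm⟩
  have a3 : Set.MapsTo (phi2 (y * u)) O O := by
    intro s hs
    obtain ⟨l1, h1⟩ := a2 s hs
    rw [a1 s hs]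
    have h2 := four_cm hD hy l1.right hu huy.symm h1 l1.comm
    have l2 := col_cm hD l1.right hu h1
    refine ⟨col_cm' hD l1.right hu h1, h2, ?_⟩
    have hw : cm (cm s y) u ∈ WSet D (cm d y) := by
      rw [← wset_congr hD hc l1.right hfD hs.2.2]; exact l2.mem_wset hD
    rw [← cm_swap hD l2.right hy h2]
    exact (n.2.2 _ hw).resolve_left fun h => ri_not_four_of_comm hD l2.right hy h.symm h2
  have a4 : Set.InjOn (phi2 (y * u)) O := by
    intro s hs s' hs' h
    rw [a1 s hs, a1 s' hs'] at h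
    obtain ⟨l1, h1⟩ := a2 s hs
    obtain ⟨l1', h1'⟩ := a2 s' hs'
    exact cm_inj hD hy huy hs.1 hs'.1 hs.2.1 hs'.2.1 (cm_inj hD hu huy.symm l1 l1' h1 h1' h)
  have a5 : ∀ i : ℕ, Set.MapsTo (phi2 ((y * u) ^ 2 ^ i)) O O := by
    intro i
    induction i with
    | zero => simpa using a3
    | succ i ih =>
      intro s hs
      rw [pow_succ, pow_mul, pow_two, phi2_sq (ri_sq hD hs.1.right)]
      exact ih (ih hs)
  obtain ⟨i, hi⟩ := exists_two_pow_root huy.symm.2
  have inv1 : ∀ k : ℕ, u * (y * u) ^ k * u = ((y * u) ^ k)⁻¹ := by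
    intro k
    have := conj_pow (i := k) (a := u) (b := y * u)
    rw [ri_inv hD hu] at this
    rw [← this, ← inv_pow, mul_inv_rev, ri_inv hD hu, ri_inv hD hy, mul_assoc, mul_assoc,
      ri_sq hD hu, mul_one]
  have a6 := a5 i
  have inv2 := inv1 (2 ^ i)
  generalize (y * u) ^ 2 ^ i = r at hi a6 inv2
  have a7 : Set.InjOn (phi2 r) O := by
    intro s hs s' hs' h
    apply a4 hs hs'
    rw [← hi, phi2_sq (ri_sq hD hs.1.right), phi2_sq (ri_sq hD hs'.1.right), h]
  obtain ⟨s, hs, hsd⟩ := ((Set.toFinite O).injOn_iff_bijOn_of_mapsTo a6).mp a7 |>.surjOn hdO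
  have ur : u * r⁻¹ = r * u := by rw [← inv2, ← mul_assoc, ← mul_assoc, ri_sq hD hu, one_mul]
  have ur' : r⁻¹ * u = u * r := by rw [← inv2, mul_assoc, ri_sq hD hu, mul_one]
  have b1 : r⁻¹ * y * r⁻¹⁻¹ = u := by
    have : y = r * r * u := by rw [hi, mul_assoc, ri_sq hD hu, mul_one]
    rw [inv_inv, this]
    calc r⁻¹ * (r * r * u) * r = (r * u) * r := by group
      _ = u := by rw [← ur]; group
  have b2 : r⁻¹ * cm s y * r⁻¹⁻¹ = d := by
    have us : u * s * u = s := by rw [hs.1.comm.eq, mul_assoc, ri_sq hD hu, mul_one]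
    rw [cm_conj, b1, ← ri_inv hD hd, ← hsd]
    calc cm (r⁻¹ * s * r⁻¹⁻¹) u = r⁻¹ * s * r * (u * r⁻¹) * s * (r * u) := by
          simp [cm, mul_assoc]
      _ = r⁻¹ * s * r * (r * u) * s * (u * r⁻¹) := by rw [← ur]
      _ = r⁻¹ * s * r * r * (u * s * u) * r⁻¹ := by simp only [mul_assoc]
      _ = (phi2 r s)⁻¹ := by rw [us]; simp [phi2, ri_inv hD hs.1.right, mul_assoc]
  have := (n.congr hD hc hfD (a2 s hs).1.right hs.2.2.symm).conj hD r⁻¹
  rwa [b1, b2] at this

/-- (N5) -/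
theorem nice_of_col [Finite G] (hc : IsConnectedSet (OddAdj D) D) (hE : HE D) {d b : G}
    (l : Col D d b) (hne : ASet D b ≠ ASet D d) : Nice D b d := by
  have hd := l.left
  set N := Subgroup.closure (WSet D d) with hN
  let B : Subgroup G := Subgroup.closure {x | ∃ n ∈ N, x = n * b * n⁻¹}
  have hB : ∀ x ∈ B, ∀ g ∈ N, g * x * g⁻¹ ∈ B := by
    intro x hx g hg
    induction hx using Subgroup.closure_induction with
    | mem w hw =>
      obtain ⟨m, hm, rfl⟩ := hw
      exact Subgroup.subset_closure ⟨g * m, mul_mem hg hm, by group⟩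
    | one => simp
    | mul a b _ _ ha hb =>
      have := mul_mem ha hb
      convert this using 1; group
    | inv a _ ha =>
      have := inv_mem ha
      convert this using 1; group
  have hex : ∃ c ∈ B, Nice D c d := by
    by_contra hcon
    push Not at hcon
    have key : ∀ k, ∃ a ∈ WSet D d, ASet D a ≠ ASet D d ∧ a ∈ B ∧ a ∈ N.lowerCentralSeries k := by
      intro k
      induction k with
      | zero =>
        exact ⟨b, l.mem_wset hD, hne, Subgroup.subset_closure ⟨1, one_mem _, by simp⟩,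
          Subgroup.subset_closure (l.mem_wset hD)⟩
      | succ k ih =>
        obtain ⟨a, ha, h1, h2, h3⟩ := ih
        have := hcon a h2
        unfold Nice at this
        push Not at this
        obtain ⟨w, hw, h4, h5⟩ := this ha h1
        have hwN : w ∈ N := Subgroup.subset_closure hw
        have e1 : cm a w = ⁅a, w⁆ := by
          rw [commutatorElement_def, ri_inv hD ha.1, ri_inv hD hw.1]; rfl
        refine ⟨cm a w, mem_wset_of_closure hD (cm_mem hD ha.1 hw.1 (four_of_wset hD ha hw h4)) ?_,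
          h5, ?_, ?_⟩
        · have haN : a ∈ N := Subgroup.subset_closure ha
          exact mul_mem (mul_mem (mul_mem haN hwN) haN) hwN
        · have := mul_mem h2 (hB a h2 w hwN)
          rw [ri_inv hD hw.1] at this
          simpa [cm, mul_assoc] using this
        · rw [e1]; exact Subgroup.commutator_mem_commutator h3 hwN
    obtain ⟨k, hk⟩ := (Subgroup.isNilpotent_iff_lowerCentralSeries _).mp (wset_pgroup hD d).isNilpotent
    obtain ⟨a, ha, -, -, ha'⟩ := key k
    rw [hk, Subgroup.mem_bot] at ha'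
    exact ri_ne_one hD ha.1 ha'
  obtain ⟨c, hcB, n⟩ := hex
  obtain ⟨f, hf, h4, hcf⟩ := n.exists_f hD hc hE hd hd rfl
  have hm : ∃ m ∈ N, ¬ Commute (m * b * m⁻¹) f := by
    by_contra hcon
    push Not at hcon
    have : B ≤ Subgroup.centralizer {f} := by
      rw [Subgroup.closure_le]
      rintro _ ⟨m, hm, rfl⟩
      exact Subgroup.mem_centralizer_singleton_iff.mpr (hcon m hm)
    exact ri_not_four_of_comm hD n.1.1 hf.1 (Subgroup.mem_centralizer_singleton_iff.mp (this hcB)) h4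
  obtain ⟨m, hm, hmb⟩ := hm
  have hmd : m⁻¹ * d * m⁻¹⁻¹ = d := by
    rw [(commute_of_mem_wclosure (inv_mem hm)).eq]; group
  have n' := n.conj hD m⁻¹
  have h4' := four_conj h4 m⁻¹
  have hcf' : cm (m⁻¹ * c * m⁻¹⁻¹) (m⁻¹ * f * m⁻¹⁻¹) = d := by rw [← cm_conj, hcf, hmd]
  have hf' := wset_conj hD hf m⁻¹
  have hbf : ¬ Commute b (m⁻¹ * f * m⁻¹⁻¹) := fun h => hmb (by
    have := commute_conj h m
    simpa [mul_assoc] using this)
  rw [hmd] at n' hf'
  generalize m⁻¹ * c * m⁻¹⁻¹ = c' at n' h4' hcf'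
  generalize m⁻¹ * f * m⁻¹⁻¹ = f' at h4' hcf' hf' hbf
  have lf : Col D f' d := hcf' ▸ col_cm' hD n'.1.1 hf'.1 h4'
  obtain ⟨y, hy, hdy, hy'⟩ := exists_J hD hc lf.symm
    (aset_ne_of_four hD hc hd hf'.1 n'.1.1 n'.1.2.1 h4')
  obtain ⟨s1, s2, -⟩ := swap_of_three hD n'.1.1 hf'.1 hy h4' hcf' hdy hy'
  have n2 := n'.conj hD (c' * y * c')
  rw [s1, s2, ← hy'] at n2
  have hb4 := four_of_wset hD (l.mem_wset hD) hf' hbf
  exact nice_of_oa hD hc hy hdy n2 l (oa_of_chain hD hc hy hdy l (hy' ▸ hb4))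

theorem col_of_wset [Finite G] (hc : IsConnectedSet (OddAdj D) D) (hE : HE D) {d u : G}
    (hd : d ∈ D) (hu : u ∈ WSet D d) : u = d ∨ Col D d u := by
  by_cases h : ASet D u = ASet D d
  · rcases hE d hd u hu.1 h.symm with h1 | h1
    · exact Or.inl h1.symm
    · exact Or.inr ⟨hd, hu.1, hu.2.1.symm, h1.1⟩
  right
  obtain ⟨f, lf, h4⟩ := exists_four_of_wset hD hc hd hu h
  have n := nice_of_col hD hc hE lf (aset_ne_of_four hD hc hd lf.right hu.1 hu.2.1 h4).symm
  have h1 := (n.2.2 u hu).resolve_left fun h1 => ri_not_four_of_comm hD hu.1 lf.right h1.symm h4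
  have l1 := col_cm' hD lf.right hu.1 (four_symm h4)
  have n1 := nice_of_col hD hc hE l1.symm (h1 ▸ h)
  exact (n1.col hD hc hE l1.right hd h1.symm).symm

theorem nice_of_wset [Finite G] (hc : IsConnectedSet (OddAdj D) D) (hE : HE D) {d u : G}
    (hd : d ∈ D) (hu : u ∈ WSet D d) (h : ASet D u ≠ ASet D d) : Nice D u d := by
  rcases col_of_wset hD hc hE hd hu with rfl | l
  · exact absurd rfl h
  · exact nice_of_col hD hc hE l h

end RI

end Cfsg.Agent.Lib.Root
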