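import Cfsg.Agent.Lib.Root.Trans
import Cfsg.Agent.Lib.Root.Quad3

set_option autoImplicit false
set_option linter.unusedSectionVars false

/-! Root subgroups `{1 + c x}` attached to square-zero elements of an algebra. -/

namespace Cfsg.Agent.Lib.Root

open Cfsg

variable {k F R G : Type*} [Field k] [Field F] [Ring R] [Algebra F R] [Group G]

theorem exists_hom_of_pair_alg (ι : k →+* F) {x y : R} (xx : x * x = 0) (yy : y * y = 0)
    (h1 : x * y * x = x) (h2 : y * x * y = y) :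
    ∃ φ : Matrix.SpecialLinearGroup (Fin 2) k →* Rˣ,
      (∀ t, (φ (xu t) : R) = 1 + ι t • x) ∧ (∀ t, (φ (xl t) : R) = 1 + ι t • y) := by
  rw [mul_assoc] at h1 h2
  have xx' : ∀ r, x * (x * r) = 0 := fun r => by rw [← mul_assoc, xx, zero_mul]
  have yy' : ∀ r, y * (y * r) = 0 := fun r => by rw [← mul_assoc, yy, zero_mul]
  have e1 : (x * y + y * x) * x = x := by simp [add_mul, mul_assoc, xx, h1]
  have e2 : (x * y + y * x) * y = y := by simp [add_mul, mul_assoc, yy, h2]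
  have e3 : x * (x * y + y * x) = x := by simp [mul_add, xx', h1]
  have e4 : y * (x * y + y * x) = y := by simp [mul_add, yy', h2]
  have e5 : (x * y + y * x) * (x * y + y * x) = x * y + y * x := by
    rw [mul_add, ← mul_assoc, ← mul_assoc, e1, e2]
  let η : k →ₙ+* R :=
    { toFun := fun c => ι c • (x * y + y * x)
      map_mul' := fun a b => by rw [smul_mul_smul_comm, e5, map_mul]
      map_zero' := by simp
      map_add' := fun a b => by rw [map_add, add_smul] }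
  have hη : ∀ c, η c = ι c • (x * y + y * x) := fun _ => rfl
  obtain ⟨φ, a1, a2, -⟩ := exists_sl2_hom η (E := x) (F := y)
    (fun a => by rw [hη, smul_mul_assoc, mul_smul_comm, e1, e3])
    (fun a => by rw [hη, smul_mul_assoc, mul_smul_comm, e2, e4]) xx yy (by simp [hη])
    (by simp [hη, e1]) (by simp [hη, e2])
  exact ⟨φ, fun t => by rw [a1, hη, smul_mul_assoc, e1], fun t => by rw [a2, hη, smul_mul_assoc, e2]⟩

/-- the subgroup `{1 + c x}` -/
def TS (ι : k →+* F) (j : G →* R) (x : R) : Subgroup G :=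
  Subgroup.closure {g | ∃ c : k, j g = 1 + ι c • x}

/-- a family of square-zero elements giving root subgroups -/
structure MatFam (ι : k →+* F) (j : G →* R) (X : Set R) : Prop where
  inj : Function.Injective j
  sq : ∀ x ∈ X, x * x = 0
  ne : ∀ x ∈ X, x ≠ 0
  smul : ∀ x ∈ X, ∀ c : k, c ≠ 0 → ι c • x ∈ X
  ex : ∀ x ∈ X, ∃ g, j g = 1 + x
  conj : ∀ x ∈ X, ∀ g, j g * x * j g⁻¹ ∈ X
  pair : ∀ x ∈ X, ∀ y ∈ X, x * y = y * x ∨
    (∃ c : k, c ≠ 0 ∧ x * y * x = ι c • x ∧ y * x * y = ι c • y) ∨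
    (x * y * x = 0 ∧ y * x * y = 0 ∧ x * y - y * x ∈ X)

/-- the root subgroups of the family -/
def fam (ι : k →+* F) (j : G →* R) (X : Set R) : Set (Subgroup G) := {A | ∃ x ∈ X, A = TS ι j x}

/-- hyperbolic pairs -/
def Hyp (ι : k →+* F) (x y : R) : Prop :=
  ∃ c : k, c ≠ 0 ∧ x * y * x = ι c • x ∧ y * x * y = ι c • y

theorem Hyp.symm {ι : k →+* F} {x y : R} (h : Hyp ι x y) : Hyp ι y x := by
  obtain ⟨c, h1, h2, h3⟩ := h
  exact ⟨c, h1, h3, h2⟩

theorem mem_TS {ι : k →+* F} {j : G →* R} {x : R} (xx : x * x = 0) {g : G} :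
    g ∈ TS ι j x ↔ ∃ c : k, j g = 1 + ι c • x := by
  refine ⟨fun h => ?_, fun h => Subgroup.subset_closure h⟩
  induction h using Subgroup.closure_induction with
  | mem g hg => exact hg
  | one => exact ⟨0, by simp⟩
  | mul g h _ _ hg hh =>
    obtain ⟨c, hc⟩ := hg
    obtain ⟨d, hd⟩ := hh
    refine ⟨c + d, ?_⟩
    rw [map_mul, hc, hd]
    simp [mul_add, add_mul, xx, add_smul, add_assoc, add_comm, add_left_comm]
  | inv g _ hg =>
    obtain ⟨c, hc⟩ := hg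
    refine ⟨-c, ?_⟩
    have h1 : j g⁻¹ * j g = 1 := by rw [← map_mul, inv_mul_cancel, map_one]
    have h2 : j g * (1 + ι (-c) • x) = 1 := by
      rw [hc]; simp [mul_add, add_mul, xx]
    exact left_inv_eq_right_inv h1 h2

theorem TS_smul {ι : k →+* F} {j : G →* R} {x : R} {c : k} (hc : c ≠ 0) :
    TS ι j (ι c • x) = TS ι j x := by
  unfold TS
  congr 1
  ext g
  constructor
  · rintro ⟨d, hd⟩
    exact ⟨d * c, by rw [hd, smul_smul, map_mul]⟩
  · rintro ⟨d, hd⟩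
    exact ⟨d / c, by rw [hd, smul_smul, ← map_mul, div_mul_cancel₀ _ hc]⟩

namespace MatFam

variable {ι : k →+* F} {j : G →* R} {X : Set R} (h : MatFam ι j X) {x y : R}
include h

theorem ex' (hx : x ∈ X) (c : k) : ∃ g, j g = 1 + ι c • x := by
  by_cases hc : c = 0
  · exact ⟨1, by simp [hc]⟩
  · exact h.ex _ (h.smul x hx c hc)

theorem eq_one_iff (hx : x ∈ X) {g : G} {c : k} (hg : j g = 1 + ι c • x) : g = 1 ↔ c = 0 := by
  constructor
  · rintro rfl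
    rw [map_one, left_eq_add, smul_eq_zero] at hg
    simpa [h.ne x hx] using hg
  · rintro rfl
    exact h.inj (by simpa using hg)

theorem j_inv (hx : x ∈ X) {g : G} {c : k} (hg : j g = 1 + ι c • x) : j g⁻¹ = 1 - ι c • x := by
  have h1 : j g⁻¹ * j g = 1 := by rw [← map_mul, inv_mul_cancel, map_one]
  have h2 : j g * (1 - ι c • x) = 1 := by
    rw [hg]; simp [mul_sub, add_mul, h.sq x hx]
  exact left_inv_eq_right_inv h1 h2

theorem comm (hx : x ∈ X) (hy : y ∈ X) (e : x * y = y * x) : Comm (TS ι j x) (TS ι j y) := by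
  intro a ha b hb
  obtain ⟨c, hc⟩ := (mem_TS (h.sq x hx)).1 ha
  obtain ⟨d, hd⟩ := (mem_TS (h.sq y hy)).1 hb
  apply h.inj
  rw [map_mul, map_mul, hc, hd]
  simp only [mul_add, add_mul, smul_mul_smul_comm, e, one_mul, mul_one, mul_comm (ι c)]
  abel

theorem ne_bot (hx : x ∈ X) : TS ι j x ≠ ⊥ := by
  obtain ⟨g, hg⟩ := h.ex' hx 1
  intro e
  have : g ∈ TS ι j x := (mem_TS (h.sq x hx)).2 ⟨1, hg⟩
  rw [e, Subgroup.mem_bot, h.eq_one_iff hx hg] at this
  exact one_ne_zero this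

theorem conjBy_TS (hx : x ∈ X) (g : G) : conjBy (TS ι j x) g = TS ι j (j g * x * j g⁻¹) := by
  have h1 : j g⁻¹ * j g = 1 := by rw [← map_mul, inv_mul_cancel, map_one]
  have h2 : j g * j g⁻¹ = 1 := by rw [← map_mul, mul_inv_cancel, map_one]
  ext a
  rw [mem_conjBy, mem_TS (h.sq x hx), mem_TS (h.sq _ (h.conj x hx g))]
  refine exists_congr fun c => ⟨fun e => ?_, fun e => ?_⟩
  · have : j a = j g * j (g⁻¹ * a * g) * j g⁻¹ := by rw [← map_mul, ← map_mul]; congr 1; group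
    rw [this, e, mul_add, add_mul, mul_one, h2, mul_smul_comm, smul_mul_assoc]
  · rw [map_mul, map_mul, e, mul_add, add_mul, mul_one, h1, mul_smul_comm, smul_mul_assoc,
      ← mul_assoc, ← mul_assoc, h1, one_mul, mul_assoc, h1, mul_one]

theorem psl2 (hx : x ∈ X) (hy : y ∈ X) (hp : Hyp ι x y) :
    IsPSL2PairOver k (TS ι j x) (TS ι j y) := by
  obtain ⟨c, hc, h1, h2⟩ := hp
  have hc' : ι c ≠ 0 := by simpa using hc
  have hy' := h.smul y hy c⁻¹ (inv_ne_zero hc)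
  rw [← TS_smul (x := y) (inv_ne_zero hc)]
  have h3 : x * (ι c⁻¹ • y) * x = x := by
    rw [mul_smul_comm, smul_mul_assoc, h1, smul_smul, map_inv₀, inv_mul_cancel₀ hc', one_smul]
  have h4 : (ι c⁻¹ • y) * x * (ι c⁻¹ • y) = ι c⁻¹ • y := by
    rw [mul_smul_comm, smul_mul_assoc, smul_mul_assoc, h2, smul_smul (ι c⁻¹) (ι c), map_inv₀,
      inv_mul_cancel₀ hc', one_smul]
  generalize ι c⁻¹ • y = z at hy' h3 h4
  obtain ⟨φ, a1, a2⟩ := exists_hom_of_pair_alg ι (h.sq x hx) (h.sq z hy') h3 h4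
  have hinj : Function.Injective j.toHomUnits := fun a b e => h.inj (congrArg Units.val e)
  have hr : ∀ g, φ g ∈ j.toHomUnits.range := by
    intro g
    induction g using sl2_induction with
    | h1 t => obtain ⟨a, ha⟩ := h.ex' hx t; exact ⟨a, Units.ext (by rw [a1]; exact ha)⟩
    | h2 t => obtain ⟨a, ha⟩ := h.ex' hy' t; exact ⟨a, Units.ext (by rw [a2]; exact ha)⟩
    | hmul A B hA hB => rw [map_mul]; exact mul_mem hA hB
  let ψ : Matrix.SpecialLinearGroup (Fin 2) k →* G :=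
    (MonoidHom.ofInjective hinj).symm.toMonoidHom.comp (φ.codRestrict _ hr)
  have hψ : ∀ g, j (ψ g) = φ g := fun g =>
    congrArg Units.val (MonoidHom.apply_ofInjective_symm hinj ⟨φ g, hr g⟩)
  refine psl2_of_hom ψ ?_ ?_ fun e => ?_
  · ext a
    rw [mem_TS (h.sq x hx)]
    constructor
    · rintro ⟨g, hg, rfl⟩
      obtain ⟨t, rfl⟩ := mem_upper.1 hg
      exact ⟨t, by rw [hψ, a1]⟩
    · rintro ⟨t, ht⟩
      exact ⟨xu t, mem_upper.2 ⟨t, rfl⟩, h.inj (by rw [hψ, a1, ht])⟩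
  · ext a
    rw [mem_TS (h.sq z hy')]
    constructor
    · rintro ⟨g, hg, rfl⟩
      obtain ⟨t, rfl⟩ := mem_lower.1 hg
      exact ⟨t, by rw [hψ, a2]⟩
    · rintro ⟨t, ht⟩
      exact ⟨xl t, mem_lower.2 ⟨t, rfl⟩, h.inj (by rw [hψ, a2, ht])⟩
  · obtain ⟨g, hg⟩ := h.ex' hx 1
    have : g ∈ TS ι j z := e ▸ (mem_TS (h.sq x hx)).2 ⟨1, hg⟩
    obtain ⟨t, ht⟩ := (mem_TS (h.sq z hy')).1 this
    rw [hg, map_one, one_smul, add_right_inj] at ht
    apply h.ne x hx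
    rw [← h3]
    conv_lhs => rw [ht, smul_mul_assoc, h.sq z hy']
    simp

theorem r1 (hx : x ∈ X) (hy : y ∈ X) (hp : Hyp ι x y) : IsRankOnePair (TS ι j x) (TS ι j y) :=
  (special_of_psl2 (h.psl2 hx hy hp)).1

theorem j_comm (hx : x ∈ X) (hy : y ∈ X) (h1 : x * y * x = 0) (h2 : y * x * y = 0) {a b : G}
    {s t : k} (ha : j a = 1 + ι s • x) (hb : j b = 1 + ι t • y) :
    j (a * b * a⁻¹ * b⁻¹) = 1 + ι (s * t) • (x * y - y * x) := by
  have xx := h.sq x hx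
  have yy := h.sq y hy
  rw [mul_assoc] at h1 h2
  have xx' : ∀ r, x * (x * r) = 0 := fun r => by rw [← mul_assoc, xx, zero_mul]
  have yy' : ∀ r, y * (y * r) = 0 := fun r => by rw [← mul_assoc, yy, zero_mul]
  have h1' : ∀ r, x * (y * (x * r)) = 0 := fun r => by
    rw [← mul_assoc y, ← mul_assoc, h1, zero_mul]
  rw [map_mul, map_mul, map_mul, h.j_inv hx ha, h.j_inv hy hb, ha, hb, map_mul]
  simp only [mul_add, add_mul, mul_sub, sub_mul, mul_one, one_mul, mul_smul_comm, smul_mul_assoc,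
    mul_assoc, xx, yy, xx', yy', h1, h2, h1', smul_zero, mul_zero, zero_mul]
  module

theorem psi (hx : x ∈ X) (hy : y ∈ X) (h1 : x * y * x = 0) (h2 : y * x * y = 0)
    (hz : x * y - y * x ∈ X) :
    ⁅TS ι j x, TS ι j y⁆ = TS ι j (x * y - y * x) ∧ Psi (fam ι j X) (TS ι j x) (TS ι j y) := by
  have xx := h.sq x hx
  have yy := h.sq y hy
  have zz := h.sq _ hz
  have sL : ∀ a ∈ TS ι j x, a ≠ 1 → ∀ c ∈ TS ι j (x * y - y * x), ∃ b ∈ TS ι j y,
      c = a * b * a⁻¹ * b⁻¹ := by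
    intro a ha ha1 c hc
    obtain ⟨s, hs⟩ := (mem_TS xx).1 ha
    obtain ⟨u, hu⟩ := (mem_TS zz).1 hc
    have hs0 : s ≠ 0 := fun e => ha1 ((h.eq_one_iff hx hs).2 e)
    obtain ⟨b, hb⟩ := h.ex' hy (u / s)
    refine ⟨b, (mem_TS yy).2 ⟨_, hb⟩, h.inj ?_⟩
    rw [h.j_comm hx hy h1 h2 hs hb, hu, mul_div_cancel₀ _ hs0]
  have sR : ∀ b ∈ TS ι j y, b ≠ 1 → ∀ c ∈ TS ι j (x * y - y * x), ∃ a ∈ TS ι j x,
      c = a * b * a⁻¹ * b⁻¹ := by
    intro b hb hb1 c hc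
    obtain ⟨s, hs⟩ := (mem_TS yy).1 hb
    obtain ⟨u, hu⟩ := (mem_TS zz).1 hc
    have hs0 : s ≠ 0 := fun e => hb1 ((h.eq_one_iff hy hs).2 e)
    obtain ⟨a, ha⟩ := h.ex' hx (u / s)
    refine ⟨a, (mem_TS xx).2 ⟨_, ha⟩, h.inj ?_⟩
    rw [h.j_comm hx hy h1 h2 ha hs, hu, div_mul_cancel₀ _ hs0]
  have e : ⁅TS ι j x, TS ι j y⁆ = TS ι j (x * y - y * x) := by
    apply le_antisymm
    · rw [Subgroup.commutator_le]
      intro a ha b hb
      obtain ⟨s, hs⟩ := (mem_TS xx).1 ha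
      obtain ⟨t, ht⟩ := (mem_TS yy).1 hb
      exact (mem_TS zz).2 ⟨_, h.j_comm hx hy h1 h2 hs ht⟩
    · intro c hc
      obtain ⟨a, ha, ha1⟩ := exists_ne_one_of_ne_bot (h.ne_bot hx)
      obtain ⟨b, hb, rfl⟩ := sL a ha ha1 c hc
      exact comm_mem ha hb
  refine ⟨e, ?_⟩
  refine ⟨e ▸ ⟨_, hz, rfl⟩, e ▸ h.comm hz hx ?_, e ▸ h.comm hz hy ?_, e ▸ sL, e ▸ sR⟩
  · rw [sub_mul, mul_sub, h1, ← mul_assoc, ← mul_assoc, h1, xx, mul_assoc, xx]; simp
  · rw [sub_mul, mul_sub, h2, ← mul_assoc, ← mul_assoc, h2, yy, mul_assoc, yy]; simp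

theorem conj_mem {A : Subgroup G} (hA : A ∈ fam ι j X) (g : G) : conjBy A g ∈ fam ι j X := by
  obtain ⟨x, hx, rfl⟩ := hA
  exact ⟨_, h.conj x hx g, h.conjBy_TS hx g⟩

theorem preRoot : PreRoot (fam ι j X) := by
  refine ⟨?_, ?_, fun A hA g _ => h.conj_mem hA g, ?_⟩
  · rintro _ ⟨x, hx, rfl⟩; exact h.comm hx hx rfl
  · rintro _ ⟨x, hx, rfl⟩; exact h.ne_bot hx
  · rintro _ ⟨x, hx, rfl⟩ _ ⟨y, hy, rfl⟩
    rcases h.pair x hx y hy with h1 | h1 | ⟨h1, h2, h3⟩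
    · exact Or.inl (h.comm hx hy h1)
    · exact Or.inr (Or.inl (h.r1 hx hy h1))
    · exact Or.inr (Or.inr (h.psi hx hy h1 h2 h3).2)

theorem psl2_of_r1 {A B : Subgroup G} (hA : A ∈ fam ι j X) (hB : B ∈ fam ι j X)
    (hr : IsRankOnePair A B) : IsPSL2PairOver k A B := by
  obtain ⟨x, hx, rfl⟩ := hA
  obtain ⟨y, hy, rfl⟩ := hB
  rcases h.pair x hx y hy with h1 | h1 | ⟨h1, h2, h3⟩
  · exact absurd (h.comm hx hy h1) (r1_not_comm hr)
  · exact h.psl2 hx hy h1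
  · exact absurd hr ((h.psi hx hy h1 h2 h3).2.not_r1 (h.comm hx hx rfl))

theorem rootSet (hg : gen (fam ι j X) = ⊤) : IsRootSubgroupSet (fam ι j X) := by
  refine ⟨fun A hA => comm_self_iff.1 (h.preRoot.comm A hA), h.preRoot.ne_bot, hg,
    fun A hA g => h.conj_mem hA g, fun A hA B hB => ?_⟩
  rw [← comm_iff, ← psi_iff]
  exact h.preRoot.pair A hA B hB

theorem kRootSet (hg : gen (fam ι j X) = ⊤) : IsKRootSubgroupSet k (fam ι j X) :=
  ⟨h.rootSet hg, fun _ hA _ hB hr => h.psl2_of_r1 hA hB hr⟩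

theorem not_psi (hd : ∀ x ∈ X, ∀ y ∈ X, x * y = y * x ∨ Hyp ι x y) {A B : Subgroup G}
    (hA : A ∈ fam ι j X) (hB : B ∈ fam ι j X) : ¬ Psi (fam ι j X) A B := by
  intro hp
  obtain ⟨x, hx, rfl⟩ := hA
  obtain ⟨y, hy, rfl⟩ := hB
  rcases hd x hx y hy with h1 | h1
  · exact h.preRoot.ne_bot _ hp.mem (comm_iff.1 (h.comm hx hy h1))
  · exact hp.not_r1 (h.comm hx hx rfl) (h.r1 hx hy h1)

theorem degenerate (hd : ∀ x ∈ X, ∀ y ∈ X, x * y = y * x ∨ Hyp ι x y) :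
    IsDegenerateRootSet (fam ι j X) :=
  fun _ hA _ hB hp => h.not_psi hd hA hB (psi_iff.2 hp)

theorem degenerate_inner (hd : ∀ x ∈ X, ∀ y ∈ X, x * y = y * x ∨ Hyp ι x y) :
    IsDegenerateRootSet (inner (fam ι j X)) :=
  fun _ hA _ hB hp => h.not_psi hd (mem_inner.1 hA) (mem_inner.1 hB)
    ((psi_map_iff _ (gen _).subtype_injective (fun _ => mem_inner)).2 (psi_iff.2 hp))

theorem reach (hx : x ∈ X) (hy : y ∈ X) (hp : Hyp ι x y) :
    FReach (fam ι j X) (TS ι j x) (TS ι j y) :=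
  Relation.ReflTransGen.single ⟨⟨x, hx, rfl⟩, ⟨y, hy, rfl⟩, h.r1 hx hy hp⟩

theorem reach_two {z : R} (hx : x ∈ X) (hy : y ∈ X) (hz : z ∈ X) (hp : Hyp ι x z)
    (hq : Hyp ι y z) : FReach (fam ι j X) (TS ι j x) (TS ι j y) :=
  (h.reach hx hz hp).trans (h.reach hz hy hq.symm)

end MatFam

theorem psl2_of_map {H : Type*} [Group H] (f : H →* G) (hf : Function.Injective f)
    {A B : Subgroup H} (h : IsPSL2PairOver k (A.map f) (B.map f)) : IsPSL2PairOver k A B := by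
  have hne := (special_of_psl2 h).1.ne
  obtain ⟨φ, hr, -, hA, hB⟩ := h
  have hm : ∀ g, φ g ∈ f.range := by
    intro g
    have : φ g ∈ φ.range := ⟨g, rfl⟩
    rw [hr, ← Subgroup.map_sup] at this
    exact Subgroup.map_le_range _ _ this
  let ψ : Matrix.SpecialLinearGroup (Fin 2) k →* H :=
    (MonoidHom.ofInjective hf).symm.toMonoidHom.comp (φ.codRestrict _ hm)
  have hψ : f.comp ψ = φ := MonoidHom.ext fun g =>
    MonoidHom.apply_ofInjective_symm hf ⟨φ g, hm g⟩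
  refine psl2_of_hom ψ (Subgroup.map_injective hf ?_) (Subgroup.map_injective hf ?_)
    (fun e => hne (by rw [e]))
  · rw [Subgroup.map_map, hψ, hA]
  · rw [Subgroup.map_map, hψ, hB]

theorem MatFam.kRootSet_inner {ι : k →+* F} {j : G →* R} {X : Set R} (h : MatFam ι j X) :
    IsKRootSubgroupSet k (inner (fam ι j X)) :=
  ⟨h.preRoot.rootSet, fun _ hA _ hB hr => psl2_of_map _ (gen _).subtype_injective
    (h.psl2_of_r1 (mem_inner.1 hA) (mem_inner.1 hB)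
      ((r1_map_iff _ (gen _).subtype_injective).2 hr))⟩

end Cfsg.Agent.Lib.Root
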