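import Cfsg.Agent.Lib.Root.MatSL

set_option autoImplicit false
set_option linter.unusedSectionVars false

/-! Matrix groups acting on column vectors. -/

namespace Cfsg.Agent.Lib.Root

open Cfsg Matrix

variable {n F G : Type*} [Fintype n] [DecidableEq n] [Field F] [Group G]

/-- matrices as endomorphisms -/
noncomputable def jEnd (f : G →* Matrix n n F) : G →* Module.End F (n → F) :=
  (Matrix.toLinAlgEquiv' (R := F) (n := n)).toMulEquiv.toMonoidHom.comp f

theorem jEnd_apply (f : G →* Matrix n n F) (g : G) (v : n → F) : jEnd f g v = f g *ᵥ v := rfl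

theorem jEnd_inj {f : G →* Matrix n n F} (hf : Function.Injective f) :
    Function.Injective (jEnd f) :=
  (Matrix.toLinAlgEquiv' (R := F) (n := n)).injective.comp hf

theorem jEnd_eq_iff {f : G →* Matrix n n F} {g : G} {x : Module.End F (n → F)} {c : F} :
    jEnd f g = 1 + c • x ↔ ∀ v, f g *ᵥ v = v + c • x v := by
  rw [LinearMap.ext_iff]; rfl

theorem mulVec_inv_mulVec (f : G →* Matrix n n F) (g : G) (v : n → F) :
    f g *ᵥ (f g⁻¹ *ᵥ v) = v := by
  rw [mulVec_mulVec, ← map_mul, mul_inv_cancel, map_one, one_mulVec]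

theorem inv_mulVec_mulVec (f : G →* Matrix n n F) (g : G) (v : n → F) :
    f g⁻¹ *ᵥ (f g *ᵥ v) = v := by
  rw [mulVec_mulVec, ← map_mul, inv_mul_cancel, map_one, one_mulVec]

theorem mulVec_ne_zero (f : G →* Matrix n n F) (g : G) {v : n → F} (hv : v ≠ 0) :
    f g *ᵥ v ≠ 0 := fun e => hv (by rw [← inv_mulVec_mulVec f g v, e, mulVec_zero])

end Cfsg.Agent.Lib.Root
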