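import Cfsg.Agent.Lib.Root.Mat
import Cfsg.Agent.Lib.Root.Inv1

set_option autoImplicit false
set_option linter.unusedSectionVars false

/-! Transvection groups of the special linear group; root involutions from matrix families. -/

namespace Cfsg.Agent.Lib.Root

open Cfsg Matrix Cfsg.Agent.Lib.Invol

section Inv
variable {k F R G : Type*} [Field k] [Field F] [Ring R] [Algebra F R] [Group G]

theorem sl2_sq [CharP k 2] (s : k) : xu s * xu s = 1 ∧ xl s * xl s = 1 := by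
  have h2 : s + s = 0 := CharTwo.add_self_eq_zero s
  rw [← xu_add, ← xl_add, h2]
  exact ⟨stRel_sl2.x_zero, stRel_sl2.y_zero⟩

theorem sl2_odd [Finite k] [CharP k 2] {s t : k} (hs : s ≠ 0) (ht : t ≠ 0) :
    Odd (orderOf (xu s * xl t)) := by
  by_contra h
  rw [Nat.not_odd_iff_even] at h
  obtain ⟨h1, h2, h3⟩ := half_pow_central (sl2_sq s).1 (sl2_sq t).2 h
  generalize (xu s * xl t) ^ (orderOf (xu s * xl t) / 2) = z at h1 h2 h3
  apply ne_one_of_orderOf_two h1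
  have e1 := congrArg (fun g : SpecialLinearGroup (Fin 2) k => g.1 0 0) h2.eq
  have e2 := congrArg (fun g : SpecialLinearGroup (Fin 2) k => g.1 0 1) h2.eq
  have e3 := congrArg (fun g : SpecialLinearGroup (Fin 2) k => g.1 0 0) h3.eq
  simp [Matrix.mul_apply, Fin.sum_univ_two, hs, ht] at e1 e2 e3
  have e4 : z 0 0 = z 1 1 := by
    apply mul_left_cancel₀ hs
    linear_combination e2
  have hd := z.det_coe
  rw [det_fin_two] at hd
  have e5 : z 0 0 = 1 := by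
    have h2 : (2 : k) = 0 := CharTwo.two_eq_zero
    have : (z 0 0 - 1) ^ 2 = 0 := by
      have hd' : z 0 0 * z 1 1 - z 0 1 * z 1 0 = 1 := hd
      rw [← e4, e3] at hd'
      linear_combination hd' + (1 - z 0 0) * h2
    simpa [sub_eq_zero] using this
  apply Subtype.ext
  ext i j
  fin_cases i <;> fin_cases j
  · exact e5
  · exact e3
  · exact e1
  · exact e4 ▸ e5

theorem sl2_cube [CharP k 2] : (xu (1 : k) * xl 1) ^ 3 = 1 := by
  have h2 : (2 : k) = 0 := CharTwo.two_eq_zero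
  apply Subtype.ext
  ext i j
  fin_cases i <;> fin_cases j <;> simp [pow_succ, Matrix.mul_apply, Fin.sum_univ_two]
  · linear_combination 6 * h2
  · linear_combination 4 * h2
  · linear_combination 4 * h2
  · linear_combination 2 * h2

/-- the elements `1 + x` -/
def elts (j : G →* R) (X : Set R) : Set G := {g | ∃ x ∈ X, j g = 1 + x}

namespace MatFam

variable {ι : k →+* F} {j : G →* R} {X : Set R} (h : MatFam ι j X)
include h

theorem elts_mem_TS {x : R} (hx : x ∈ X) {g : G} (hg : j g = 1 + x) : g ∈ TS ι j x :=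
  (mem_TS (h.sq x hx)).2 ⟨1, by simpa using hg⟩

theorem elts_ne_one {g : G} (hg : g ∈ elts j X) : g ≠ 1 := by
  obtain ⟨x, hx, e⟩ := hg
  intro h1
  exact one_ne_zero ((h.eq_one_iff hx (c := 1) (by simpa using e)).1 h1)

theorem elts_conj {a : G} (ha : a ∈ elts j X) (g : G) : g * a * g⁻¹ ∈ elts j X := by
  obtain ⟨x, hx, e⟩ := ha
  refine ⟨_, h.conj x hx g, ?_⟩
  rw [map_mul, map_mul, e, mul_add, add_mul, mul_one, ← map_mul, mul_inv_cancel, map_one]

theorem closure_elts : Subgroup.closure (elts j X) = gen (fam ι j X) := by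
  apply le_antisymm
  · rw [Subgroup.closure_le]
    rintro g ⟨x, hx, e⟩
    exact le_gen (S := fam ι j X) ⟨x, hx, rfl⟩ (h.elts_mem_TS hx e)
  · refine iSup₂_le ?_
    rintro _ ⟨x, hx, rfl⟩ g hg
    obtain ⟨c, hc⟩ := (mem_TS (h.sq x hx)).1 hg
    by_cases h0 : c = 0
    · rw [(h.eq_one_iff hx hc).2 h0]; exact one_mem _
    · exact Subgroup.subset_closure ⟨_, h.smul x hx c h0, hc⟩

theorem elts_sq [CharP k 2] {a : G} (ha : a ∈ elts j X) : a * a = 1 := by
  obtain ⟨x, hx, e⟩ := ha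
  apply h.inj
  have : x + x = 0 := by
    rw [← two_smul F x, ← map_ofNat ι 2, CharTwo.two_eq_zero (R := k), map_zero, zero_smul]
  rw [map_mul, e, map_one, mul_add, add_mul, add_mul, h.sq x hx]
  simp [add_assoc, this]

theorem elts_tri [CharP k 2] {a b : G} (ha : a ∈ elts j X) (hb : b ∈ elts j X) :
    a * b = b * a ∨ (∃ s t : k, s ≠ 0 ∧ t ≠ 0 ∧ orderOf (a * b) ∣ orderOf (xu s * xl t)) ∨
      (orderOf (a * b) = 4 ∧ (a * b) ^ 2 ∈ elts j X) := by
  have ha1 := h.elts_ne_one ha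
  have hb1 := h.elts_ne_one hb
  have ha2 := h.elts_sq ha
  have hb2 := h.elts_sq hb
  obtain ⟨x, hx, ea⟩ := ha
  obtain ⟨y, hy, eb⟩ := hb
  have ma := h.elts_mem_TS hx ea
  have mb := h.elts_mem_TS hy eb
  rcases h.pair x hx y hy with h1 | h1 | ⟨h1, h2, h3⟩
  · exact Or.inl (h.comm hx hy h1 a ma b mb)
  · right; left
    obtain ⟨φ, -, -, hA, hB⟩ := h.psl2 hx hy h1
    rw [← hA] at ma
    rw [← hB] at mb
    obtain ⟨_, ma, rfl⟩ := ma
    obtain ⟨_, mb, rfl⟩ := mb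
    obtain ⟨s, rfl⟩ := mem_upper.1 ma
    obtain ⟨t, rfl⟩ := mem_lower.1 mb
    refine ⟨s, t, ?_, ?_, by rw [← map_mul]; exact orderOf_map_dvd _ _⟩
    · rintro rfl; exact ha1 (by rw [stRel_sl2.x_zero, map_one])
    · rintro rfl; exact hb1 (by rw [stRel_sl2.y_zero, map_one])
  · right; right
    have hm : (a * b) ^ 2 ∈ elts j X := by
      refine ⟨_, h3, ?_⟩
      have := h.j_comm hx hy h1 h2 (s := 1) (t := 1) (a := a) (b := b) (by simpa using ea)
        (by simpa using eb)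
      rw [inv_eq_of_mul_eq_one_right ha2, inv_eq_of_mul_eq_one_right hb2] at this
      rw [pow_two, ← mul_assoc, this]; simp
    refine ⟨?_, hm⟩
    haveI : Fact (Nat.Prime 2) := ⟨Nat.prime_two⟩
    exact orderOf_eq_prime_pow (p := 2) (n := 1) (h.elts_ne_one hm)
      (by rw [show 2 ^ (1 + 1) = 2 * 2 by rfl, pow_mul, pow_two ((a * b) ^ 2), h.elts_sq hm])

theorem rootInv [CharP k 2] [Finite k] (hg : gen (fam ι j X) = ⊤) :
    IsRootInvolutionSet (elts j X) := by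
  refine ⟨fun a ha => orderOf_two_of (h.elts_sq ha) (h.elts_ne_one ha), h.closure_elts.trans hg,
    fun a ha g => h.elts_conj ha g, fun a ha b hb => ?_⟩
  refine (h.elts_tri ha hb).imp_right (Or.imp_left ?_)
  rintro ⟨s, t, hs, ht, hd⟩
  exact (sl2_odd hs ht).of_dvd_nat hd

theorem threeFour [CharP k 2] [Finite k] (hg : gen (fam ι j X) = ⊤) (h2 : ∀ s : k, s ≠ 0 → s = 1) :
    IsThreeFourPlusTranspositionSet (elts j X) := by
  refine ⟨h.rootInv hg, fun a ha b hb hodd => ?_⟩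
  rcases h.elts_tri ha hb with h1 | ⟨s, t, hs, ht, hd⟩ | h1
  · left
    rw [orderOf_eq_one_iff]
    refine eq_one_of_odd_pow hodd 1 ?_
    rw [pow_one, Commute.mul_pow h1, pow_two, pow_two, h.elts_sq ha, h.elts_sq hb, one_mul]
  · rw [h2 s hs, h2 t ht] at hd
    exact (Nat.dvd_prime Nat.prime_three).1 (hd.trans (orderOf_dvd_of_pow_eq_one sl2_cube))
  · rw [h1.1] at hodd; exact absurd hodd (by decide)

end MatFam

end Inv

variable {n F : Type*} [Fintype n] [DecidableEq n] [Field F]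

theorem vv_mul (u v w x : n → F) :
    vecMulVec u v * vecMulVec w x = (v ⬝ᵥ w) • vecMulVec u x := by
  rw [vecMulVec_mul_vecMulVec, vecMulVec_smul]

theorem det_one_add_vv (u v : n → F) : det (1 + vecMulVec u v) = 1 + v ⬝ᵥ u := by
  rw [vecMulVec_eq Unit, det_one_add_replicateCol_mul_replicateRow]

theorem exists_dot_ne {p : n → F} (hp : p ≠ 0) : ∃ u : n → F, u ⬝ᵥ p ≠ 0 := by
  obtain ⟨i, hi⟩ := Function.ne_iff.1 hp
  exact ⟨Pi.single i 1, by simpa using hi⟩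

theorem exists_two_ne {V : Type*} [AddCommGroup V] (f g : V →+ F) (hf : ∃ u, f u ≠ 0)
    (hg : ∃ u, g u ≠ 0) : ∃ u, f u ≠ 0 ∧ g u ≠ 0 := by
  obtain ⟨u, hu⟩ := hf
  obtain ⟨v, hv⟩ := hg
  by_cases h1 : g u = 0
  · by_cases h2 : f v = 0
    · exact ⟨u + v, by simpa [h2] using hu, by simpa [h1] using hv⟩
    · exact ⟨v, h2, hv⟩
  · exact ⟨u, hu, h1⟩

theorem exists_dot_ne_two {p q : n → F} (hp : p ≠ 0) (hq : q ≠ 0) :
    ∃ u : n → F, u ⬝ᵥ p ≠ 0 ∧ u ⬝ᵥ q ≠ 0 :=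
  exists_two_ne (AddMonoidHom.mk' (fun u => u ⬝ᵥ p) (fun _ _ => add_dotProduct _ _ _))
    (AddMonoidHom.mk' (fun u => u ⬝ᵥ q) (fun _ _ => add_dotProduct _ _ _))
    (exists_dot_ne hp) (exists_dot_ne hq)

/-- rank one square-zero matrices -/
def XSL (n F : Type*) [Fintype n] [Field F] : Set (Matrix n n F) :=
  {x | ∃ p φ : n → F, p ≠ 0 ∧ φ ≠ 0 ∧ φ ⬝ᵥ p = 0 ∧ x = vecMulVec p φ}

/-- the inclusion of `SL` into the matrices -/
def jSL (n F : Type*) [Fintype n] [DecidableEq n] [Field F] :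
    Matrix.SpecialLinearGroup n F →* Matrix n n F := SpecialLinearGroup.coeMonoidHom

theorem jSL_apply (g : Matrix.SpecialLinearGroup n F) : jSL n F g = g.1 := rfl

theorem hyp_vv {p φ q ψ : n → F} (h1 : φ ⬝ᵥ q ≠ 0) (h2 : ψ ⬝ᵥ p ≠ 0) :
    Hyp (RingHom.id F) (vecMulVec p φ) (vecMulVec q ψ) :=
  ⟨(φ ⬝ᵥ q) * (ψ ⬝ᵥ p), mul_ne_zero h1 h2, by simp [vv_mul, smul_smul],
    by simp [vv_mul, smul_smul, mul_comm]⟩

theorem matFam_SL : MatFam (RingHom.id F) (jSL n F)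
    (XSL n F) := by
  refine ⟨Subtype.val_injective, ?_, ?_, ?_, ?_, ?_, ?_⟩
  · rintro _ ⟨p, φ, -, -, h, rfl⟩; rw [vv_mul, h, zero_smul]
  · rintro _ ⟨p, φ, h1, h2, -, rfl⟩; simp [h1, h2]
  · rintro _ ⟨p, φ, h1, h2, h, rfl⟩ c hc
    exact ⟨c • p, φ, smul_ne_zero hc h1, h2, by simp [h], by simp⟩
  · rintro _ ⟨p, φ, -, -, h, rfl⟩
    exact ⟨⟨1 + vecMulVec p φ, by rw [det_one_add_vv, h, add_zero]⟩, rfl⟩
  · rintro _ ⟨p, φ, h1, h2, h, rfl⟩ g
    have e1 : (g⁻¹).1 * g.1 = 1 := congrArg Subtype.val (inv_mul_cancel g)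
    refine ⟨g.1 *ᵥ p, φ ᵥ* (g⁻¹).1, fun e => h1 ?_, fun e => h2 ?_, ?_, ?_⟩
    · rw [← one_mulVec p, ← e1, ← mulVec_mulVec, e, mulVec_zero]
    · rw [← vecMul_one φ, ← e1, ← vecMul_vecMul, e, zero_vecMul]
    · rw [dotProduct_mulVec, vecMul_vecMul, e1, vecMul_one, h]
    · rw [← vecMulVec_mul, ← mul_vecMulVec]; rfl
  · rintro _ ⟨p, φ, h1, h2, h, rfl⟩ _ ⟨q, ψ, h3, h4, h', rfl⟩
    by_cases ha : φ ⬝ᵥ q = 0
    · by_cases hb : ψ ⬝ᵥ p = 0
      · left; simp [vv_mul, ha, hb]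
      · right; right
        refine ⟨by simp [vv_mul, ha], by simp [vv_mul, ha], (-(ψ ⬝ᵥ p)) • q, φ,
          smul_ne_zero (neg_ne_zero.2 hb) h3, h2, by simp [ha], by simp [vv_mul, ha]⟩
    · by_cases hb : ψ ⬝ᵥ p = 0
      · right; right
        refine ⟨by simp [vv_mul, hb], by simp [vv_mul, hb], (φ ⬝ᵥ q) • p, ψ,
          smul_ne_zero ha h1, h4, by simp [hb], by simp [vv_mul, hb]⟩
      · exact Or.inr (Or.inl (hyp_vv ha hb))

theorem single_mem_XSL {i j : n} (hij : i ≠ j) : single i j (1 : F) ∈ XSL n F :=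
  ⟨Pi.single i 1, Pi.single j 1, by simp, by simp, by simp [hij.symm],
    single_eq_single_vecMulVec_single i j⟩

theorem gen_SL [Nontrivial n] :
    gen (fam (RingHom.id F) (jSL n F) (XSL n F)) = ⊤ := by
  rw [eq_top_iff]
  rintro g -
  have hT : ∀ (i j : n) (hij : i ≠ j) (a : F), SpecialLinearGroup.transvection hij a ∈
      gen (fam (RingHom.id F) (jSL n F) (XSL n F)) := by
    intro i j hij a
    refine le_gen (S := fam (RingHom.id F) (jSL n F) (XSL n F)) ⟨_, single_mem_XSL hij, rfl⟩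
      (Subgroup.subset_closure ⟨a, ?_⟩)
    simp [jSL_apply, SpecialLinearGroup.transvection_coe, Matrix.transvection]
  refine SpecialLinearGroup.diagonal_transvection_induction' (fun g => g ∈ _) g (fun i j hij c hc => ?_) hT
    (fun _ _ => mul_mem)
  have : SpecialLinearGroup.diag2n hij c hc =
      SpecialLinearGroup.transvection hij c * SpecialLinearGroup.transvection hij.symm (-c⁻¹) *
      SpecialLinearGroup.transvection hij c * SpecialLinearGroup.transvection hij (-1) *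
      SpecialLinearGroup.transvection hij.symm 1 * SpecialLinearGroup.transvection hij (-1) := by
    apply matFam_SL.inj
    have e : jSL n F (SpecialLinearGroup.diag2n hij c hc) =
        1 + (c - 1) • single i i (1 : F) + (c⁻¹ - 1) • single j j (1 : F) := by
      rw [jSL_apply, SpecialLinearGroup.diag2n_coe]
      ext a b
      by_cases hab : a = b
      · subst hab
        by_cases h1 : a = i
        · subst h1; simp [hij.symm]
        · by_cases h2 : a = j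
          · subst h2; simp [h1, Ne.symm h1]
          · simp [h1, h2, Ne.symm h1, Ne.symm h2]
      · simp [hab, single_apply, ite_and]
        aesop
    have t : ∀ (a b : n) (hab : a ≠ b) (d : F),
        jSL n F (SpecialLinearGroup.transvection hab d) = 1 + d • single a b (1 : F) := by
      intro a b hab d; simp [jSL_apply, SpecialLinearGroup.transvection_coe, Matrix.transvection]
    rw [e]
    simp only [map_mul, t, mul_add, add_mul,
      mul_one, one_mul, mul_smul_comm, smul_mul_assoc, single_mul_single_same,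
      single_mul_single_of_ne _ _ _ _ hij, single_mul_single_of_ne _ _ _ _ hij.symm, smul_zero,
      add_zero, smul_add]
    match_scalars <;> field_simp <;> ring
  rw [this]
  refine mul_mem (mul_mem (mul_mem (mul_mem (mul_mem ?_ ?_) ?_) ?_) ?_) ?_ <;> exact hT _ _ _ _

theorem exists_dot_zero_two (hn : 3 ≤ Fintype.card n) (p q : n → F) :
    ∃ u : n → F, u ≠ 0 ∧ u ⬝ᵥ p = 0 ∧ u ⬝ᵥ q = 0 := by
  let f : (n → F) →ₗ[F] F × F := ((dotProductBilin F F).flip p).prod ((dotProductBilin F F).flip q)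
  have : LinearMap.ker f ≠ ⊥ := LinearMap.ker_ne_bot_of_finrank_lt (by simp; omega)
  obtain ⟨u, hu, h0⟩ := Submodule.exists_mem_ne_zero_of_ne_bot this
  exact ⟨u, h0, congrArg Prod.fst hu, congrArg Prod.snd hu⟩

theorem connected_SL (hn : 3 ≤ Fintype.card n) :
    IsConnectedFamily
      (FAdj (fam (RingHom.id F) (jSL n F) (XSL n F)))
      (fam (RingHom.id F) (jSL n F) (XSL n F)) := by
  have h := matFam_SL (n := n) (F := F)
  have s1 : ∀ p p' φ : n → F, p ≠ 0 → p' ≠ 0 → φ ≠ 0 → φ ⬝ᵥ p = 0 → φ ⬝ᵥ p' = 0 →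
      FReach (fam (RingHom.id F) (jSL n F) (XSL n F))
        (TS (RingHom.id F) (jSL n F) (vecMulVec p φ))
        (TS (RingHom.id F) (jSL n F) (vecMulVec p' φ)) := by
    intro p p' φ hp hp' hφ e e'
    obtain ⟨q, hq⟩ := exists_dot_ne hφ
    rw [dotProduct_comm] at hq
    obtain ⟨ψ, h1, h2⟩ := exists_dot_ne_two hp hp'
    have h3 : (ψ - (ψ ⬝ᵥ q / φ ⬝ᵥ q) • φ) ⬝ᵥ p ≠ 0 := by simpa [e] using h1
    refine h.reach_two (z := vecMulVec q (ψ - (ψ ⬝ᵥ q / φ ⬝ᵥ q) • φ)) ⟨p, φ, hp, hφ, e, rfl⟩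
      ⟨p', φ, hp', hφ, e', rfl⟩ ⟨q, _, ?_, ?_, by simp [hq], rfl⟩ (hyp_vv hq h3)
      (hyp_vv hq (by simpa [e'] using h2))
    · rintro rfl; simp at hq
    · intro e; rw [e] at h3; simp at h3
  have s2 : ∀ p φ φ' : n → F, p ≠ 0 → φ ≠ 0 → φ' ≠ 0 → φ ⬝ᵥ p = 0 → φ' ⬝ᵥ p = 0 →
      FReach (fam (RingHom.id F) (jSL n F) (XSL n F))
        (TS (RingHom.id F) (jSL n F) (vecMulVec p φ))
        (TS (RingHom.id F) (jSL n F) (vecMulVec p φ')) := by
    intro p φ φ' hp hφ hφ' e e'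
    obtain ⟨ψ, hψ⟩ := exists_dot_ne hp
    obtain ⟨q, h1, h2⟩ := exists_dot_ne_two hφ hφ'
    rw [dotProduct_comm] at h1 h2
    have h3 : φ ⬝ᵥ (q - (ψ ⬝ᵥ q / ψ ⬝ᵥ p) • p) ≠ 0 := by simpa [e] using h1
    refine h.reach_two (z := vecMulVec (q - (ψ ⬝ᵥ q / ψ ⬝ᵥ p) • p) ψ) ⟨p, φ, hp, hφ, e, rfl⟩
      ⟨p, φ', hp, hφ', e', rfl⟩ ⟨_, ψ, ?_, ?_, by simp [hψ], rfl⟩ (hyp_vv h3 hψ)
      (hyp_vv (by simpa [e'] using h2) hψ)
    · intro e; rw [e] at h3; simp at h3
    · rintro rfl; simp at hψ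
  rintro _ ⟨_, ⟨p, φ, h1, h2, h3, rfl⟩, rfl⟩ _ ⟨_, ⟨p', φ', h1', h2', h3', rfl⟩, rfl⟩
  obtain ⟨ψ, hψ, e, e'⟩ := exists_dot_zero_two hn p p'
  exact ((s2 p φ ψ h1 h2 hψ h3 e).trans (s1 p p' ψ h1 h1' hψ e e')).trans
    (s2 p' ψ φ' h1' hψ h2' e' h3')

end Cfsg.Agent.Lib.Root
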