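import Cfsg.Agent.Lib.Root.Conj

set_option autoImplicit false

/-! Some nilpotency criteria. -/

namespace Cfsg.Agent.Lib.Root

open Cfsg Subgroup
open scoped commutatorElement

variable {G : Type*} [Group G]

theorem mem_ucs_succ_of_closure {s : Set G} (hs : Subgroup.closure s = ⊤) {n : ℕ} {x : G}
    (h : ∀ y ∈ s, ⁅x, y⁆ ∈ Subgroup.upperCentralSeries G n) : x ∈ Subgroup.upperCentralSeries G (n + 1) := by
  rw [Subgroup.mem_upperCentralSeries_succ_iff]
  intro y
  have hy : y ∈ Subgroup.closure s := hs ▸ trivial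
  have hn : (Subgroup.upperCentralSeries G n).Normal := inferInstance
  induction hy using closure_induction with
  | mem y hy => exact h y hy
  | one => simp
  | mul y z _ _ hy hz =>
    have : ⁅x, y * z⁆ = ⁅x, y⁆ * (y * ⁅x, z⁆ * y⁻¹) := by simp only [commutatorElement_def]; group
    rw [this]
    exact mul_mem hy (hn.conj_mem _ hz y)
  | inv y _ hy =>
    have : ⁅x, y⁻¹⁆ = y⁻¹ * ⁅x, y⁆⁻¹ * y⁻¹⁻¹ := by simp only [commutatorElement_def]; group
    rw [this]
    exact hn.conj_mem _ (inv_mem hy) _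

theorem nilpotent_of_quot_of_le_ucs (K : Subgroup G) [K.Normal] {m : ℕ}
    (hK : K ≤ Subgroup.upperCentralSeries G m) (h : Group.IsNilpotent (G ⧸ K)) : Group.IsNilpotent G := by
  obtain ⟨c, hc⟩ := h.nilpotent'
  have key : ∀ i, ∀ x : G, (x : G ⧸ K) ∈ Subgroup.upperCentralSeries (G ⧸ K) i →
      x ∈ Subgroup.upperCentralSeries G (m + i) := by
    intro i
    induction i with
    | zero => intro x hx; exact hK (by simpa using hx)
    | succ i ih =>
      intro x hx
      rw [← add_assoc, Subgroup.mem_upperCentralSeries_succ_iff]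
      intro y
      apply ih
      exact (Subgroup.mem_upperCentralSeries_succ_iff.1 hx) (y : G ⧸ K)
  refine ⟨⟨m + c, ?_⟩⟩
  rw [eq_top_iff]
  intro x _
  exact key c x (hc ▸ trivial)

/-- P. Hall's criterion for a normal subgroup of class at most two. -/
theorem nilpotent_of_class_two_normal (N : Subgroup G) [hN : N.Normal] (h2 : Comm ⁅N, N⁆ N)
    (h : Group.IsNilpotent (G ⧸ ⁅N, N⁆)) : Group.IsNilpotent G := by
  obtain ⟨c, hc⟩ := h.nilpotent'
  let T : ℕ → G → Prop := fun i x =>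
    x ∈ N ∧ (x : G ⧸ ⁅N, N⁆) ∈ Subgroup.upperCentralSeries (G ⧸ ⁅N, N⁆) i
  have T0 : ∀ x, T 0 x → ∀ y ∈ N, x * y = y * x := by
    intro x hx
    exact h2 x (by simpa using hx.2)
  have Ts : ∀ i x, T (i + 1) x → ∀ g : G, T i ⁅g, x⁆ := by
    intro i x hx g
    refine ⟨?_, ?_⟩
    · rw [commutatorElement_def]
      exact mul_mem (hN.conj_mem _ hx.1 g) (inv_mem hx.1)
    · rw [← commutatorElement_inv]
      exact inv_mem ((Subgroup.mem_upperCentralSeries_succ_iff.1 hx.2) (g : G ⧸ ⁅N, N⁆))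
  have Tm : ∀ i x, T i x → T (i + 1) x := fun i x hx =>
    ⟨hx.1, Subgroup.upperCentralSeries_mono _ (Nat.le_succ i) hx.2⟩
  have key : ∀ n i j, i + j = n → ∀ x y, T i x → T j y → ⁅x, y⁆ ∈ Subgroup.upperCentralSeries G n := by
    intro n
    induction n with
    | zero =>
      intro i j hij x y hx hy
      obtain rfl : i = 0 := by omega
      rw [commutatorElement_eq_one_iff_mul_comm.2 (T0 x hx y hy.1)]
      exact one_mem _
    | succ n ih =>
      intro i j hij x y hx hy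
      rcases i with _ | i
      · rw [commutatorElement_eq_one_iff_mul_comm.2 (T0 x hx y hy.1)]
        exact one_mem _
      rcases j with _ | j
      · rw [commutatorElement_eq_one_iff_mul_comm.2 (T0 y hy x hx.1).symm]
        exact one_mem _
      rw [Subgroup.mem_upperCentralSeries_succ_iff]
      intro g
      rw [← commutatorElement_inv]
      apply inv_mem
      have hu := Ts i x hx g
      have hv := Ts j y hy g
      set u := ⁅g, x⁆ with hu'
      set v := ⁅g, y⁆ with hv'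
      have c1 : ∀ a ∈ N, ∀ b ∈ N, ∀ z ∈ N, z * ⁅a, b⁆ * z⁻¹ = ⁅a, b⁆ := by
        intro a ha b hb z hz
        rw [← h2 _ (commutator_mem_commutator ha hb) z hz]; group
      have e1 : ∀ a ∈ N, ∀ b ∈ N, ∀ z ∈ N, ⁅a * b, z⁆ = ⁅b, z⁆ * ⁅a, z⁆ := by
        intro a ha b hb z hz
        rw [← c1 b hb z hz a ha]; simp only [commutatorElement_def]; group
      have e2 : ∀ a ∈ N, ∀ b ∈ N, ∀ z ∈ N, ⁅z, a * b⁆ = ⁅z, a⁆ * ⁅z, b⁆ := by
        intro a ha b hb z hz
        rw [← c1 z hz b hb a ha]; simp only [commutatorElement_def]; group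
      have e : ⁅g, ⁅x, y⁆⁆ = ⁅x, v⁆ * (⁅x, y⁆ * (⁅u, v⁆ * ⁅u, y⁆) * ⁅x, y⁆⁻¹) := by
        have : g * ⁅x, y⁆ * g⁻¹ = ⁅u * x, v * y⁆ := by
          rw [hu', hv']; simp only [commutatorElement_def]; group
        rw [commutatorElement_def g, this, e1 u hu.1 x hx.1 _ (mul_mem hv.1 hy.1),
          e2 v hv.1 y hy.1 x hx.1, e2 v hv.1 y hy.1 u hu.1]
        group
      rw [e]
      refine mul_mem (ih (i + 1) j (by omega) _ _ hx hv) (Normal.conj_mem inferInstance _
        (mul_mem (ih i (j + 1) (by omega) _ _ hu (Tm _ _ hv)) (ih i (j + 1) (by omega) _ _ hu hy)) _)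
  refine nilpotent_of_quot_of_le_ucs ⁅N, N⁆ (m := c + c) ?_ h
  rw [commutator_le]
  intro x hx y hy
  exact key _ c c rfl x y ⟨hx, hc ▸ trivial⟩ ⟨hy, hc ▸ trivial⟩

theorem commutator_sup_le_of_comm {X Y : Subgroup G} (h : Comm X Y) :
    ⁅X ⊔ Y, X ⊔ Y⁆ ≤ ⁅X, X⁆ ⊔ ⁅Y, Y⁆ := by
  rw [commutator_le]
  intro g hg g' hg'
  obtain ⟨x, hx, y, hy, rfl⟩ := h.mem_sup.1 hg
  obtain ⟨x', hx', y', hy', rfl⟩ := h.mem_sup.1 hg'
  have : ⁅x * y, x' * y'⁆ = ⁅x, x'⁆ * ⁅y, y'⁆ := by
    have a1 : Commute y x' := (h x' hx' y hy).symm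
    have a2 : Commute (y * y' * y⁻¹ * y'⁻¹) (x⁻¹ * x'⁻¹) :=
      (h _ (mul_mem (inv_mem hx) (inv_mem hx')) _
        (mul_mem (mul_mem (mul_mem hy hy') (inv_mem hy)) (inv_mem hy'))).symm
    have a3 : Commute (x⁻¹) (y'⁻¹) := h _ (inv_mem hx) _ (inv_mem hy')
    simp only [commutatorElement_def]
    calc x * y * (x' * y') * (x * y)⁻¹ * (x' * y')⁻¹
        = x * (y * x') * y' * y⁻¹ * (x⁻¹ * y'⁻¹) * x'⁻¹ := by group
      _ = x * x' * ((y * y' * y⁻¹ * y'⁻¹) * (x⁻¹ * x'⁻¹)) := by rw [a1.eq, a3.eq]; group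
      _ = _ := by rw [a2.eq]; group
  rw [this]
  exact mul_mem (mem_sup_left (commutator_mem_commutator hx hx'))
    (mem_sup_right (commutator_mem_commutator hy hy'))

/-- for two abelian subgroups whose commutator is central, the derived group of the join -/
theorem commutator_sup_le_of_class_two {A B : Subgroup G} (hA : Comm A A) (hB : Comm B B)
    (h1 : Comm ⁅A, B⁆ A) (h2 : Comm ⁅A, B⁆ B) : ⁅A ⊔ B, A ⊔ B⁆ ≤ ⁅A, B⁆ := by
  have hc := h1.sup_right h2
  have key : ∀ x ∈ A ⊔ B, (∀ a ∈ A, ⁅x, a⁆ ∈ ⁅A, B⁆) → (∀ a ∈ B, ⁅x, a⁆ ∈ ⁅A, B⁆) →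
      ∀ y ∈ A ⊔ B, ⁅x, y⁆ ∈ ⁅A, B⁆ := by
    intro x _ h1 h2 y hy
    rw [sup_eq_closure] at hy
    induction hy using closure_induction with
    | mem y hy => exact hy.elim (h1 y) (h2 y)
    | one => simp
    | mul y z hy' _ hy hz =>
      have : ⁅x, y * z⁆ = ⁅x, y⁆ * (y * ⁅x, z⁆ * y⁻¹) := by simp only [commutatorElement_def]; group
      rw [this, ← hc _ hz y (by rwa [sup_eq_closure]), mul_inv_cancel_right]
      exact mul_mem hy hz
    | inv y hy' hy =>
      have : ⁅x, y⁻¹⁆ = y⁻¹ * ⁅x, y⁆⁻¹ * y := by simp only [commutatorElement_def]; group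
      rw [this, mul_assoc, hc _ (inv_mem hy) y (by rwa [sup_eq_closure]), inv_mul_cancel_left]
      exact inv_mem hy
  rw [commutator_le]
  intro x hx y hy
  refine key x hx (fun a ha => ?_) (fun b hb => ?_) y hy
  · rw [← commutatorElement_inv]
    refine inv_mem (key a (mem_sup_left ha) (fun a' ha' => ?_) (fun b hb => ?_) x hx)
    · rw [commutatorElement_eq_one_iff_mul_comm.2 (hA a ha a' ha')]; exact one_mem _
    · exact commutator_mem_commutator ha hb
  · rw [← commutatorElement_inv]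
    refine inv_mem (key b (mem_sup_right hb) (fun a ha => ?_) (fun b' hb' => ?_) x hx)
    · rw [← commutatorElement_inv]; exact inv_mem (commutator_mem_commutator ha hb)
    · rw [commutatorElement_eq_one_iff_mul_comm.2 (hB b hb b' hb')]; exact one_mem _

end Cfsg.Agent.Lib.Root
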