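import Cfsg.Agent.Lib.Root.Disc2

set_option autoImplicit false
set_option linter.unusedSectionVars false

/-! # Odd transpositions: elementary facts -/

namespace Cfsg.Agent.Lib.Root

open Cfsg Cfsg.Agent.Lib.Invol

variable {G : Type*} [Group G] {D : Set G}

/-- a normal set of odd transpositions (not necessarily generating) -/
structure OT (D : Set G) : Prop where
  ord : ∀ d ∈ D, orderOf d = 2
  conj : ∀ d ∈ D, ∀ g : G, g * d * g⁻¹ ∈ D
  odd : ∀ a ∈ D, ∀ b ∈ D, ¬ Commute a b → Odd (orderOf (a * b))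

theorem OT.of (h : IsOddTranspositionSet D) : OT D :=
  ⟨h.1.orderOf_eq, h.1.conj_mem, fun a ha b hb hn => by
    rcases h.1.pair a ha b hb with h1 | h1 | h1
    exacts [absurd h1 hn, h1, absurd h1.1 (h.2 a ha b hb)]⟩

theorem commute_of_sq_odd {r c : G} (hr : Odd (orderOf r)) (h : Commute c (r * r)) : Commute c r := by
  obtain ⟨k, hk⟩ := hr
  have : r = (r * r) ^ (k + 1) := by
    rw [← pow_two, ← pow_mul, show 2 * (k + 1) = 2 * k + 1 + 1 by ring, ← hk, pow_succ,
      pow_orderOf_eq_one, one_mul]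
  rw [this]; exact h.pow_right _

theorem commute_conj_iff' {a b g : G} : Commute (g * a * g⁻¹) (g * b * g⁻¹) ↔ Commute a b :=
  ⟨fun h => by simpa [mul_assoc] using commute_conj h g⁻¹, fun h => commute_conj h g⟩

theorem conj_eq_of_commute {g a : G} (h : Commute g a) : g * a * g⁻¹ = a := by
  rw [h.eq, mul_inv_cancel_right]

namespace OT

variable (h : OT D)
include h

theorem ris (hg : Subgroup.closure D = ⊤) : IsRootInvolutionSet D :=
  ⟨h.ord, hg, h.conj, fun a ha b hb => by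
    by_cases hc : Commute a b
    exacts [.inl hc, .inr (.inl (h.odd a ha b hb hc))]⟩

theorem sq {d : G} (hd : d ∈ D) : d * d = 1 := mul_self_of_orderOf_two (h.ord d hd)

theorem inv {d : G} (hd : d ∈ D) : d⁻¹ = d := inv_eq_of_orderOf_two (h.ord d hd)

theorem ne_one {d : G} (hd : d ∈ D) : d ≠ 1 := ne_one_of_orderOf_two (h.ord d hd)

theorem cancel {d : G} (hd : d ∈ D) (x : G) : d * (d * x) = x := by rw [← mul_assoc, h.sq hd, one_mul]

theorem conj' {d g : G} (hd : d ∈ D) (hg : g ∈ D) : g * d * g ∈ D := by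
  simpa [h.inv hg] using h.conj d hd g

theorem eq_of_mul {a b : G} (ha : a ∈ D) (e : a * b = 1) : a = b := by
  rw [← h.inv ha]; exact inv_eq_of_mul_eq_one_right e

theorem prod_sq {a b : G} (ha : a ∈ D) (hb : b ∈ D) (hc : Commute a b) : a * b * (a * b) = 1 := by
  rw [mul_assoc, ← mul_assoc b, ← hc.eq, mul_assoc, h.sq hb, mul_one, h.sq ha]

theorem commute_of_sq {a b : G} (ha : a ∈ D) (hb : b ∈ D) (e : a * b * (a * b) = 1) : Commute a b := by
  have := inv_eq_of_mul_eq_one_right e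
  rw [mul_inv_rev, h.inv ha, h.inv hb] at this
  exact this.symm

theorem not_commute {a b : G} (ha : a ∈ D) (hb : b ∈ D) (hne : a ≠ b) (ho : Odd (orderOf (a * b))) :
    ¬ Commute a b := fun hc =>
  hne (h.eq_of_mul ha (eq_one_of_odd_pow ho 1 (by rw [pow_one, pow_two, h.prod_sq ha hb hc])))

/-- the members of `D` centralizing a commuting product -/
theorem comm_of_prod {a b c : G} (ha : a ∈ D) (hb : b ∈ D) (hne : a ≠ b) (hab : Commute a b)
    (hc : c ∈ D) (hx : Commute (a * b) c) : Commute a c := by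
  by_contra hn
  have e : a * (a * b) = b := by rw [← mul_assoc, h.sq ha, one_mul]
  have hn' : ¬ Commute b c := fun hbc => hn (by
    have := hx.mul_left hbc
    rwa [mul_assoc, h.sq hb, mul_one] at this)
  refine hne (h.eq_of_mul ha (eq_one_of_odd_mul (h.prod_sq ha hb hab)
    (((Commute.refl a).mul_left hab.symm).mul_right hx) (h.odd a ha c hc hn) ?_))
  have : a * b * (a * c) = b * c := by rw [hab.eq, mul_assoc, ← mul_assoc a, h.sq ha, one_mul]
  rw [this]; exact h.odd b hb c hc hn'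

theorem comm_of_prod' {a b c : G} (ha : a ∈ D) (hb : b ∈ D) (hne : a ≠ b) (hab : Commute a b)
    (hc : c ∈ D) (hx : Commute (a * b) c) : Commute b c :=
  h.comm_of_prod hb ha hne.symm hab.symm hc (hab.eq ▸ hx)

theorem comm_of_mul_mem {a b : G} (ha : a ∈ D) (hb : b ∈ D) (hab : a * b ∈ D) : Commute a b :=
  h.commute_of_sq ha hb (h.sq hab)

/-- collinear points have the same centralizer in `D` -/
theorem col {a b c : G} (ha : a ∈ D) (hb : b ∈ D) (hab : a * b ∈ D) (hc : c ∈ D) (hx : Commute a c) :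
    Commute b c := by
  have h1 := h.comm_of_mul_mem ha hb hab
  refine h.comm_of_prod hb hab (fun e => h.ne_one ha (by simpa using e.symm))
    (h1.symm.mul_right (Commute.refl b)) hc ?_
  rwa [h1.eq, ← mul_assoc, h.sq hb, one_mul]

theorem comm_of_conj {a b c : G} (ha : a ∈ D) (hb : b ∈ D) (hn : ¬ Commute a b) (h1 : Commute c a)
    (h2 : Commute c (b * a * b)) : Commute c b := by
  have h3 : Commute c (a * b) := commute_of_sq_odd (h.odd a ha b hb hn) (by
    simpa only [mul_assoc] using h1.mul_right h2)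
  have := h1.mul_right h3
  rwa [← mul_assoc, h.sq ha, one_mul] at this

theorem exists_conj {a b : G} (ha : a ∈ D) (hb : b ∈ D) (hn : ¬ Commute a b) :
    ∃ k : ℕ, (a * b) ^ k * a * ((a * b) ^ k)⁻¹ = b :=
  exists_pow_conj_of_odd (h.sq ha) (h.sq hb) (h.odd a ha b hb hn)

/-- the `z`-construction -/
theorem exists_cent {u x : G} (hu : u * u = 1) (huD : u ∉ D) (hx : x ∈ D)
    (hm : ¬ Commute x (u * x * u)) :
    ∃ f ∈ D, Commute u f ∧ Commute (u * f) x ∧ u * f ≠ 1 ∧ ¬ Commute x f ∧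
      (∃ k : ℕ, u * f = (x * u) ^ k) ∧ ∃ g ∈ Subgroup.zpowers (x * u), f = g * x * g⁻¹ := by
  have hui : u⁻¹ = u := inv_eq_of_mul_eq_one_right hu
  obtain ⟨k, hk⟩ := h.odd x hx _ (hui ▸ h.conj x hx u) (hui.symm ▸ hm)
  have hinv := conj_mul_eq_inv (h.sq hx) hu
  have hinv' := conj_right_mul_eq_inv (h.sq hx) hu
  set g := x * u with hg
  have hz : g ^ (2 * k + 1) * g ^ (2 * k + 1) = 1 := by
    rw [← pow_add, ← two_mul, pow_mul, ← hk]
    have : g ^ 2 = x * (u * x * u⁻¹) := by rw [pow_two, hg, hui]; simp only [mul_assoc]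
    rw [this, hui, pow_orderOf_eq_one]
  have hzx := commute_of_inverts hinv _ hz
  have hzu := commute_of_inverts hinv' _ hz
  have he : u * g ^ (2 * k + 1) = g ^ (-(k + 1 : ℤ)) * x * (g ^ (-(k + 1 : ℤ)))⁻¹ := by
    rw [zpow_conj_of_inverts hinv]
    have : u = x * g := by rw [hg, ← mul_assoc, h.sq hx, one_mul]
    rw [this, mul_assoc, ← pow_succ', ← zpow_natCast]
    congr 2
  have heD : u * g ^ (2 * k + 1) ∈ D := he ▸ h.conj x hx _
  have hue : u * (u * g ^ (2 * k + 1)) = g ^ (2 * k + 1) := by rw [← mul_assoc, hu, one_mul]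
  have hc : Commute u (u * g ^ (2 * k + 1)) := (Commute.refl u).mul_right hzu.symm
  refine ⟨_, heD, hc, by rw [hue]; exact hzx, fun e => huD ?_, fun hr => hm ?_, ⟨_, hue⟩,
    _, Subgroup.zpow_mem_zpowers _ _, he⟩
  · rw [hue] at e
    rwa [e, mul_one] at heD
  · have h1 : Commute x u := by
      have := hr.mul_right hzx.symm
      rwa [mul_assoc, hz, mul_one] at this
    exact (h1.mul_right (Commute.refl x)).mul_right h1

theorem comap {G' : Type*} [Group G'] {f : G' →* G} (hf : Function.Injective f) : OT (f ⁻¹' D) where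
  ord d hd := by rw [← orderOf_injective f hf]; exact h.ord _ hd
  conj d hd g := by simpa using h.conj _ hd (f g)
  odd a ha b hb hn := by
    rw [← orderOf_injective f hf, map_mul]
    exact h.odd _ ha _ hb fun hc => hn (hf (by simpa using hc.eq))

theorem map {G' : Type*} [Group G'] {f : G →* G'} (hf : Function.Surjective f) : OT (f '' D \ {1}) where
  ord := by
    rintro _ ⟨⟨d, hd, rfl⟩, h1⟩
    exact orderOf_two_of (by rw [← map_mul, h.sq hd, map_one]) h1
  conj := by
    rintro _ ⟨⟨d, hd, rfl⟩, h1⟩ g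
    obtain ⟨g, rfl⟩ := hf g
    exact ⟨⟨_, h.conj d hd g, by simp⟩, fun e => h1 (by simpa using e)⟩
  odd := by
    rintro _ ⟨⟨a, ha, rfl⟩, -⟩ _ ⟨⟨b, hb, rfl⟩, -⟩ hn
    rw [← map_mul]
    exact (h.odd a ha b hb fun hc => hn (hc.map f)).of_dvd_nat (orderOf_map_dvd f _)

theorem sub {D' : Set G} (hs : D' ⊆ D) (hc : ∀ d ∈ D', ∀ g : G, g * d * g⁻¹ ∈ D') : OT D' :=
  ⟨fun d hd => h.ord d (hs hd), hc, fun a ha b hb => h.odd a (hs ha) b (hs hb)⟩

theorem commute_of_map {G' : Type*} [Group G'] {f : G →* G'} (hk : IsPGroup 2 f.ker) {a b : G}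
    (ha : a ∈ D) (hb : b ∈ D) (hc : Commute (f a) (f b)) : Commute a b := by
  by_contra hn
  refine hn (h.commute_of_sq ha hb (eq_one_of_odd_pgroup hk ?_ ?_))
  · rw [MonoidHom.mem_ker, map_mul, map_mul, mul_assoc, ← mul_assoc (f b), ← hc.eq, mul_assoc,
      ← map_mul f b b, h.sq hb, map_one, mul_one, ← map_mul, h.sq ha, map_one]
  · rw [← pow_two]
    exact (h.odd a ha b hb hn).of_dvd_nat (orderOf_pow_dvd _)

end OT

/-- the members of `S` have the same centralizer in `D` -/
structure Same (D S : Set G) : Prop where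
  sub : S ⊆ D
  comm : ∀ s ∈ S, ∀ s' ∈ S, ∀ c ∈ D, Commute s c → Commute s' c

theorem Same.comm' {S : Set G} (hS : Same D S) {s s' : G} (hs : s ∈ S) (hs' : s' ∈ S) : Commute s s' :=
  (hS.comm s' hs' s hs s' (hS.sub hs') (Commute.refl _))

/-- Lemma Z -/
theorem OT.exists_z (h : OT D) {S : Set G} (hS : Same D S) {a b x g : G} (ha : a ∈ S) (hb : b ∈ S)
    (hab : a * b ∈ S) (hx : x ∈ D) (hax : ¬ Commute a x) (hg : g ∈ D) (hag : Commute a g)
    (hn : ∀ s ∈ S, g ≠ s ∧ g * s ∉ D) :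
    ∃ z, z * z = 1 ∧ z ≠ 1 ∧ (∀ s ∈ S, Commute z s) ∧ Commute z x ∧ Commute z g ∧
      z ∈ Subgroup.closure (S ∪ {x, g}) := by
  have gs : ∀ s ∈ S, Commute g s := fun s hs => (hS.comm a ha s hs g hg hag).symm
  have key : ∀ s ∈ S, ¬ Commute x (g * s * x * (g * s)) → ∃ z, z * z = 1 ∧ z ≠ 1 ∧
      (∀ s ∈ S, Commute z s) ∧ Commute z x ∧ Commute z g ∧ z ∈ Subgroup.closure (S ∪ {x, g}) := by
    intro s hs hm
    have sD := hS.sub hs
    obtain ⟨f, hf, huf, hzx, hz1, -, ⟨k, hk⟩, -⟩ :=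
      h.exists_cent (h.prod_sq hg sD (gs s hs)) (hn s hs).2 hx hm
    have gf := h.comm_of_prod hg sD (hn s hs).1 (gs s hs) hf huf
    have sf := h.comm_of_prod' hg sD (hn s hs).1 (gs s hs) hf huf
    refine ⟨_, ?_, hz1, fun s' hs' => ((gs s' hs').mul_left (hS.comm' hs hs')).mul_left
      (hS.comm s hs s' hs' f hf sf).symm, hzx,
      ((Commute.refl g).mul_left (gs s hs).symm).mul_left gf.symm, ?_⟩
    · rw [mul_assoc (g * s), ← mul_assoc f, ← huf.eq, mul_assoc (g * s), h.sq hf, mul_one,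
        h.prod_sq hg sD (gs s hs)]
    · rw [hk]
      exact pow_mem (mul_mem (Subgroup.subset_closure (by simp))
        (mul_mem (Subgroup.subset_closure (by simp)) (Subgroup.subset_closure (.inl hs)))) _
  by_contra hcon
  have k1 : ∀ s ∈ S, Commute (g * x * g) (s * x * s) := fun s hs => by
    have h1 : Commute x (g * s * x * (g * s)) := by_contra fun hm => hcon (key s hs hm)
    have h2 := commute_conj h1 g
    rw [h.inv hg] at h2
    have : g * (g * s * x * (g * s)) * g = s * x * s := by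
      nth_rw 2 [(gs s hs).eq]
      simp only [mul_assoc, h.cancel hg, h.sq hg, mul_one]
    rwa [this] at h2
  have aD := hS.sub ha
  have bD := hS.sub hb
  have abD := hS.sub hab
  have hc := hS.comm' ha hb
  have n1 : ¬ Commute (a * x * a) (a * b) := fun e => hax (by
    have h2 := commute_conj e a
    rw [h.inv aD, ← mul_assoc, ← mul_assoc, h.sq aD, one_mul, mul_assoc, h.sq aD, mul_one,
      ← mul_assoc, h.sq aD, one_mul, ← hc.eq] at h2
    exact hS.comm _ hab a ha x hx h2.symm)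
  have h3 := h.comm_of_conj (h.conj' hx aD) abD n1 (k1 a ha) (by
    have : a * b * (a * x * a) * (a * b) = b * x * b := by
      nth_rw 1 [hc.eq]
      simp only [mul_assoc, h.cancel aD]
    rw [this]; exact k1 b hb)
  have h4 := commute_conj h3 g
  rw [conj_eq_of_commute (gs _ hab), h.inv hg, ← mul_assoc, ← mul_assoc, h.sq hg, one_mul, mul_assoc,
    h.sq hg, mul_one] at h4
  exact hax (hS.comm _ hab a ha x hx h4.symm)

end Cfsg.Agent.Lib.Root
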