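import Cfsg.Agent.Lib.Root.OT9

set_option autoImplicit false
set_option linter.unusedSectionVars false

/-! # Odd transpositions: `⟨E_d, x⟩` when `O₂(G) = Z(G) = 1` -/

namespace Cfsg.Agent.Lib.Root

open Cfsg Cfsg.Agent.Lib.Invol Subgroup Cfsg.Agent.BS Cfsg.Agent.Lib.Core Cfsg.Agent.FT
open scoped Cfsg.Agent.Lib.Glaub MatrixGroups

theorem three_sq {Γ : Type*} [Group Γ] {c x y w : Γ} (hc : c * c = 1) (cc : ∀ g, Commute c g) (hx : x * x = c)
    (hy : y * y = c) (hw : w * w = c) (hxy : x * y * (x * y) = c) (hxw : x * w * (x * w) = c)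
    (hyw : y * w * (y * w) = c) (h : x * y * w * (x * y * w) = c) : c = 1 := by
  have k : ∀ u v : Γ, u * u = c → v * v = c → u * v * (u * v) = c → v * u = u * v * c := fun u v h1 h2 h3 => by
    calc v * u = u⁻¹ * (u * v * (u * v)) * v⁻¹ := by group
      _ = u⁻¹ * (u * u) * (v * v) * v⁻¹ * c := by
        rw [h3, h1, h2, mul_assoc _ c c, hc, mul_one, mul_assoc, (cc _).eq, mul_assoc]
      _ = _ := by group
  have : x * y * w * (x * y * w) = x * y * (x * y) * (w * w) * (c * c) := by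
    calc _ = x * y * (w * x) * y * w := by group
      _ = x * y * x * (w * y) * w * c := by
        rw [k x w hx hw hxw]; simp only [mul_assoc]; rw [← mul_assoc c, ← mul_assoc y w c, ← (cc (y * w)).eq, mul_assoc]
      _ = _ := by rw [k y w hy hw hyw]; simp only [mul_assoc]; rw [← mul_assoc c w, (cc w).eq, mul_assoc]
  rw [← h, this, hxy, hw, hc, mul_one]

theorem exact_sq {X Y : Type*} [Group X] [Group Y] {π : X →* Y} (hs : Function.Surjective π)
    (hk : π.ker ≤ center X) {F : Type} [Field F] [Fintype F] [Algebra (ZMod 2) F] {θ : Gal(F/ZMod 2)}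
    {e : SU' θ →* Y} {κ : Fˣ →* Y} {t : Y} (d : TD e κ t) (hF : 4 < Fintype.card F) {V : Subgroup X}
    (h1 : ∀ b, ∃ v ∈ V, π v = e ⟨0, b⟩) (h2 : ∀ v ∈ V, v * v = 1) (h3 : ∀ g p, π g = e p → ∀ v ∈ V, Commute v g)
    (h4 : ∀ g a, π g = κ a → ∀ v ∈ V, g * v * g⁻¹ ∈ V) {r : X} {p : SU' θ} (hr : π r = e p) (hp : p.a ≠ 0) :
    ∃ z, π z = 1 ∧ r * z * (r * z) ∈ V := by
  classical
  have := charP_of_injective_algebraMap (algebraMap (ZMod 2) F).injective 2
  have cz : ∀ z, π z = 1 → ∀ g, Commute z g := fun z hz g => (mem_center_iff.1 (hk hz) g).symm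
  have k1 : ∀ g b, π g = e ⟨0, b⟩ → ∃ v ∈ V, ∃ z, π z = 1 ∧ g = v * z := fun g b hg => by
    obtain ⟨v, hv, e1⟩ := h1 b
    exact ⟨v, hv, v⁻¹ * g, by rw [map_mul, map_inv, e1, hg, inv_mul_cancel], by group⟩
  obtain ⟨v, hv, c, hc, e1⟩ := k1 (r * r) _ (by rw [map_mul, hr, ← map_mul, Lib.Suz.SU.mul_self])
  let U : Subgroup X :=
    { carrier := {u | ∃ v ∈ V, ∃ z, π z = 1 ∧ u = v * (z * z)}
      one_mem' := ⟨1, one_mem _, 1, map_one _, by simp⟩
      mul_mem' := by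
        rintro _ _ ⟨v, hv, z, hz, rfl⟩ ⟨w, hw, y, hy, rfl⟩
        refine ⟨v * w, mul_mem hv hw, z * y, by simp [hz, hy], ?_⟩
        rw [mul_assoc, ← mul_assoc (z * z), ((cz z hz w).mul_left (cz z hz w)).eq, mul_assoc z y,
          ← mul_assoc y z, ← (cz z hz y).eq]
        simp only [mul_assoc]
      inv_mem' := by
        rintro _ ⟨v, hv, z, hz, rfl⟩
        refine ⟨v⁻¹, inv_mem hv, z⁻¹, by simp [hz], ?_⟩
        rw [← ((cz z hz v).mul_left (cz z hz v)).eq]; group }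
  let P := e.range.comap π
  have cU : ∀ u ∈ U, ∀ g ∈ P, Commute u g := by
    rintro _ ⟨v, hv, z, hz, rfl⟩ g ⟨q, hq⟩
    exact (h3 g q hq.symm v hv).mul_left ((cz z hz g).mul_left (cz z hz g))
  haveI : (U.subgroupOf P).Normal := ⟨fun n hn g => by
    rw [conj_eq_of_commute (commute_coe.2 (cU _ hn _ g.2)).symm]; exact hn⟩
  let ψ := QuotientGroup.mk' (U.subgroupOf P)
  let c' : P := ⟨c, 1, by simp [hc]⟩
  have k2 : ∀ (g : P) q, π g = e q → q.a ≠ 0 → ψ g * ψ g = ψ c' := fun g q hg hq => by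
    obtain ⟨k, hk⟩ := hs (κ (Units.mk0 _ (div_ne_zero hq hp)))
    obtain ⟨w, hw, z, hz, e2⟩ := k1 ((k * r * k⁻¹)⁻¹ * g) ((Units.mk0 _ (div_ne_zero hq hp) • p)⁻¹ * q).b (by
      rw [map_mul, map_inv, map_mul, map_mul, map_inv, hk, hr, d.act, hg, ← map_inv, ← map_mul]
      congr 1
      ext <;> simp [hp])
    rw [← map_mul, eq_comm]
    refine QuotientGroup.eq.2 ⟨_, h4 k _ hk v hv, z, hz, ?_⟩
    have c1 := h3 _ _ (show π (k * r * k⁻¹) = _ by rw [map_mul, map_mul, map_inv, hk, hr, d.act]) w hw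
    have e3 : k * r * k⁻¹ * (k * r * k⁻¹) = c * (k * v * k⁻¹) := by
      rw [conj_mul, e1, (cz c hc _).eq, ← mul_assoc k, mul_assoc _ c, (cz c hc _).eq, ← mul_assoc]
    rw [inv_mul_eq_iff_eq_mul] at e2
    show c⁻¹ * (g * g) = _
    generalize k * r * k⁻¹ = u at *
    rw [e2, inv_mul_eq_iff_eq_mul, ← mul_assoc c, ← e3, mul_assoc u (w * z), ← mul_assoc (w * z),
      (c1.mul_left (cz z hz u)).eq, mul_assoc u, mul_assoc w z, ← mul_assoc z w, (cz z hz w).eq, mul_assoc w z,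
      ← mul_assoc w w, h2 w hw, one_mul, mul_assoc]
  obtain ⟨l, hl⟩ : ∃ l : F, l ∉ ({0, 1} : Finset F) := Finset.exists_mem_notMem_of_card_lt_card (t := Finset.univ)
    ((Finset.card_le_two).trans_lt (by rw [Finset.card_univ]; omega)) |>.imp fun _ h => h.2
  obtain ⟨m, hm⟩ : ∃ m : F, m ∉ ({0, 1, l, 1 + l} : Finset F) := Finset.exists_mem_notMem_of_card_lt_card (t := Finset.univ)
    ((Finset.card_le_four).trans_lt (by rw [Finset.card_univ]; omega)) |>.imp fun _ h => h.2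
  simp only [Finset.mem_insert, Finset.mem_singleton, not_or] at hl hm
  obtain ⟨x, hx⟩ := hs (e ⟨1, 0⟩)
  obtain ⟨y, hy⟩ := hs (e ⟨l, 0⟩)
  obtain ⟨w, hw⟩ := hs (e ⟨m, 0⟩)
  let x' : P := ⟨x, _, hx.symm⟩
  let y' : P := ⟨y, _, hy.symm⟩
  let w' : P := ⟨w, _, hw.symm⟩
  have k3 : ψ c' = 1 := three_sq (x := ψ x') (y := ψ y') (w := ψ w')
    (by rw [← map_mul]; exact (QuotientGroup.eq_one_iff _).2 ⟨1, one_mem _, c, hc, (one_mul _).symm⟩)
    (fun g => by
      obtain ⟨g, rfl⟩ := QuotientGroup.mk'_surjective _ g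
      exact (commute_coe.2 (cz c hc g) : Commute c' g).map ψ)
    (k2 _ _ hx one_ne_zero) (k2 _ _ hy hl.1) (k2 _ _ hw hm.1)
    (by rw [← map_mul]; exact k2 _ (⟨1, 0⟩ * ⟨l, 0⟩) (by simp [x', y', hx, hy])
          (by simp; grind))
    (by rw [← map_mul]; exact k2 _ (⟨1, 0⟩ * ⟨m, 0⟩) (by simp [x', w', hx, hw])
          (by simp; grind))
    (by rw [← map_mul]; exact k2 _ (⟨l, 0⟩ * ⟨m, 0⟩) (by simp [y', w', hy, hw])
          (by simp; grind))
    (by rw [← map_mul, ← map_mul]; exact k2 _ (⟨1, 0⟩ * ⟨l, 0⟩ * ⟨m, 0⟩) (by simp [x', y', w', hx, hy, hw])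
          (by simp; grind))
  obtain ⟨u, hu, z, hz, e2⟩ := (QuotientGroup.eq_one_iff _).1 k3
  refine ⟨z⁻¹, by simp [hz], ?_⟩
  have e3 : c = u * (z * z) := e2
  rw [mul_assoc, ← mul_assoc z⁻¹, (cz z hz r).inv_left.eq, mul_assoc, ← mul_assoc r, e1, e3]
  simpa [mul_assoc] using mul_mem hv hu

variable {G : Type*} [Group G] [Finite G] {D : Set G}

/-- the pair `(a, x)` is of type `L₂` -/
def L3 (D : Set G) (a x : G) : Prop := ∃ e ∈ sameCommutingClass D a, (e * x) ^ 3 = 1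

omit [Finite G] in
theorem braid_of_cube {e x : G} (he : e * e = 1) (hx : x * x = 1) (h : (e * x) ^ 3 = 1) :
    x * e * x = e⁻¹ * x * e := by
  have : e * x * e * (x * e * x) = 1 := by rw [← h]; simp [pow_succ, mul_assoc]
  rw [← inv_eq_of_mul_eq_one_right this]
  simp [inv_eq_of_mul_eq_one_right he, inv_eq_of_mul_eq_one_right hx, mul_assoc]

theorem BT.ker_cent {a x : G} (h : BT D a x) (hg : closure (sameCommutingClass D a ∪ {x}) = ⊤)
    (hm : ∀ n ∈ closure (sameCommutingClass D a), n ∈ sameCommutingClass D a ∨ n = 1) :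
    (πZ G).ker ≤ center G ∧ Set.InjOn (πZ G) (D ∪ {1}) := by
  have k : ∀ b ∈ sameCommutingClass D a, ∀ c ∈ D, πZ G b = πZ G c → b = c := fun b hb c hc e => by
    have bc := (h.comm_iff hb.1 hc).1 (e ▸ Commute.refl _)
    refine h.ot.eq_of_mul hb.1 ((hm _ (mul_mem (subset_closure hb) (subset_closure (h.eqv c hc
      (((mem_scc.1 hb).2 c hc).2 bc))))).resolve_left fun m => ne_one_of_orderOf_two (h.ord m.1) ?_)
    rw [map_mul, e, ← map_mul, h.ot.sq hc, map_one]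
  have k' : ∀ b ∈ D, ∀ c ∈ D, πZ G b = πZ G c → b = c := fun b hb c hc e => by
    obtain ⟨g, e1⟩ := h.cl b hb a h.ha
    simpa [e1] using k _ (self_mem_scc h.ha) _ (h.ot.conj c hc g) (by simp only [e1, map_mul, e])
  refine ⟨fun g hg => mem_center_iff.2 fun y => (commute_of_closure (fun t ht => ?_) (h.gen ▸ mem_top y)).symm, ?_⟩
  · have := k' _ (h.ot.conj t ht g) t ht (by rw [map_mul, map_mul, map_inv, show πZ G g = 1 from hg]; simp)
    exact mul_inv_eq_iff_eq_mul.1 this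
  · rintro b (hb | rfl) c (hc | rfl) e
    · exact k' b hb c hc e
    · exact (ne_one_of_orderOf_two (h.ord hb) (e.trans (map_one _))).elim
    · exact (ne_one_of_orderOf_two (h.ord hc) (e.symm.trans (map_one _))).elim
    · rfl

theorem BT.iso_L2 {a x : G} (h : BT D a x) (hg : closure (sameCommutingClass D a ∪ {x}) = ⊤)
    (hm : ∀ n ∈ closure (sameCommutingClass D a), n ∈ sameCommutingClass D a ∨ n = 1) (h3 : L3 D a x) :
    ∃ (F : Type) (_ : Field F) (_ : Fintype F), CharP F 2 ∧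
      Fintype.card F = Nat.card (closure (sameCommutingClass D a)) ∧ Nonempty (G ≃* PSL(2, F)) := by
  obtain ⟨H, Q, E, s, r, d⟩ := h.data
  obtain ⟨k1, k2⟩ := h.ker_cent hg hm
  obtain ⟨e, he, h3⟩ := h3
  have ae := (same_scc a).comm' (self_mem_scc h.ha) he
  have e1 := (d.hyp.unique (d.a1s h he.1 ae (Commute.refl e) (k := 1) (by rw [pow_one, pow_two, h.ot.sq he.1])
    (braid_of_cube (h.ot.sq he.1) (h.ot.sq h.hx) h3))).1
  have o3 : orderOf (s * πZ G x) = 3 := orderOf_eq_prime (by rw [← e1, ← map_mul, ← map_pow, h3, map_one])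
    fun e2 => d.hyp.tH (eq_inv_of_mul_eq_one_right e2 ▸ inv_mem (d.hyp.QH d.hyp.sQ))
  have hS : (closure (sameCommutingClass D a) : Set G) ⊆ D ∪ {1} := fun n hn => (hm n hn).imp_left (·.1)
  have e2 : Q0 Q = (closure (sameCommutingClass D a)).map (πZ G) := le_antisymm (fun y hy => by
    rcases (d.mQ y).1 hy with rfl | ⟨f, hf, rfl⟩
    exacts [one_mem _, mem_map_of_mem _ (subset_closure hf)])
    (by rw [MonoidHom.map_closure, closure_le]; rintro _ ⟨f, hf, rfl⟩; exact (d.mQ _).2 (.inr ⟨f, hf, rfl⟩))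
  obtain ⟨F, _, _, h1, h2, h4⟩ := lift_L2 πZ_surj k1 (T := D ∪ {1}) (by
      rintro b (hb | rfl) g
      exacts [.inl (h.ot.conj b hb g), .inr (by simp)]) k2 hS (.inl h.hx) (h.ot.sq h.hx)
    (eq_top_of_normal h.cl h.gen h.hx) d.hyp o3 e2.le (d.top3 hg o3)
  exact ⟨F, _, _, h1, by
    rw [h2, e2, C1c.card_map fun y hy e => k2 (hS hy) (.inr rfl) (e.trans (map_one _).symm)], h4⟩

theorem BT.exists_root {a x : G} (h : BT D a x) (hg : closure (sameCommutingClass D a ∪ {x}) = ⊤)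
    (hm : ∀ n ∈ closure (sameCommutingClass D a), n ∈ sameCommutingClass D a ∨ n = 1) (h3 : ¬ L3 D a x) :
    ∃ s ∈ sameCommutingClass D a, ∃ r, r * r = s ∧ x * s * x = r⁻¹ * x * r := by
  obtain ⟨H, Q, E, s, r, d⟩ := h.data
  obtain ⟨k1, k2⟩ := h.ker_cent hg hm
  obtain ⟨s, hs, rfl⟩ := ((d.mQ s).1 d.hyp.s_mem_Q0).resolve_left d.hyp.s_ne
  have n3 : orderOf (πZ G s * πZ G x) ≠ 3 := fun e => h3 ⟨s, hs, h.ot.pow_eq_one refl_twoZ hs.1 h.hx
    (fun c => h.nc (((mem_scc.1 hs).2 x h.hx).2 c)) (by rw [← e, pow_orderOf_eq_one])⟩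
  have c : TypeSz Q E (πZ G x) (πZ G s) := by
    rcases d.concl.cases with c | c | c
    exacts [(n3 c.ord).elim, c, (n3 c.ord).elim]
  obtain ⟨F, _, _, _, θ, e, κ, -, hθ, ho, h0, td, -, h1, h2, ie, -⟩ :=
    d.hyp.exists_SzD d.concl.two c.nonab c.ord c.card
  obtain ⟨m, hm1, hm2, -⟩ := sz_card hθ ho h0
  obtain ⟨r, rfl⟩ := πZ_surj r
  obtain ⟨p, hp⟩ := h1.ge d.hyp.rQ
  have hr := d.hyp.r_sq_of_five c.ord
  have hS : (closure (sameCommutingClass D a) : Set G) ⊆ D ∪ {1} := fun n hn => (hm n hn).imp_left (·.1)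
  have sub : ∀ g, πZ G g ∈ H → ∀ v ∈ closure (sameCommutingClass D a),
      g * v * g⁻¹ ∈ closure (sameCommutingClass D a) := fun g hg v hv => by
    rcases hm v hv with h1 | rfl
    · exact subset_closure (scc_eq (h.eqv _ (h.ot.conj a h.ha g) ((d.mH g).1 hg)) ▸ h.ot.scc_conj h1 g)
    · simp
  obtain ⟨z, hz, hv⟩ := exact_sq πZ_surj k1 td (by
      rw [hm2]; exact lt_of_lt_of_le (by norm_num) (Nat.pow_le_pow_right two_pos (show 3 ≤ 2 * m + 1 by omega)))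
    (V := closure (sameCommutingClass D a)) (fun b => by
      rcases (d.mQ _).1 ((d.hyp.mem_Q0 d.hyp.rank).2 ⟨h1.le ⟨⟨0, b⟩, rfl⟩, by
        rw [← map_mul, Lib.Suz.SU.mul_self, map_zero, zero_mul]; exact map_one e⟩) with e1 | ⟨f, hf, e1⟩
      exacts [⟨1, one_mem _, by rw [e1, map_one]⟩, ⟨f, subset_closure hf, e1⟩])
    (fun v hv => sq_of_mem_closure (fun _ ht => h.ot.sq ht.1) (fun _ hs _ ht => (same_scc a).comm' hs ht) hv)
    (fun g q hg v hv => by
      have m : πZ G g ∈ Q := hg ▸ h1.le ⟨q, rfl⟩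
      have m' : πZ G v ∈ Q0 Q := (hm v hv).elim (fun hf => (d.mQ _).2 (.inr ⟨v, hf, rfl⟩))
        fun e => by rw [e, map_one]; exact one_mem _
      have := k2 (hS (sub g (d.hyp.QH m) v hv)) (hS hv) (by
        rw [map_mul, map_mul, map_inv, mem_cent_iff.1 (d.hyp.Q0_le_cent d.hyp.rank m') _ m, mul_inv_cancel_right])
      exact (mul_inv_eq_iff_eq_mul.1 this).symm)
    (fun g b hg => sub g (hg ▸ d.hyp.DH (d.hyp.KK_le (h2.le ⟨b, rfl⟩)))) hp.symm (fun e1 => d.hyp.s_ne (by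
      rw [← hr, ← hp, ← map_mul, Lib.Suz.SU.mul_self, e1, mul_zero]; exact map_one e))
  refine ⟨s, hs, r * z, k2 (hS hv) (.inl hs.1) (by simp only [map_mul, hz, mul_one, hr]),
    k2 (.inl (h.ot.conj' hs.1 h.hx)) (.inl (by simpa using h.ot.conj x h.hx (r * z)⁻¹)) ?_⟩
  simp only [map_mul, map_inv, hz, mul_one]
  exact d.hyp.str

end Cfsg.Agent.Lib.Root
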