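import Cfsg.Agent.Lib.Root.OT10

set_option autoImplicit false
set_option linter.unusedSectionVars false

/-! # Odd transpositions: an element of order four acting on a fibre -/

namespace Cfsg.Agent.Lib.Root

open Cfsg Cfsg.Agent.Lib.Invol Subgroup

variable {G : Type*} [Group G] [Finite G] {D : Set G} {a x : G}

namespace BT

variable (h : BT D a x)
include h

theorem lc : LC D := ⟨h.ot, h.cl, h.gen, a, h.ha, h.line⟩

theorem mem_scc {b c : G} (hb : b ∈ D) (hc : c ∈ D) (e : Commute b c) : c ∈ sameCommutingClass D b :=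
  Root.mem_scc.2 ⟨hc, fun _ hd => ⟨h.trans hb hc hd e, h.trans hc hb hd e.symm⟩⟩

theorem move {b c : G} (hb : b ∈ D) (hc : c ∈ D) (nc : ¬ Commute b c) : BT D b c :=
  ⟨h.ot, h.cl, hb, hc, nc, h.gen, h.lc.line' hb, fun _ hg e => h.mem_scc hb hg e⟩

theorem comm_of_eq {b c : G} (hb : b ∈ D) (hc : c ∈ D) (e : πZ G b = πZ G c) : Commute b c :=
  (h.comm_iff hb hc).1 (e ▸ Commute.refl _)

theorem central (hg : closure (sameCommutingClass D a ∪ {x}) = ⊤) {b c z : G} (hb : b ∈ D) (hc : c ∈ D)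
    (nc : ¬ Commute b c) (h1 : ∀ s ∈ sameCommutingClass D b, Commute z s) (h2 : Commute z c) (g : G) :
    Commute z g := by
  obtain ⟨k, e⟩ := h.cl b hb a h.ha
  have kc := h.ot.conj c hc k
  obtain ⟨l, l1, l2⟩ := h.exists_conj kc fun e1 => nc (commute_conj_iff'.1 (e ▸ e1))
  have lc := h.ot.conj _ kc l
  have n1 : ¬ Commute a (l * (k * c * k⁻¹) * l⁻¹) := fun e1 => h.nc (h.trans lc h.ha h.hx e1.symm l2.symm)
  have : ∀ g, Commute (l * k * z * (l * k)⁻¹) g := fun g => by
    refine commute_of_closure (T := sameCommutingClass D a ∪ {l * (k * c * k⁻¹) * l⁻¹}) ?_ (((closure_le _).2 ?_)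
      (hg ▸ mem_top g))
    · rintro t (ht | rfl)
      · have := h.ot.scc_conj (scc_eq (h.eqv _ (h.ot.conj a h.ha l) l1) ▸ ht) (l * k)⁻¹
        rw [show (l * k)⁻¹ * (l * a * l⁻¹) * (l * k)⁻¹⁻¹ = b by rw [e]; group] at this
        simpa [mul_assoc] using commute_conj (h1 _ this) (l * k)
      · simpa [mul_assoc] using commute_conj h2 (l * k)
    · rintro t (ht | rfl)
      · exact subset_closure (.inl ht)
      · exact h.lc.closure_le_pair h.ha lc n1 (subset_closure (h.mem_scc lc h.hx l2.symm))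
  simpa [mul_assoc] using commute_conj (this (l * k * g * (l * k)⁻¹)) (l * k)⁻¹

theorem comm_central (hg : closure (sameCommutingClass D a ∪ {x}) = ⊤) {b b' c c' : G} (hb : b ∈ D) (hb' : b' ∈ D)
    (hc : c ∈ D) (hc' : c' ∈ D) (eb : πZ G b' = πZ G b) (ec : πZ G c' = πZ G c) (nc : ¬ Commute b c) :
    ∃ z, (∀ g, Commute z g) ∧ c' * c * (b' * b) * (c' * c) = b' * b * z := by
  have k : ∀ u u' w, u ∈ D → u' ∈ D → w ∈ D → πZ G u' = πZ G u →
      πZ G (u' * u * w * (u' * u)⁻¹) = πZ G w := fun u u' w hu hu' hw e => by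
    rw [map_mul, map_mul, map_inv, map_mul, e, ← map_mul, h.ot.sq hu]; simp
  have n2 := h.ot.prod_sq hb' hb (h.comm_of_eq hb' hb eb)
  have v2 := h.ot.prod_sq hc' hc (h.comm_of_eq hc' hc ec)
  refine ⟨b' * b * (c' * c * (b' * b) * (c' * c)), h.central hg hb hc nc (fun s hs => ?_) ?_,
    by rw [← mul_assoc (b' * b) (b' * b), n2, one_mul]⟩
  · have m : ∀ w ∈ D, πZ G w = πZ G b → Commute w s := fun w hw e =>
      (same_scc b).comm' (h.mem_scc hb hw (h.comm_of_eq hb hw e.symm)) hs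
    have := (m _ (h.ot.conj b' hb' _) ((k c c' b' hc hc' hb' ec).trans eb)).mul_left
      (m _ (h.ot.conj b hb _) (k c c' b hc hc' hb ec))
    rw [conj_mul, inv_eq_of_mul_eq_one_right v2] at this
    exact ((m b' hb' eb).mul_left (m b hb rfl)).mul_left this
  · have m : ∀ w ∈ D, πZ G w = πZ G c → Commute w c := fun w hw e => h.comm_of_eq hw hc e
    have := (m _ (h.ot.conj c' hc' _) ((k b b' c' hb hb' hc' eb).trans ec)).mul_left
      (m _ (h.ot.conj c hc _) (k b b' c hb hb' hc eb))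
    rw [conj_mul, inv_eq_of_mul_eq_one_right n2] at this
    simpa only [mul_assoc] using this.mul_left ((m c' hc' ec).mul_left (m c hc rfl))

theorem exists_v {y : G} (hy : y ∈ D) (e : πZ G y = πZ G a) :
    ∃ w ∈ D, πZ G w = πZ G x ∧ y = w * x * a * (w * x) := by
  obtain ⟨g, g1, g2, g3⟩ := h.ot.pair_conj πZ_surj refl_twoZ h.ha hy h.hx h.nc e.symm
  exact ⟨_, g1, g2, by rw [g3, mul_assoc _ x, (h.comm_of_eq g1 h.hx g2).eq]⟩

variable (hg : closure (sameCommutingClass D a ∪ {x}) = ⊤) {r : G} (h1 : r * r = a) (h2 : x * a * x = r⁻¹ * x * r)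
include hg h1 h2

theorem conj_v {w : G} (hw : w ∈ D) (e : πZ G w = πZ G x) :
    r * (w * x) * r⁻¹ * (w * x * a * (w * x)) * (r * (w * x) * r⁻¹) =
      w * x * a * (w * x) * a * (r * (w * x * a * (w * x)) * r⁻¹) := by
  have ra : Commute r a := h1 ▸ (Commute.refl r).mul_right (Commute.refl r)
  obtain ⟨z, z1, z2⟩ := h.comm_central hg h.hx hw (h.ot.conj x h.hx r) (h.ot.conj w hw r) e
    (by simp only [map_mul, e]) fun c => h.nc (by
      have := commute_conj c r⁻¹
      rw [inv_inv, ← h2, show r⁻¹ * (r * x * r⁻¹) * r = x by group] at this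
      have := commute_conj this x
      simpa [h.ot.inv h.hx, mul_assoc, h.ot.cancel h.hx, h.ot.sq h.hx] using this)
  have v2 := h.ot.prod_sq hw h.hx (h.comm_of_eq hw h.hx e)
  rw [conj_mul] at z2
  generalize w * x = v at z2 v2 ⊢
  have u2 : r * v * r⁻¹ * (r * v * r⁻¹) = 1 := by rw [conj_mul, v2]; simp
  have e1 : a * v * a = r * (r * v * r⁻¹) * r⁻¹ := by
    nth_rw 2 [← h.ot.inv h.ha]; rw [← h1]; group
  have e2 : r * (v * a * v) * r⁻¹ = r * v * r⁻¹ * a * (r * v * r⁻¹) := by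
    nth_rw 2 [← conj_eq_of_commute ra]; group
  have z3 : a * v * a * (r * v * r⁻¹) * (a * v * a) = r * v * r⁻¹ * z := by
    rw [e1, conj_mul, conj_mul, z2, ← conj_mul, conj_eq_of_commute (z1 r).symm]
  rw [e2]
  generalize r * v * r⁻¹ = u at z2 z3 u2 ⊢
  have a2 := h.ot.sq h.ha
  have p2 : a * v * a * (a * v * a) = 1 := by
    simp only [mul_assoc, h.ot.cancel h.ha]; rw [← mul_assoc v, v2, one_mul, a2]
  have zz : z * z = 1 := by
    have : v * z * (v * z) = 1 := by
      rw [← z2]; simp only [mul_assoc]; rw [← mul_assoc u u, u2, one_mul, ← mul_assoc v, v2, one_mul, u2]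
    rwa [mul_assoc, ← mul_assoc z, (z1 v).eq, mul_assoc, ← mul_assoc, v2, one_mul] at this
  have z4 : u * (a * v * a) * u = z * (a * v * a) := by
    calc _ = u * (a * v * a * u * (a * v * a)) * (a * v * a) := by
          rw [mul_assoc, mul_assoc u, mul_assoc _ (a * v * a) (a * v * a), p2, mul_one]
      _ = _ := by rw [z3, ← mul_assoc u u, u2, one_mul]
  calc u * (v * a * v) * u = (u * v * u) * (u * (a * v * a) * u) * (u * a * u) := by
        simp only [mul_assoc, ← mul_assoc u u, u2, one_mul, h.ot.cancel h.ha]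
    _ = _ := by rw [z2, z4, mul_assoc v z, ← mul_assoc z, zz, one_mul]; simp only [mul_assoc]

theorem exists_moved {y : G} (hy : y ∈ D) (e : πZ G y = πZ G a) (hne : y ≠ a) :
    ∃ y ∈ D, πZ G y = πZ G a ∧ r * y * r⁻¹ ≠ y := by
  by_contra! H
  have ra : Commute r a := h1 ▸ (Commute.refl r).mul_right (Commute.refl r)
  obtain ⟨w, hw, ew, rfl⟩ := h.exists_v hy e
  have e1 := h.conj_v hg h1 h2 hw ew
  have v2 := h.ot.prod_sq hw h.hx (h.comm_of_eq hw h.hx ew)
  have ya := h.comm_of_eq hy h.ha e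
  rw [H _ hy e, ya.eq, mul_assoc a, h.ot.sq hy, mul_one] at e1
  have pv : πZ G (w * x) = 1 := by rw [map_mul, ew, ← map_mul, h.ot.sq h.hx, map_one]
  obtain ⟨b, hb, eb, e2⟩ := (h.move h.hx h.ha fun c => h.nc c.symm).exists_v
    (h.ot.conj x h.hx (r * (w * x) * r⁻¹ * (w * x))) (by
      rw [map_mul, map_mul, map_inv, map_mul _ _ (w * x), map_mul _ _ r⁻¹, map_mul _ r, pv]; simp)
  obtain ⟨z, z1, z2⟩ := h.comm_central hg h.ha hb (h.ot.conj x h.hx r) (h.ot.conj w hw r) eb
    (by simp only [map_mul, ew]) fun c => h.nc (commute_conj_iff'.1 ((conj_eq_of_commute ra).symm ▸ c))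
  obtain ⟨z', z1', z2'⟩ := h.comm_central hg h.ha hb (h.ot.conj x h.hx a) (h.ot.conj w hw a) eb
    (by simp only [map_mul, ew]) fun c => h.nc ((commute_conj_iff' (g := a)).1
      (by rwa [conj_eq_of_commute (Commute.refl a)]))
  rw [conj_mul] at z2 z2'
  have m2 := h.ot.prod_sq hb h.ha (h.comm_of_eq hb h.ha eb)
  have ma : Commute (b * a) a := (h.comm_of_eq hb h.ha eb).mul_left (Commute.refl a)
  have rm : r * (b * a) * r⁻¹ = b * a := by rw [← conj_mul, H b hb eb, conj_eq_of_commute ra]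
  refine h.nc (h.ot.comm_of_prod' hy h.ha hne ya h.hx ?_)
  generalize w * x = v at *
  generalize b * a = m at *
  have u2 : r * v * r⁻¹ * (r * v * r⁻¹) = 1 := by rw [conj_mul, v2]; simp
  have p2 : a * v * a⁻¹ * (a * v * a⁻¹) = 1 := by rw [conj_mul, v2]; simp
  have e3 : r * (r * v * r⁻¹) * r⁻¹ = a * v * a⁻¹ := by rw [← h1]; group
  have mi := inv_eq_of_mul_eq_one_right m2
  have cx : Commute (m * (r * v * r⁻¹ * v)) x := by
    refine mul_inv_eq_iff_eq_mul.1 ?_
    rw [mul_inv_rev, mi, mul_assoc m, mul_assoc m, ← mul_assoc _ _ m, e2]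
    simp only [mul_assoc, ← mul_assoc m m, m2, one_mul, mul_one]
  have ca : Commute (m * (r * v * r⁻¹ * v)) a := ma.mul_left (mul_inv_eq_iff_eq_mul.1 (by
    rw [mul_inv_rev, inv_eq_of_mul_eq_one_right u2, inv_eq_of_mul_eq_one_right v2]
    simpa only [mul_assoc] using e1))
  have ca' := commute_conj ca r
  rw [conj_eq_of_commute ra] at ca'
  have cx' := commute_conj ((ca.mul_right cx).mul_right (ca.mul_right cx)) r
  rw [show a * x * (a * x) = r⁻¹ * (a * x) * r by
    rw [mul_assoc a, ← mul_assoc x, h2, ← mul_assoc, ← mul_assoc, ← ra.inv_left.eq]; group,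
    show r * (r⁻¹ * (a * x) * r) * r⁻¹ = a * x by group] at cx'
  have cx2 := ca'.mul_right cx'
  rw [h.ot.cancel h.ha, ← conj_mul, ← conj_mul, rm, e3] at cx2
  have e4 : a * v * a⁻¹ * v = m * (a * v * a⁻¹ * (r * v * r⁻¹)) * (m * (r * v * r⁻¹ * v)) * (z' * z)⁻¹ := by
    generalize a * v * a⁻¹ = p at z2' p2
    generalize r * v * r⁻¹ = u at z2
    rw [eq_mul_inv_iff_mul_eq]
    calc p * v * (z' * z) = p * (m * z') * (m * z * v) := by
          rw [← (z1' m).eq, mul_assoc m z, (z1 v).eq]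
          simp only [mul_assoc, ← mul_assoc m m, m2, one_mul]
          rw [← mul_assoc z', (z1' v).eq, mul_assoc]
      _ = _ := by rw [← z2, ← z2']; simp only [mul_assoc, ← mul_assoc p p, p2, one_mul]
  have := ((cx2.mul_left cx).mul_left ((z1' x).mul_left (z1 x)).inv_left).inv_left
  rw [← e4, mul_inv_rev, inv_eq_of_mul_eq_one_right v2, inv_eq_of_mul_eq_one_right p2, h.ot.inv h.ha] at this
  simpa only [mul_assoc] using this

theorem false_of_root {C : Subgroup G} (aC : a ∈ C) (xC : x ∈ C) {y : G} (hy : y ∈ D) (e : πZ G y = πZ G a)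
    (yC : y ∉ C) (H : ∀ y ∈ D, πZ G y = πZ G a → y ∉ C → y * a * (r * y * r⁻¹) ∈ D → r * y * r⁻¹ = y) : False := by
  have ra : Commute r a := h1 ▸ (Commute.refl r).mul_right (Commute.refl r)
  have H' : ∀ y ∈ D, πZ G y = πZ G a → y ∉ C → r * y * r⁻¹ = y := fun y hy e yC => H y hy e yC (by
    obtain ⟨w, hw, ew, rfl⟩ := h.exists_v hy e
    rw [← h.conj_v hg h1 h2 hw ew]
    have := h.ot.conj _ hy (r * (w * x) * r⁻¹)
    rwa [inv_eq_of_mul_eq_one_right (show r * (w * x) * r⁻¹ * (r * (w * x) * r⁻¹) = 1 by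
      rw [conj_mul, h.ot.prod_sq hw h.hx (h.comm_of_eq hw h.hx ew)]; simp)] at this)
  obtain ⟨y1, hy1, e1, n1⟩ := h.exists_moved hg h1 h2 hy e fun e => yC (e ▸ aC)
  have y1C : y1 ∈ C := by_contra fun n => n1 (H' y1 hy1 e1 n)
  obtain ⟨w, hw, ew, rfl⟩ := h.exists_v hy1 e1
  have wx := h.comm_of_eq hw h.hx ew
  have v2 := h.ot.prod_sq hw h.hx wx
  have m := mul_mem (mul_mem xC aC) xC
  have vC : w * x ∈ C := by
    obtain ⟨k, hk⟩ := exists_pow_eq_self_of_coprime (x := w * (x * a * x)) (n := 2) (Nat.coprime_two_left.2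
      (h.ot.odd w hw _ (h.ot.conj' h.ha h.hx) fun c => h.nc (h.ot.comm_of_conj h.ha h.hx h.nc (Commute.refl a)
        (by
          have := commute_conj (h.trans hw h.hx (h.ot.conj' h.ha h.hx) wx c) x
          exact (h.nc (by simpa [h.ot.inv h.hx, mul_assoc, h.ot.cancel h.hx, h.ot.sq h.hx] using this.symm)).elim))))
    have : w * (x * a * x) ∈ C := hk ▸ pow_mem (by
      have := mul_mem y1C m
      nth_rw 2 [wx.eq] at this
      simpa only [pow_two, mul_assoc] using this) k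
    exact mul_mem ((mul_mem_cancel_right m).1 this) xC
  obtain ⟨z, z1, z2⟩ := h.comm_central hg h.ha hy h.hx hw e ew h.nc
  have e2 := H' _ (h.ot.conj y hy (w * x)) (by
    rw [map_mul, map_mul, map_inv, map_mul, ew, ← map_mul, h.ot.sq h.hx]; simp [e])
    fun m => yC (by simpa [mul_assoc] using mul_mem (mul_mem (inv_mem vC) m) vC)
  have e3 : w * x * a * (w * x) = z⁻¹ * (y * a)⁻¹ * (w * x * y * (w * x)⁻¹) := by
    rw [← mul_inv_rev, ← z2, inv_eq_of_mul_eq_one_right v2, eq_inv_mul_iff_mul_eq]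
    generalize w * x = v at v2
    simp only [mul_assoc, ← mul_assoc v v, v2, one_mul, h.ot.cancel h.ha]
  refine n1 ?_
  rw [e3, ← conj_mul, e2, ← conj_mul, conj_eq_of_commute (z1 r).inv_left.symm, ← conj_inv, ← conj_mul,
    H' y hy e yC, conj_eq_of_commute ra]

end BT

end Cfsg.Agent.Lib.Root
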