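import Cfsg.Agent.Lib.Root.OT11

set_option autoImplicit false
set_option linter.unusedSectionVars false

/-! # Odd transpositions: no Suzuki groups in the connected case -/

namespace Cfsg.Agent.Lib.Root

open Cfsg Cfsg.Agent.Lib.Invol Subgroup
open scoped MatrixGroups

universe u

section
variable {G : Type*} [Group G] [Finite G] {D : Set G} {a x : G}

/-- the pair `(a, x)` is of Suzuki type -/
def Rt (D : Set G) (a x s r : G) : Prop := s ∈ sameCommutingClass D a ∧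
  r ∈ closure (sameCommutingClass D a ∪ {x}) ∧ r * r = s ∧ x * s * x = r⁻¹ * x * r ∧ (s * x) ^ 3 ≠ 1

omit [Finite G] in
theorem mem_closure_coe {Y : Subgroup G} {T : Set G} {T' : Set Y} (h : ∀ t ∈ T, ∃ ht : t ∈ Y, ⟨t, ht⟩ ∈ T')
    {g : Y} (hg : (g : G) ∈ closure T) : g ∈ closure T' := by
  have : closure T ≤ (closure T').map Y.subtype := (closure_le _).2 fun t ht =>
    ⟨⟨t, (h t ht).1⟩, subset_closure (h t ht).2, rfl⟩
  obtain ⟨t, ht, e⟩ := this hg
  exact (Subtype.ext e : t = g) ▸ ht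

omit [Finite G] in
theorem root_pow {s r : G} (hs : s * s = 1) (h : r * r = s) : r ^ 2 ^ 2 = 1 := by
  rw [show 2 ^ 2 = 2 * 2 from rfl, pow_mul, pow_two r, h, pow_two, hs]

theorem BT.cube_ne (h : BT D a x) {s r : G} (hs : s ∈ sameCommutingClass D a) (h1 : r * r = s)
    (h2 : x * s * x = r⁻¹ * x * r) (h3 : (s * x) ^ 3 ≠ 1) {b c : G} (hb : b ∈ D) (hc : c ∈ D)
    (nc : ¬ Commute b c) : (b * c) ^ 3 ≠ 1 := fun e => by
  obtain ⟨k, e0⟩ := h.cl b hb a h.ha
  have kc := h.ot.conj c hc k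
  obtain ⟨H, Q, E, s', r', d⟩ := h.data
  obtain ⟨q, hq, l, kE, kt, e1⟩ := d.hyp.invol_out (fun e => nc (commute_conj_iff'.1 (e0 ▸ (d.mD h kc).1 e)))
    (h.ord kc)
  obtain ⟨m, mE, -, e2⟩ := d.hyp.kt_conj kE kt
  obtain ⟨g, hg⟩ := πZ_surj (q * m)⁻¹
  have c1 := (d.mH g).1 (hg ▸ inv_mem (mul_mem (d.hyp.QH hq) (d.hyp.DH mE)))
  have e3 : πZ G (g * (k * c * k⁻¹) * g⁻¹) = πZ G x := by
    rw [map_mul, map_mul, map_inv, hg, e1, e2]; group
  have ga := h.ot.conj a h.ha g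
  have n : ∀ t ∈ D, Commute a t → ¬ Commute t x := fun t ht c e => h.nc (h.trans ht h.ha h.hx c.symm e)
  have as := (same_scc a).comm' (self_mem_scc h.ha) hs
  have e4 : (πZ G (g * a * g⁻¹) * πZ G x) ^ 3 = 1 := by
    rw [← e3, ← map_mul, ← map_pow, conj_mul, e0, conj_mul, conj_pow, conj_pow, e]; simp
  have e5 := h.dist_unique ga c1 (Commute.refl _) (k := 1) (by rw [pow_one, pow_two, h.ot.sq ga])
    (braid_of_cube (h.ot.sq ga) (h.ot.sq h.hx) (h.ot.pow_eq_one refl_twoZ ga h.hx (n _ ga c1) e4)) hs.1 as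
    (h1 ▸ (Commute.refl r).mul_right (Commute.refl r)) (root_pow (h.ot.sq hs.1) h1) h2
  exact h3 (h.ot.pow_eq_one refl_twoZ hs.1 h.hx (n _ hs.1 as) (e5 ▸ e4))

theorem LC.not_L3 (h : LC D) (ha : a ∈ D) (hx : x ∈ D) (nc : ¬ Commute a x) {s r : G} (R : Rt D a x s r) :
    ¬ L3 D a x := fun ⟨e, he, e3⟩ => by
  obtain ⟨ha', hx', bt, k, -⟩ := h.bt_pair ha hx nc
  obtain ⟨hs, hr, h1, h2, h3⟩ := R
  exact bt.cube_ne (s := ⟨s, subset_closure (.inl hs)⟩) (r := ⟨r, hr⟩) ((k _).2 hs) (Subtype.ext h1)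
    (Subtype.ext h2) (fun e => h3 (congrArg Subtype.val e)) ((k ⟨e, subset_closure (.inl he)⟩).2 he).1 bt.hx
    (fun c => nc (((Root.mem_scc.1 he).2 x hx).2 (commute_coe.1 c))) (Subtype.ext e3)

theorem LC.exists_rt (h : LC D) (hO : pCore 2 G = ⊥) (hZ : center G = ⊥) (ha : a ∈ D) (hx : x ∈ D)
    (nc : ¬ Commute a x) (h3 : ¬ L3 D a x) : ∃ s r, Rt D a x s r := by
  obtain ⟨ha', hx', bt, k, hg⟩ := h.bt_pair ha hx nc
  obtain ⟨s, hs, r, h1, h2⟩ := bt.exists_root hg (fun n hn => (h.mem_closure_scc hO hZ ha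
    ((closure_le ((Subgroup.closure _).comap (Subgroup.subtype _))).2 (fun t ht => subset_closure ((k t).1 ht)) hn)).imp
      (k n).2 Subtype.ext) fun ⟨e, he, e3⟩ => h3 ⟨e, (k e).1 he, congrArg Subtype.val e3⟩
  exact ⟨s, r, (k s).1 hs, r.2, congrArg Subtype.val h1, congrArg Subtype.val h2, fun e => h3 ⟨s, (k s).1 hs, e⟩⟩

theorem LC.iso_L2 (h : LC D) (hO : pCore 2 G = ⊥) (hZ : center G = ⊥) (ha : a ∈ D) (hx : x ∈ D)
    (nc : ¬ Commute a x) (h3 : L3 D a x) : ∃ (F : Type) (_ : Field F) (_ : Fintype F), CharP F 2 ∧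
      Fintype.card F = Nat.card (closure (sameCommutingClass D a)) ∧
      Nonempty (closure (sameCommutingClass D a ∪ {x}) ≃* PSL(2, F)) := by
  obtain ⟨ha', hx', bt, k, hg⟩ := h.bt_pair ha hx nc
  obtain ⟨e, he, e3⟩ := h3
  obtain ⟨F, _, _, h1, h2, h4⟩ := bt.iso_L2 hg (fun n hn => (h.mem_closure_scc hO hZ ha
    ((closure_le ((Subgroup.closure _).comap (Subgroup.subtype _))).2 (fun t ht => subset_closure ((k t).1 ht)) hn)).imp
      (k n).2 Subtype.ext) ⟨⟨e, subset_closure (.inl he)⟩, (k _).2 he, Subtype.ext e3⟩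
  refine ⟨F, _, _, h1, h2.trans ?_, h4⟩
  rw [← card_map_of_injective (Subgroup.subtype_injective _), MonoidHom.map_closure]
  exact congrArg (fun S : Set G => Nat.card (closure S)) (Set.ext fun t =>
    ⟨fun ⟨u, hu, e⟩ => e ▸ (k u).1 hu, fun ht => ⟨⟨t, subset_closure (.inl ht)⟩, (k _).2 ht, rfl⟩⟩)

end

/-- the statement proved by induction -/
def AllL3 (G : Type u) [Group G] : Prop := ∀ D : Set G, LC D → IsConnectedSet (CommAdj D) D →
  ∀ a ∈ D, ∀ x ∈ D, ¬ Commute a x → L3 D a x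

section
variable {G : Type u} [Group G] [Finite G] {D : Set G} (h : LC D) (hO : pCore 2 G = ⊥) (hZ : center G = ⊥)
  (ih : ∀ Y : Subgroup G, Nat.card Y < Nat.card G → AllL3 Y)
include h hO hZ ih

theorem LC.bt_sub {a x s r : G} (ha : a ∈ D) (hx : x ∈ D) (nc : ¬ Commute a x) (R : Rt D a x s r) {T : Set G}
    (hT : T ⊆ D) (xT : x ∈ T) (hn : ∀ t ∈ T, ¬ Commute a t ∨ ¬ Commute x t) {z : G} (z1 : z * z = 1) (z2 : z ≠ 1)
    (z3 : ∀ t ∈ sameCommutingClass D a ∪ T, Commute z t) :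
    ∃ (ha' : a ∈ closure (sameCommutingClass D a ∪ T)) (hx' : x ∈ closure (sameCommutingClass D a ∪ T)),
      BT (cls (⟨a, ha'⟩ : closure (_ ∪ T))) ⟨a, ha'⟩ ⟨x, hx'⟩ ∧
      ∀ t : closure (sameCommutingClass D a ∪ T), (t : G) ∈ D → ¬ Commute a t ∨ ¬ Commute x t →
        t ∈ cls (⟨a, ha'⟩ : closure (_ ∪ T)) := by
  obtain ⟨ha', l, m⟩ := h.sub ha hx nc hT xT hn
  have hx' : x ∈ closure (sameCommutingClass D a ∪ T) := subset_closure (.inr xT)
  have mx := m ⟨x, hx'⟩ hx (.inl nc)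
  have nc' : ¬ Commute (⟨a, ha'⟩ : closure (sameCommutingClass D a ∪ T)) ⟨x, hx'⟩ := fun e => nc (commute_coe.1 e)
  refine ⟨ha', hx', l.bt (fun hc => ?_) (self_mem_cls _) mx nc', m⟩
  have k1 : ∀ t : closure (sameCommutingClass D a ∪ T), (t : G) ∈ sameCommutingClass D a →
      t ∈ sameCommutingClass (cls (⟨a, ha'⟩ : closure (_ ∪ T))) ⟨a, ha'⟩ := fun t ht =>
    Root.mem_scc.2 ⟨m t ht.1 (.inr fun e => nc (((Root.mem_scc.1 ht).2 x hx).2 e.symm)), fun c hc => by
      rw [commute_coe, commute_coe]; exact (Root.mem_scc.1 ht).2 c (h.ot.cls_coe ha hc)⟩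
  obtain ⟨hs, hr, h1, h2, h3⟩ := R
  refine l.not_L3 (self_mem_cls _) mx nc' (s := ⟨s, subset_closure (.inl hs)⟩)
    (r := ⟨r, closure_mono (Set.union_subset_union_right _ (by simpa using xT)) hr⟩)
    ⟨k1 _ hs, mem_closure_coe ?_ hr, Subtype.ext h1, Subtype.ext h2, fun e => h3 (congrArg Subtype.val e)⟩
    (ih _ (card_lt_of_cent hO z1 z2 z3) _ l hc _ (self_mem_cls _) _ mx nc')
  rintro t (ht | rfl)
  exacts [⟨subset_closure (.inl ht), .inl (k1 _ ht)⟩, ⟨hx', .inr rfl⟩]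

theorem LC.exists_P4 (hc : IsConnectedSet (CommAdj D) D) {a x : G} (ha : a ∈ D) (hx : x ∈ D) (nc : ¬ Commute a x)
    (h3 : ¬ L3 D a x) : ∃ x ∈ D, ¬ Commute a x ∧ ¬ L3 D a x ∧ ∃ c ∈ D, Commute c a ∧ Commute c x ∧
      ∃ y ∈ D, Commute a y ∧ ¬ Commute x y ∧ ¬ Commute c y := by
  by_contra! NP
  have k0 : ∀ x ∈ D, ¬ Commute a x → ¬ L3 D a x → ∀ c ∈ D, Commute a c → c ∉ sameCommutingClass D a →
      Commute x c := fun x hx nc h3 c hcD ac hn => by
    by_contra xc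
    obtain ⟨y, hy, ay, cy⟩ : ∃ y ∈ D, Commute a y ∧ ¬ Commute c y := by
      by_contra! e
      exact hn (h.mem_scc ha hcD e)
    obtain ⟨e, he, ea, ex⟩ := h.exists_comm hc ha hx
    have xy : ¬ Commute x y := fun e => cy (NP x hx nc h3 y hy ay.symm e.symm c hcD ac xc).symm
    obtain ⟨s, r, R⟩ := h.exists_rt hO hZ ha hx nc h3
    obtain ⟨ha', hx', bt, m⟩ := h.bt_sub hO hZ ih ha hx nc R (T := {x, c, y})
      (by rintro t (rfl | rfl | rfl); exacts [hx, hcD, hy]) (.inl rfl)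
      (by rintro t (rfl | rfl | rfl); exacts [.inl nc, .inr xc, .inr xy]) (h.ot.sq he) (h.ot.ne_one he) (by
        rintro t (ht | rfl | rfl | rfl)
        exacts [(((Root.mem_scc.1 ht).2 e he).1 ea.symm).symm, ex, NP x hx nc h3 e he ea ex _ hcD ac xc,
          NP x hx nc h3 e he ea ex _ hy ay xy])
    exact cy (commute_coe.1 (bt.trans bt.ha (m ⟨c, subset_closure (by simp)⟩ hcD (.inr xc))
      (m ⟨y, subset_closure (by simp)⟩ hy (.inr xy)) (commute_coe.2 ac) (commute_coe.2 ay)))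
  have k1 : ∀ w ∈ D, ¬ Commute a w → ¬ L3 D a w := fun w hw aw ⟨e, he, e3⟩ => by
    obtain ⟨c, hcD, ca, cw⟩ := h.exists_comm hc ha hw
    obtain ⟨s, r, R⟩ := h.exists_rt hO hZ ha hx nc h3
    obtain ⟨ha', hx', bt, m⟩ := h.bt_sub hO hZ ih ha hx nc R (T := {x, w})
      (by rintro t (rfl | rfl); exacts [hx, hw]) (.inl rfl)
      (by rintro t (rfl | rfl); exacts [.inl nc, .inl aw]) (h.ot.sq hcD) (h.ot.ne_one hcD) (by
        rintro t (ht | rfl | rfl)
        exacts [(((Root.mem_scc.1 ht).2 c hcD).1 ca.symm).symm, (k0 _ hx nc h3 c hcD ca.symm fun e =>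
          aw (((Root.mem_scc.1 e).2 w hw).2 cw)).symm, cw])
    obtain ⟨hs, hr, h1, h2, h4⟩ := R
    have n : ∀ t ∈ sameCommutingClass D a, ¬ Commute x t := fun t ht e => nc (((Root.mem_scc.1 ht).2 x hx).2 e.symm)
    exact bt.cube_ne (s := ⟨s, subset_closure (.inl hs)⟩)
      (r := ⟨r, closure_mono (Set.union_subset_union_right _ (by simp)) hr⟩)
      (bt.eqv _ (m _ hs.1 (.inr (n s hs))) (commute_coe.2 ((same_scc a).comm' (self_mem_scc ha) hs)))
      (Subtype.ext h1) (Subtype.ext h2) (fun e => h4 (congrArg Subtype.val e))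
      (m ⟨e, subset_closure (.inl he)⟩ he.1 (.inr (n e he))) (m ⟨w, subset_closure (by simp)⟩ hw (.inl aw))
      (fun c => aw (((Root.mem_scc.1 he).2 w hw).2 (commute_coe.1 c))) (Subtype.ext e3)
  obtain ⟨e, he, ea, ex⟩ := h.exists_comm hc ha hx
  have k2 : ∀ b, Relation.ReflTransGen (OddAdj D) a b → Commute a b → b ∈ sameCommutingClass D a := fun b hb => by
    induction hb with
    | refl => exact fun _ => self_mem_scc ha
    | @tail b b' _ hbb ih' =>
      intro ab'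
      by_contra hn
      refine h.ot.not_commute hbb.1 hbb.2.1 hbb.2.2.1 hbb.2.2.2 ?_
      by_cases ab : Commute a b
      · exact ((Root.mem_scc.1 (ih' ab)).2 b' hbb.2.1).1 ab'
      · exact k0 b hbb.1 ab (k1 b hbb.1 ab) b' hbb.2.1 ab' hn
  exact nc (((Root.mem_scc.1 (k2 e (h.odd_conn ha hx nc a ha e he) ea.symm)).2 x hx).2 ex)

theorem LC.fixed {c s y r : G} (hc : c ∈ D) (hs : s ∈ D) (hy : y ∈ D) (cs : Commute c s) (sy : Commute s y)
    (rs : Commute r s) (yy : Commute y (r * y * r⁻¹)) (cy : ¬ Commute c y)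
    (hr : ∀ t ∈ sameCommutingClass D c, Commute r t) (hm : y * s * (r * y * r⁻¹) ∈ D) : r * y * r⁻¹ = y := by
  have y1 := h.ot.conj y hy r
  have sy1 : Commute s (r * y * r⁻¹) := by simpa [conj_eq_of_commute rs] using commute_conj sy r
  obtain ⟨e, he, k⟩ : ∃ e ∈ sameCommutingClass D c,
      Commute (y * e * y) (r * y * r⁻¹ * e * (r * y * r⁻¹)) := by
    have k : ∀ e ∈ sameCommutingClass D c, ∀ g, y * e * y = g⁻¹ * y * g →
        r * y * r⁻¹ * e * (r * y * r⁻¹) = (r * g * r⁻¹)⁻¹ * (r * y * r⁻¹) * (r * g * r⁻¹) := fun e he g e1 => by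
      nth_rw 1 [← conj_eq_of_commute (hr e he)]
      rw [conj_mul, conj_mul, e1]; group
    by_cases h3 : L3 D c y
    · obtain ⟨e, he, e3⟩ := h3
      have e1 := braid_of_cube (h.ot.sq he.1) (h.ot.sq hy) e3
      refine ⟨e, he, ?_⟩
      rw [k e he e e1, e1, conj_eq_of_commute (hr e he)]
      simpa using commute_conj yy e⁻¹
    obtain ⟨e, g, R⟩ := h.exists_rt hO hZ hc hy cy h3
    have cy1 : ¬ Commute c (r * y * r⁻¹) := fun e => cy (commute_conj_iff'.1
      ((conj_eq_of_commute (hr c (self_mem_scc hc))).symm ▸ e))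
    obtain ⟨hc', hy', bt, m⟩ := h.bt_sub hO hZ ih hc hy cy R (T := {y, r * y * r⁻¹})
      (by rintro t (rfl | rfl); exacts [hy, y1]) (.inl rfl)
      (by rintro t (rfl | rfl); exacts [.inl cy, .inl cy1]) (h.ot.sq hs) (h.ot.ne_one hs) (by
        rintro t (ht | rfl | rfl)
        exacts [(((Root.mem_scc.1 ht).2 s hs).1 cs).symm, sy, sy1])
    obtain ⟨he, hg, h1, h2, -⟩ := R
    have g1 : r * g * r⁻¹ ∈ closure (sameCommutingClass D c ∪ {y, r * y * r⁻¹}) :=
      (closure_le ((closure (sameCommutingClass D c ∪ {y, r * y * r⁻¹})).comap (MulAut.conj r).toMonoidHom)).2 (by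
        rintro t (ht | rfl)
        · show r * t * r⁻¹ ∈ closure (sameCommutingClass D c ∪ {y, r * y * r⁻¹})
          exact subset_closure (.inl ((conj_eq_of_commute (hr t ht)).symm ▸ ht))
        · show r * t * r⁻¹ ∈ closure (sameCommutingClass D c ∪ {t, r * t * r⁻¹})
          exact subset_closure (.inr (.inr rfl))) hg
    let e' : closure (sameCommutingClass D c ∪ {y, r * y * r⁻¹}) := ⟨e, subset_closure (.inl he)⟩
    let y' : closure (sameCommutingClass D c ∪ {y, r * y * r⁻¹}) := ⟨r * y * r⁻¹, subset_closure (by simp)⟩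
    have me := m e' he.1 (.inr fun e => cy (((Root.mem_scc.1 he).2 y hy).2 e.symm))
    have my := m y' y1 (.inl cy1)
    have ge : Commute g e := h1 ▸ (Commute.refl g).mul_right (Commute.refl g)
    have g4 := root_pow (h.ot.sq he.1) h1
    have e2 := bt.dist_inj (g := ⟨g, closure_mono (Set.union_subset_union_right _ (by simp)) hg⟩)
      (g' := ⟨_, g1⟩) me (commute_coe.2 ((same_scc c).comm' (self_mem_scc hc) he)) (commute_coe.2 ge) (k := 2)
      (Subtype.ext g4) (Subtype.ext h2) my (commute_coe.2 yy)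
      (commute_coe.2 (by simpa [conj_eq_of_commute (hr e he)] using commute_conj ge r)) (k' := 2)
      (Subtype.ext (show (r * g * r⁻¹) ^ 2 ^ 2 = 1 by rw [conj_pow, g4]; simp)) (Subtype.ext (k e he g h2))
    exact ⟨e, he, commute_coe.1 (bt.comm_of_eq (bt.ot.conj' me bt.hx) (bt.ot.conj' me my)
      (by simp only [map_mul, e2]))⟩
  by_contra hne
  generalize r * y * r⁻¹ = w at *
  have es : Commute e s := ((Root.mem_scc.1 he).2 s hs).1 cs
  have k1 : Commute e (y * s * w * e * (y * s * w)) := by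
    have := commute_conj k y
    rw [h.ot.inv hy, ← mul_assoc y, ← mul_assoc y, h.ot.sq hy, one_mul, mul_assoc e, h.ot.sq hy, mul_one] at this
    convert this using 1
    nth_rw 2 [← sy.eq]
    rw [mul_assoc y s w, sy1.eq, mul_assoc s y w, yy.eq]
    simp only [mul_assoc]
    rw [← mul_assoc e s, es.eq, mul_assoc, h.ot.cancel hs]
  have k2 : Commute e (y * s * w) := by_contra fun n => n (h.ot.comm_of_conj he.1 hm n (Commute.refl e) k1)
  have k3 := k2.mul_right es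
  rw [mul_assoc, mul_assoc, ← sy1.eq, h.ot.cancel hs] at k3
  exact cy (((Root.mem_scc.1 he).2 y hy).2 (h.ot.comm_of_prod hy y1 (Ne.symm hne) yy he.1 k3.symm).symm)

theorem LC.l3_core (hc : IsConnectedSet (CommAdj D) D) {a x : G} (ha : a ∈ D) (hx : x ∈ D) (nc : ¬ Commute a x) :
    L3 D a x := by
  by_contra h3
  obtain ⟨x, hx, nc, h3, c, hcD, ca, cx, y, hy, ay, xy, cy⟩ := h.exists_P4 hO hZ ih hc ha hx nc h3
  obtain ⟨s, r, R⟩ := h.exists_rt hO hZ ha hx nc h3
  obtain ⟨z, z1, z2, z3⟩ := h.exists_z ha hx nc hy ay fun e => cy (((Root.mem_scc.1 e).2 c hcD).1 ca.symm).symm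
  obtain ⟨ha', hx', bt, m⟩ := h.bt_sub hO hZ ih ha hx nc R (T := {x, y}) (by rintro t (rfl | rfl); exacts [hx, hy])
    (.inl rfl) (by rintro t (rfl | rfl); exacts [.inl nc, .inr xy]) z1 z2 z3
  obtain ⟨hs, hr, h1, h2, -⟩ := R
  have n : ∀ t ∈ sameCommutingClass D a, ¬ Commute x t := fun t ht e => nc (((Root.mem_scc.1 ht).2 x hx).2 e.symm)
  have ct : ∀ t ∈ sameCommutingClass D a, Commute c t := fun t ht => (((Root.mem_scc.1 ht).2 c hcD).1 ca.symm).symm
  let s' : closure (sameCommutingClass D a ∪ {x, y}) := ⟨s, subset_closure (.inl hs)⟩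
  let y' : closure (sameCommutingClass D a ∪ {x, y}) := ⟨y, subset_closure (by simp)⟩
  let r' : closure (sameCommutingClass D a ∪ {x, y}) :=
    ⟨r, closure_mono (Set.union_subset_union_right _ (by simp)) hr⟩
  have ms := m s' hs.1 (.inr (n s hs))
  have my := m y' hy (.inr xy)
  obtain ⟨b, hb, hab⟩ := h.line_scc ha
  obtain ⟨w, w1, w2, w3⟩ := bt.torus' h.ot ha (b := ⟨b, subset_closure (.inl hb)⟩) (m _ hb.1 (.inr (n b hb)))
    (m _ hab.1 (.inr (n _ hab))) hcD ca (ct b hb) cx my (commute_coe.2 ay)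
  have wD := h.ot.cls_coe ha w1
  have wx : Commute (w : G) x := commute_coe.1 (bt.comm_of_eq w1 bt.hx w2)
  have rs : Commute r s := h1 ▸ (Commute.refl r).mul_right (Commute.refl r)
  refine (bt.move ms bt.hx fun e => n s hs (commute_coe.1 e).symm).false_of_root (r := r') ?_ (Subtype.ext h1)
    (Subtype.ext h2) (C := (centralizer {c}).comap (Subgroup.subtype _))
    (mem_centralizer_singleton_iff.2 (ct s hs).symm) (mem_centralizer_singleton_iff.2 cx.symm)
    (bt.ot.conj' (bt.ot.conj' ms w1) bt.hx) ?_ (fun e => cy ?_) fun u hu eu uc hm => Subtype.ext ?_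
  · refine eq_top_iff.2 ((closure_preimage_eq_top _).ge.trans (closure_mono ?_))
    rintro t (ht | ht | ht)
    · exact .inl (bt.mem_scc ms (m t ht.1 (.inr (n _ ht))) (commute_coe.2 ((same_scc a).comm' hs ht)))
    · exact .inr (Subtype.ext ht)
    · exact .inl (bt.mem_scc ms ((Subtype.ext ht : t = y') ▸ my) (commute_coe.2
        ((show (t : G) = y from ht).symm ▸ ((Root.mem_scc.1 hs).2 y hy).1 ay)))
  · simp only [map_mul, w2, ← mul_assoc]
    rw [← map_mul, bt.ot.sq bt.hx, map_one, one_mul, mul_assoc, ← map_mul, bt.ot.sq bt.hx, map_one, mul_one]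
  · have e1 : Commute (x * (w * s * w) * x) c := mem_centralizer_singleton_iff.1 e
    have e2 := commute_conj (commute_conj e1 x) w
    rw [conj_eq_of_commute cx.symm, h.ot.inv hx, h.ot.inv wD] at e2
    simp only [mul_assoc, h.ot.cancel hx, h.ot.cancel wD, h.ot.sq hx, h.ot.sq wD, mul_one] at e2
    rw [← mul_assoc] at e2
    have e3 : Commute ((w : G) * c * w) w := commute_of_closure (by
      rintro t (ht | rfl | rfl)
      exacts [((same_scc a).comm _ hs t ht _ (h.ot.conj' hcD wD) e2).symm, (wx.mul_left cx).mul_left wx, w3]) w.2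
    have e4 := commute_conj e3 w
    rw [h.ot.inv wD] at e4
    simp only [mul_assoc, h.ot.cancel wD, h.ot.sq wD, mul_one, one_mul] at e4
    rwa [← e4.eq, mul_assoc, h.ot.sq wD, mul_one] at w3
  · have su := bt.comm_of_eq hu ms eu
    refine h.fixed hO hZ ih hcD hs.1 (h.ot.cls_coe ha hu) (ct s hs) (commute_coe.1 su).symm rs
      (commute_coe.1 (bt.trans ms hu (bt.ot.conj u hu r') su.symm ?_))
      (fun e => uc (mem_centralizer_singleton_iff.2 e.symm)) (fun t ht => (commute_of_closure ?_ hr).symm)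
      (h.ot.cls_coe ha hm)
    · simpa [conj_eq_of_commute (commute_coe.2 rs : Commute r' s')] using commute_conj su.symm r'
    · rintro v (hv | rfl)
      exacts [((Root.mem_scc.1 ht).2 v hv.1).1 (ct v hv), ((Root.mem_scc.1 ht).2 v hx).1 cx]

end

theorem allL3 (n : ℕ) : ∀ (G : Type u) [Group G] [Finite G], Nat.card G = n → AllL3 G := by
  induction n using Nat.strong_induction_on with
  | _ n ih =>
  intro G _ _ hn D h hc a ha x hx nc
  by_cases hO : twoZCore G = ⊥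
  · exact h.l3_core (eq_bot_iff.2 fun g hg => hO ▸ πZ_eq_one.1 (πZ_pCore hg))
      (eq_bot_iff.2 fun g hg => hO ▸ mem_comap.2 (mem_center_iff.2 fun y => by
        obtain ⟨y, rfl⟩ := QuotientGroup.mk'_surjective _ y
        rw [← map_mul, mem_center_iff.1 hg, map_mul])) (fun Y hY => ih _ (hn ▸ hY) Y rfl) hc ha hx nc
  obtain ⟨_, h1, h2⟩ := ih _ (hn ▸ card_quot_lt hO) _ rfl _ (h.map πZ_surj refl_twoZ ha hx nc)
    (conn_map _ hc) _ ⟨a, ha, rfl⟩ _ ⟨x, hx, rfl⟩ fun e => nc (h.ot.comm_of_refl refl_twoZ ha hx e)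
  obtain ⟨⟨e, he, rfl⟩, k⟩ := mem_scc.1 h1
  have m : e ∈ sameCommutingClass D a := h.mem_scc ha he fun c hc e1 =>
    h.ot.comm_of_refl refl_twoZ he hc ((k _ ⟨c, hc, rfl⟩).1 (e1.map _))
  exact ⟨e, m, h.ot.pow_eq_one refl_twoZ he hx (fun c => nc (((mem_scc.1 m).2 x hx).2 c)) h2⟩

theorem LC.l3 {G : Type u} [Group G] [Finite G] {D : Set G} (h : LC D) (hc : IsConnectedSet (CommAdj D) D)
    {a x : G} (ha : a ∈ D) (hx : x ∈ D) (nc : ¬ Commute a x) : L3 D a x := allL3 _ G rfl D h hc a ha x hx nc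

end Cfsg.Agent.Lib.Root
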