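import Cfsg.Agent.Lib.Root.OT1

set_option autoImplicit false
set_option linter.unusedSectionVars false

/-! # Odd transpositions: the group generated by `E_d` and an odd partner -/

namespace Cfsg.Agent.Lib.Root

open Cfsg Cfsg.Agent.Lib.Invol Subgroup

variable {G : Type*} [Group G] {D : Set G}

theorem mem_scc {d s : G} : s ∈ sameCommutingClass D d ↔ s ∈ D ∧ ∀ c ∈ D, Commute d c ↔ Commute s c := by
  refine and_congr_right fun _ => ⟨fun e c hc => ?_, fun e => Set.ext fun c => and_congr_right fun hc => ?_⟩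
  · have := Set.ext_iff.1 e c
    simp only [commutingMembers, Set.mem_setOf_eq, hc, true_and] at this
    exact ⟨fun h => (this.1 h.symm).symm, fun h => (this.2 h.symm).symm⟩
  · exact ⟨fun h => ((e c hc).1 h.symm).symm, fun h => ((e c hc).2 h.symm).symm⟩

theorem self_mem_scc {d : G} (hd : d ∈ D) : d ∈ sameCommutingClass D d := mem_scc.2 ⟨hd, fun _ _ => Iff.rfl⟩

theorem same_scc (d : G) : Same D (sameCommutingClass D d) :=
  ⟨fun _ hs => hs.1, fun _ hs _ hs' c hc h => ((mem_scc.1 hs').2 c hc).1 (((mem_scc.1 hs).2 c hc).2 h)⟩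

theorem Same.sub_scc {S : Set G} (hS : Same D S) {d : G} (hd : d ∈ S) : S ⊆ sameCommutingClass D d :=
  fun s hs => mem_scc.2 ⟨hS.sub hs, fun c hc => ⟨hS.comm d hd s hs c hc, hS.comm s hs d hd c hc⟩⟩

theorem OT.col_mem_scc (h : OT D) {d s : G} (hd : d ∈ D) (hs : s ∈ D) (hds : d * s ∈ D) :
    s ∈ sameCommutingClass D d :=
  mem_scc.2 ⟨hs, fun _ hc => ⟨h.col hd hs hds hc, h.col hs hd ((h.comm_of_mul_mem hd hs hds).eq ▸ hds) hc⟩⟩

theorem OT.scc_conj (h : OT D) {d s : G} (hs : s ∈ sameCommutingClass D d) (g : G) :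
    g * s * g⁻¹ ∈ sameCommutingClass D (g * d * g⁻¹) :=
  mem_scc.2 ⟨h.conj s hs.1 g, fun c hc => by
    have := (mem_scc.1 hs).2 _ (h.conj c hc g⁻¹)
    rw [← commute_conj_iff' (g := g), ← commute_conj_iff' (a := s) (g := g)] at this
    simpa [mul_assoc] using this⟩

theorem scc_eq {d s : G} (hs : s ∈ sameCommutingClass D d) : sameCommutingClass D s = sameCommutingClass D d :=
  Set.ext fun e => by
    rw [mem_scc, mem_scc]
    exact and_congr_right fun _ => forall₂_congr fun c hc => by rw [(mem_scc.1 hs).2 c hc]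

theorem sq_of_mem_closure {T : Set G} (h2 : ∀ a ∈ T, a * a = 1) (hc : ∀ a ∈ T, ∀ b ∈ T, Commute a b)
    {g : G} (hg : g ∈ closure T) : g * g = 1 := by
  have := Subgroup.isMulCommutative_closure (k := T) hc
  induction hg using closure_induction with
  | mem x hx => exact h2 x hx
  | one => simp
  | mul x y hx hy e1 e2 =>
    have hxy : y * x = x * y := congrArg Subtype.val (mul_comm' (⟨y, hy⟩ : closure T) ⟨x, hx⟩)
    rw [mul_assoc, ← mul_assoc y, hxy, mul_assoc, e2, mul_one, e1]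
  | inv x _ e => rw [← mul_inv_rev, e, inv_one]

theorem pgroup_closure_comm {T : Set G} (h2 : ∀ a ∈ T, a * a = 1) (hc : ∀ a ∈ T, ∀ b ∈ T, Commute a b) :
    IsPGroup 2 (closure T) := fun g =>
  ⟨1, Subtype.ext (by simpa [pow_two] using sq_of_mem_closure h2 hc g.2)⟩

theorem mem_norm_closure {T : Set G} {w : G} (hw : w * w = 1) (h : ∀ t ∈ T, w * t * w⁻¹ ∈ closure T) :
    w ∈ normalizer (closure T : Set G) := by
  have key : ∀ n ∈ closure T, w * n * w⁻¹ ∈ closure T := fun n hn => by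
    induction hn using closure_induction with
    | mem x hx => exact h x hx
    | one => simp
    | mul x y _ _ e1 e2 => simpa [mul_assoc] using mul_mem e1 e2
    | inv x _ e => simpa [mul_assoc] using inv_mem e
  refine mem_normalizer_iff.2 fun n => ⟨key n, fun hn => ?_⟩
  have := key _ hn
  rwa [inv_eq_of_mul_eq_one_right hw, ← mul_assoc, ← mul_assoc, hw, one_mul, mul_assoc, hw, mul_one] at this

theorem commute_of_closure {T : Set G} {z g : G} (h : ∀ t ∈ T, Commute z t) (hg : g ∈ closure T) :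
    Commute z g :=
  (mem_centralizer_singleton_iff.1 ((closure_le (centralizer {z})).2
    (fun t ht => mem_centralizer_singleton_iff.2 (h t ht).symm.eq) hg)).symm

theorem eq_one_of_central (hO : pCore 2 G = ⊥) {z : G} {k : ℕ} (hz : z ^ 2 ^ k = 1) (hc : ∀ g, Commute z g) :
    z = 1 := by
  have hn : (zpowers z).Normal := ⟨fun n hn g => by
    obtain ⟨m, rfl⟩ := hn
    rw [conj_eq_of_commute ((hc g).symm.zpow_right m)]; exact ⟨m, rfl⟩⟩
  have := le_pCore' hn (p := 2) (fun g => ⟨k, Subtype.ext (by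
    obtain ⟨_, m, rfl⟩ := g
    show (z ^ m) ^ 2 ^ k = 1
    rw [← zpow_natCast, ← zpow_mul, mul_comm, zpow_mul, zpow_natCast, hz, one_zpow])⟩) (mem_zpowers z)
  rwa [hO, mem_bot] at this

/-- no lines: `E_d = {d}` -/
theorem OT.scc_eq_single (h : OT D) (hO : pCore 2 G = ⊥) {d x : G} (hd : d ∈ D) (hx : x ∈ D)
    (hdx : ¬ Commute d x) (hg : closure (sameCommutingClass D d ∪ {x}) = ⊤)
    (hl : ∀ a ∈ sameCommutingClass D d, ∀ b ∈ sameCommutingClass D d, a * b ∉ D) {e : G}
    (he : e ∈ sameCommutingClass D d) : e = d := by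
  have hS := same_scc (D := D) d
  have dS := self_mem_scc hd
  set S := sameCommutingClass D d with hSd
  let U : Set G := {u | ∃ a ∈ S, ∃ b ∈ S, u = a * b}
  have uu : ∀ u ∈ U, u * u = 1 := by
    rintro _ ⟨a, ha, b, hb, rfl⟩
    exact h.prod_sq ha.1 hb.1 (hS.comm' ha hb)
  have us : ∀ u ∈ U, ∀ s ∈ S, Commute u s := by
    rintro _ ⟨a, ha, b, hb, rfl⟩ s hs
    exact (hS.comm' ha hs).mul_left (hS.comm' hb hs)
  have k1 : ∀ u ∈ U, ∀ s ∈ S, x * u * x * s * (x * u * x)⁻¹ ∈ S := by
    rintro _ ⟨a, ha, b, hb, rfl⟩ s hs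
    by_cases hab : a = b
    · simpa [hab, h.sq hb.1, h.sq hx] using hs
    have cu : ∀ c ∈ D, Commute d c ↔ Commute (a * b) c := fun c hc =>
      ⟨fun e => (hS.comm d dS a ha c hc e).mul_left (hS.comm d dS b hb c hc e),
        fun e => hS.comm a ha d dS c hc (h.comm_of_prod ha.1 hb.1 hab (hS.comm' ha hb) hc e)⟩
    have u2 := uu _ ⟨a, ha, b, hb, rfl⟩
    have h1 : Commute x (a * b * x * (a * b)) := by
      by_contra hm
      obtain ⟨f, hf, huf, hzx, hz1, -⟩ := h.exists_cent u2 (hl a ha b hb) hx hm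
      refine hz1 (eq_one_of_central hO (k := 1) ?_ fun g => commute_of_closure ?_ (hg ▸ mem_top g))
      · rw [pow_one, pow_two, mul_assoc (a * b), ← mul_assoc f, ← huf.eq, mul_assoc (a * b), h.sq hf,
          mul_one, u2]
      · rintro t (ht | rfl)
        · exact (us _ ⟨a, ha, b, hb, rfl⟩ t ht).mul_left (hS.comm d dS t ht f hf ((cu f hf).2 huf)).symm
        · exact hzx
    generalize a * b = u at *
    have h2 : Commute (x * u * x) u := by simpa only [Commute, SemiconjBy, mul_assoc] using h1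
    generalize x * u * x = w at *
    refine mem_scc.2 ⟨h.conj s hs.1 w, fun c hc => ?_⟩
    have hc' := h.conj c hc w⁻¹
    rw [cu c hc, ← commute_conj_iff' (g := w⁻¹), conj_eq_of_commute h2.inv_left, ← cu _ hc',
      (mem_scc.1 hs).2 _ hc', ← commute_conj_iff' (g := w)]
    simp [mul_assoc]
  let U' : Set G := {w | ∃ u ∈ U, w = x * u * x}
  have ww : ∀ w ∈ U', w * w = 1 := by
    rintro _ ⟨u, hu, rfl⟩
    simp only [mul_assoc, h.cancel hx]
    rw [← mul_assoc u, uu u hu, one_mul, h.sq hx]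
  have cU : ∀ u ∈ U, ∀ v ∈ U, Commute u v := by
    rintro u hu _ ⟨a, ha, b, hb, rfl⟩
    exact (us u hu a ha).mul_right (us u hu b hb)
  have p1 := pgroup_closure_comm uu cU
  have p2 := pgroup_closure_comm ww (by
    rintro _ ⟨u, hu, rfl⟩ _ ⟨v, hv, rfl⟩
    simpa [h.inv hx] using commute_conj (cU u hu v hv) x)
  have p3 := p2.to_sup_of_normal_right' p1 ((closure_le _).2 fun w hw => mem_norm_closure (ww w hw) (by
    obtain ⟨u, hu, rfl⟩ := hw
    rintro _ ⟨a, ha, b, hb, rfl⟩
    exact subset_closure ⟨_, k1 u hu a ha, _, k1 u hu b hb, by group⟩))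
  rw [← Subgroup.closure_union] at p3
  have hn : (closure (U' ∪ U)).Normal := normalizer_eq_top_iff.1 (eq_top_iff.2 (hg.ge.trans
    ((closure_le _).2 (by
      rintro t (ht | rfl)
      · refine mem_norm_closure (h.sq ht.1) ?_
        rintro w (hw | hw)
        · obtain ⟨u, hu, rfl⟩ := hw
          have : t * (x * u * x) * t⁻¹ = t * (x * u * x * t * (x * u * x)⁻¹) * (x * u * x) := by
            rw [h.inv ht.1]; group
          rw [this]
          exact mul_mem (subset_closure (.inr ⟨t, ht, _, k1 u hu t ht, rfl⟩))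
            (subset_closure (.inl ⟨u, hu, rfl⟩))
        · rw [conj_eq_of_commute (us w hw t ht).symm]
          exact subset_closure (.inr hw)
      · refine mem_norm_closure (h.sq hx) ?_
        rintro w (hw | hw)
        · obtain ⟨u, hu, rfl⟩ := hw
          exact subset_closure (.inr (by simpa [mul_assoc, h.cancel hx, h.inv hx, h.sq hx] using hu))
        · exact subset_closure (.inl ⟨w, hw, by rw [h.inv hx]⟩)))))
  have := le_pCore' hn p3 (subset_closure (.inr ⟨e, he, d, dS, rfl⟩))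
  rw [hO, mem_bot] at this
  exact h.eq_of_mul he.1 this

/-- lines: commuting is an equivalence relation -/
theorem OT.mem_scc_of_line (h : OT D) {d x : G} (hd : d ∈ D) (hx : x ∈ D) (hdx : ¬ Commute d x)
    (hz : ∀ z, z * z = 1 → (∀ s ∈ sameCommutingClass D d, Commute z s) → Commute z x → z = 1)
    {a b : G} (ha : a ∈ sameCommutingClass D d) (hb : b ∈ sameCommutingClass D d) (hab : a * b ∈ D)
    {g : G} (hg : g ∈ D) (hdg : Commute d g) : g ∈ sameCommutingClass D d := by
  have hS := same_scc (D := D) d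
  have dS := self_mem_scc hd
  by_contra hn
  obtain ⟨z, h1, h2, h3, h4, -⟩ := h.exists_z hS ha hb
    (scc_eq ha ▸ h.col_mem_scc ha.1 hab (by rw [h.cancel ha.1]; exact hb.1)) hx
    (fun e => hdx (hS.comm a ha d dS x hx e)) hg (hS.comm d dS a ha g hg hdg)
    (fun s hs => ⟨fun e => hn (e ▸ hs), fun e => hn (scc_eq hs ▸ h.col_mem_scc hs.1 hg
      ((h.comm_of_mul_mem hg hs.1 e).eq ▸ e))⟩)
  exact h2 (hz z h1 h3 h4)

end Cfsg.Agent.Lib.Root
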