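import Cfsg.Agent.Lib.Root.OT2
import Cfsg.Agent.BS.S.Models

set_option autoImplicit false
set_option linter.unusedSectionVars false

/-! # Lifting `L₂(q)` and `Sz(q)` over a central subgroup -/

namespace Cfsg.Agent.BS

open Subgroup Cfsg.Agent.Lib.Core Cfsg.Agent.FT Multiplicative Cfsg.Agent.Lib.Root
open scoped Cfsg.Agent.Lib.Glaub MatrixGroups

variable {G : Type*} [Group G] [Finite G] {H Q D : Subgroup G} {t s r : G}

theorem Hyp.exists_SzD (h : Hyp H Q D t s r) (h2 : IsPGroup 2 Q) (hna : ¬ IsMulCommutative Q)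
    (h5 : orderOf (s * t) = 5) (hc : Nat.card Q = Nat.card (Q0 Q) ^ 2) :
    ∃ (F : Type) (_ : Field F) (_ : Fintype F) (_ : Algebra (ZMod 2) F) (θ : Gal(F/ZMod 2))
      (e : SU' θ →* G) (κ : Fˣ →* G), Fintype.card F = Nat.card (Q0 Q) ∧ (∀ x, θ (θ x) = x ^ 2) ∧
      Odd (orderOf θ) ∧ θ ≠ 1 ∧ TD e κ t ∧ TE e κ t ⟨0, 1⟩ (⟨1, 1⟩ : SU' θ)⁻¹ 1 ⟨1, 1⟩ ∧ e.range = Q ∧
      κ.range = KK D t ∧ Function.Injective e ∧ Function.Injective κ := by
  obtain ⟨F, _, _, _, hF, ⟨c⟩⟩ := h.coord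
  have hig := h.hig c le_rfl h.Q0_le h2 (h.KK_le.trans h.sdp.norm)
  obtain ⟨τ, χ, σ, a⟩ := hig.coordA (by rw [hc, Nat.card_eq_fintype_card (α := F), hF])
  letI := ZMod.algebra F 2
  let θ : Gal(F/ZMod 2) := AlgEquiv.ofRingEquiv (f := τ) fun x =>
    RingHom.congr_fun (RingHom.ext_zmod (τ.toRingHom.comp (algebraMap _ _)) (algebraMap _ _)) x
  have hθ : ∀ x, θ x = τ x := fun _ => rfl
  have ho : Odd (orderOf θ) := by
    rw [← orderOf_injective (MulSemiringAction.toRingAut Gal(F/ZMod 2) F) fun a b e =>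
      AlgEquiv.ext (RingEquiv.congr_fun e)]
    exact a.odd
  have h1 : θ ≠ 1 := fun e => hna ((a.comm_iff hig).2 (RingEquiv.ext (AlgEquiv.congr_fun e)))
  have hN : Function.Bijective fun x : F => θ x * x := Finite.surjective_iff_bijective.1 fun y => by
    by_cases hy : y = 0
    · exact ⟨0, by simp [hy]⟩
    · exact ⟨χ (Units.mk0 y hy), (mul_comm _ _).trans (a.χθ _)⟩
  have cen : ∀ x z, c.e z * σ x = σ x * c.e z := fun x z => (mem_cent_iff.1 (hig.le_cent ⟨z, rfl⟩) _ (a.mem x)).symm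
  let e : SU' θ →* G := MonoidHom.mk' (fun x => σ x.a * c.e (ofAdd (x.b + θ x.a * x.a))) fun x y => by
    rw [mul_assoc, ← mul_assoc (c.e _), cen, ← mul_assoc, ← mul_assoc, a.mul, mul_assoc, mul_assoc, ← map_mul,
      ← map_mul, ← ofAdd_add, ← ofAdd_add]
    congr 3
    simp [hθ]; grind
  have ea : ∀ x, e x = σ x.a * c.e (ofAdd (x.b + θ x.a * x.a)) := fun _ => rfl
  have s0 : σ 0 = 1 := by simpa [ea] using e.map_one
  let κ := c.κ.comp χ.symm.toMonoidHom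
  have hκ : κ.range = KK D t := by
    rw [MonoidHom.range_comp, MonoidHom.range_eq_top.2 χ.symm.surjective, ← MonoidHom.range_eq_map, c.κ_range]
  have he : e.range = Q := le_antisymm (by rintro _ ⟨x, rfl⟩; exact mul_mem (a.mem _) (hig.le ⟨_, rfl⟩)) fun g hg => by
    obtain ⟨x, z, rfl⟩ := a.exists_eq g hg
    exact ⟨⟨x, z + θ x * x⟩, by simp [ea, add_assoc, CharTwo.add_self_eq_zero]⟩
  have ie : Function.Injective e := (injective_iff_map_eq_one _).2 fun x hx => by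
    have h0 := a.eq_zero x.a (eq_inv_of_mul_eq_one_left hx ▸ inv_mem ⟨_, rfl⟩)
    rw [ea, h0, s0, one_mul, map_eq_one_iff _ c.e_inj] at hx
    exact Lib.Suz.SU.ext h0 (by simpa using hx)
  have iκ : Function.Injective κ := c.κ_inj.comp χ.symm.injective
  have d : TD e κ t := ⟨h.tt, h.t_κ hκ.le, fun k x => by
    obtain ⟨k, rfl⟩ := χ.surjective k
    rw [ea, ea, ← conj_mul, show κ (χ k) = c.κ k by simp [κ], a.conj, c.κ_e, ← a.χθ k]
    congr 3
    simp [hθ]; ring⟩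
  have es : e ⟨0, 1⟩ = s := by simp [ea, s0, c.e_one]
  obtain ⟨⟨x, ρ⟩, er⟩ := he.ge h.rQ
  obtain rfl : x = 1 := hN.1 (by
    simpa using congrArg Lib.Suz.SU.b (ie (((map_mul e _ _).trans (by rw [er, h.r_sq_of_five h5])).trans es.symm) |>.symm.trans
      (Lib.Suz.SU.mul_self _)) |>.symm)
  have hs : TE e κ t ⟨0, 1⟩ (⟨1, ρ⟩ : SU' θ)⁻¹ 1 ⟨1, ρ⟩ := by simpa [TE, TT, es, er] using h.str
  have hQ : ∀ x, e x ∈ Q := fun x => he.le ⟨x, rfl⟩
  rcases sz_param (fun e => h1 (orderOf_eq_one_iff.1 (((Nat.coprime_two_right.2 ho).pow_right 2).eq_one_of_dvd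
    (orderOf_dvd_of_pow_eq_one e)))) (su_param d hs hN fun _ _ _ _ _ _ _ u v =>
      (h.TE_uniq (hκ.le.trans h.KK_le) u v (hQ _) (hQ _) (hQ _) (hQ _)).imp (ie ·) (ie ·)) with ⟨h3, rfl⟩ | ⟨h3, rfl⟩
  · exact ⟨F, _, _, _, θ, e, κ, hF, h3, ho, h1, d, hs, he, hκ, ie, iκ⟩
  · refine ⟨F, _, _, _, θ⁻¹, _, _, hF, h3, by rwa [orderOf_inv], inv_ne_one.2 h1, d.flip, hs.flip, ?_, ?_,
      ie.comp suFlip.injective, iκ.comp (galU θ⁻¹).injective⟩
    · rw [MonoidHom.range_comp, MonoidHom.range_eq_top.2 suFlip.surjective, ← MonoidHom.range_eq_map, he]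
    · rw [MonoidHom.range_comp, (galU θ⁻¹).toMonoidHom.range_eq_top.2 (galU θ⁻¹).surjective, ← MonoidHom.range_eq_map, hκ]

section lift

variable {X : Type*} [Group X] [Finite X] {π : X →* G}

omit [Finite G] [Finite X] in
theorem lift_hom {A : Type*} [Group A] {S : Subgroup X} (hi : ∀ x ∈ S, π x = 1 → x = 1) (φ : A →* G)
    (hφ : φ.range ≤ S.map π) : ∃ ψ : A →* X, (∀ a, ψ a ∈ S) ∧ ∀ a, π (ψ a) = φ a :=
  ⟨S.subtype.comp ((C1c.mapEquiv hi).symm.toMonoidHom.comp (φ.codRestrict _ fun a => hφ ⟨a, rfl⟩)),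
    fun _ => Subtype.prop _, fun a =>
      congrArg Subtype.val ((C1c.mapEquiv hi).apply_symm_apply ⟨φ a, hφ ⟨a, rfl⟩⟩)⟩

theorem lift_torus {T : Type*} [Group T] [IsCyclic T] (hs : Function.Surjective π) (hk : π.ker ≤ center X)
    {u : X} (hu : u * u = 1) {κ : T →* G} (ho : ∀ a, Odd (orderOf (κ a)))
    (hi : ∀ a, π u * κ a * π u = κ a⁻¹) :
    ∃ κ' : T →* X, (∀ a, u * κ' a * u = κ' a⁻¹) ∧ ∀ a, π (κ' a) = κ a := by
  have ui := inv_eq_of_mul_eq_one_right hu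
  have c : ∀ x, π x = 1 → u * x * u⁻¹ = x⁻¹ → x * x = 1 := fun x h1 h2 => by
    rw [mem_center_iff.1 (hk h1) u, mul_inv_cancel_right] at h2
    exact mul_eq_one_iff_eq_inv.2 h2
  obtain ⟨g, hg⟩ := IsCyclic.exists_generator (α := T)
  obtain ⟨m, hm⟩ := exists_pow_eq_self_of_coprime (x := κ g) (n := 4)
    ((Nat.coprime_two_left.2 (ho g)).pow_left 2)
  obtain ⟨y, hy⟩ := hs (κ (g ^ m))
  have e1 : π (y * u * y⁻¹ * u) = κ (g ^ m * g ^ m) := by
    rw [map_mul, map_mul, map_mul, map_inv, hy, ← map_inv, mul_assoc, mul_assoc, ← mul_assoc (π u), hi,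
      inv_inv, map_mul]
  have e2 : u * (y * u * y⁻¹ * u) * u⁻¹ = (y * u * y⁻¹ * u)⁻¹ := by simp [ui, mul_assoc, hu]
  generalize y * u * y⁻¹ * u = k at e1 e2
  have e3 : (k * k) ^ orderOf (κ (g ^ m * g ^ m)) = 1 := by
    rw [(Commute.refl k).mul_pow]
    exact c _ (by rw [map_pow, e1, pow_orderOf_eq_one]) (Lib.Invol.conj_pow_of_inverts e2 _)
  have e4 : u * (k * k) * u⁻¹ = (k * k)⁻¹ := by simpa only [pow_two] using Lib.Invol.conj_pow_of_inverts e2 2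
  have e5 : ∀ x ∈ zpowers (k * k), u * x * u⁻¹ = x⁻¹ := by
    rintro _ ⟨j, rfl⟩
    simpa using Lib.Invol.conj_zpow_of_inverts e4 j
  obtain ⟨ψ, h1, h2⟩ := lift_hom (π := π) (S := zpowers (k * k)) (fun x hx h1 =>
    eq_one_of_odd_pow (((ho _).of_dvd_nat (orderOf_dvd_of_pow_eq_one e3)).of_dvd_nat
      (orderOf_dvd_of_mem_zpowers hx)) 1 (by simpa [pow_two] using c x h1 (e5 x hx))) κ (by
      rintro _ ⟨a, rfl⟩
      obtain ⟨j, rfl⟩ := hg a
      refine ⟨(k * k) ^ j, ⟨j, rfl⟩, ?_⟩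
      rw [map_zpow, map_zpow, map_mul, e1, ← hm]
      congr 1
      simp only [map_mul, map_pow, ← pow_add, ← pow_mul]
      congr 1; ring)
  exact ⟨ψ, fun a => by rw [map_inv, ← e5 _ (h1 a), ui], h2⟩

omit [Finite G] [Finite X] in
theorem eq_top_of_map (hk : π.ker ≤ center X) {B : Subgroup X} (hB : B.map π = ⊤) {u : X} (hu : u ∈ B)
    (hN : ∀ N : Subgroup X, N.Normal → u ∈ N → N = ⊤) : B = ⊤ := by
  refine hN B ⟨fun n hn g => ?_⟩ hu
  obtain ⟨b, hb, e⟩ := hB.ge (mem_top (π g))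
  have := mem_center_iff.1 (hk (show π (b⁻¹ * g) = 1 by rw [map_mul, map_inv, e, inv_mul_cancel])) n
  rw [show g * n * g⁻¹ = b * (b⁻¹ * g * n) * g⁻¹ by group, ← this,
    show b * (n * (b⁻¹ * g)) * g⁻¹ = b * n * b⁻¹ by group]
  exact mul_mem (mul_mem hb hn) (inv_mem hb)

variable (hs : Function.Surjective π) (hk : π.ker ≤ center X) {T : Set X}
  (hT : ∀ a ∈ T, ∀ g, g * a * g⁻¹ ∈ T) (hi : Set.InjOn π T) {S : Subgroup X} (hS : (S : Set X) ⊆ T)
  {u : X} (huT : u ∈ T) (hu : u * u = 1) (hN : ∀ N : Subgroup X, N.Normal → u ∈ N → N = ⊤)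
  (h : Hyp H Q D (π u) s r)
include hs hk hT hi hS huT hu hN h

theorem lift_L2 (h3 : orderOf (s * π u) = 3) (hQ : Q0 Q ≤ S.map π) (hL : LL (Q0 Q) (π u) = ⊤) :
    ∃ (F : Type) (_ : Field F) (_ : Fintype F), CharP F 2 ∧ Fintype.card F = Nat.card (Q0 Q) ∧
      Nonempty (X ≃* PSL(2, F)) := by
  have ui := inv_eq_of_mul_eq_one_right hu
  obtain ⟨F, _, _, e, κ, _, hc, d, h1, h2, h4, -⟩ := h.exists_L2D h3
  obtain ⟨e', a1, a2⟩ := lift_hom (fun x hx e => hi (hS hx) (hS (one_mem S)) (by rw [e, map_one])) e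
    (h1 ▸ hQ)
  obtain ⟨κ', b1, b2⟩ := lift_torus hs hk hu (fun a => h.oddOf (h.KK_le (h2 ▸ ⟨a, rfl⟩))) d.tk
  have d' : L2D e' κ' u := ⟨hu, b1, fun a x => hi (hT _ (hS (a1 _)) _) (hS (a1 _)) (by
    simpa [a2, b2] using d.act a x), hi (by simpa [ui] using hT _ (hS (a1 _)) u) (by
      have := hT _ huT (e' (ofAdd 1))
      rw [← map_inv, ← ofAdd_neg, CharTwo.neg_eq] at this
      rwa [mul_one]) (by
        simpa [a2, TT] using d.str)⟩
  have ie : Function.Injective e := by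
    have : Nat.card (Multiplicative F) = Nat.card e.range := by
      rw [h1, ← hc, ← Nat.card_eq_fintype_card]; rfl
    exact fun x y hxy => (e.rangeRestrict_surjective.bijective_of_nat_card_le this.le).1 (Subtype.ext hxy)
  have iκ : Function.Injective κ := by
    have : Nat.card Fˣ = Nat.card κ.range := by
      have := h.card_KK
      rw [h2, Nat.card_units, Nat.card_eq_fintype_card]; omega
    exact fun x y hxy => (κ.rangeRestrict_surjective.bijective_of_nat_card_le this.le).1 (Subtype.ext hxy)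
  have v := h.bn_uniq (h1.le.trans h.Q0_le) (h2.le.trans h.KK_le) ie iκ
  obtain ⟨φ⟩ := d'.equiv (fun x k e => v.1 x k (by simpa [a2, b2] using congrArg π e))
    fun x k y e => v.2 x k y (by simpa [a2, b2] using congrArg π e)
  obtain ⟨ψ⟩ := sl2_equiv_psl2 (F := F)
  have e1 := eq_top_of_map hk (B := bnSub e' κ' u) (by
    rw [map_bnSub, ← hL, h4, MonoidHom.ext (f := π.comp e') a2, MonoidHom.ext (f := π.comp κ') b2])
    (t_mem_bnSub _ _ _) hN
  exact ⟨F, _, _, ‹_›, hc, ⟨(((MulEquiv.subgroupCongr e1).trans topEquiv).symm.trans φ).trans ψ⟩⟩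

theorem lift_Sz (h2 : IsPGroup 2 Q) (c : TypeSz Q D (π u) s) (hQ : Q ≤ S.map π) (hL : LL Q (π u) = ⊤) :
    Lie.IsoSuzuki X := by
  have ui := inv_eq_of_mul_eq_one_right hu
  obtain ⟨F, _, _, _, θ, e, κ, -, hθ, ho, h0, d, hs', h1, h2, ie, iκ⟩ := h.exists_SzD h2 c.nonab c.ord c.card
  obtain ⟨e', a1, a2⟩ := lift_hom (fun x hx e => hi (hS hx) (hS (one_mem S)) (by rw [e, map_one])) e
    (h1 ▸ hQ)
  obtain ⟨κ', b1, b2⟩ := lift_torus hs hk hu (fun a => h.oddOf (h.KK_le (h2 ▸ ⟨a, rfl⟩))) d.tk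
  have d' : TD e' κ' u := ⟨hu, b1, fun a x => hi (hT _ (hS (a1 _)) _) (hS (a1 _)) (by
    simpa [a2, b2] using d.act a x)⟩
  have hs2 : TE e' κ' u ⟨0, 1⟩ (⟨1, 1⟩ : SU' θ)⁻¹ 1 ⟨1, 1⟩ := hi (by simpa [ui] using hT _ (hS (a1 _)) u) (by
      simpa using hT _ huT (e' ⟨1, 1⟩)⁻¹) (by simpa [a2, b2, TE, TT] using hs')
  obtain ⟨m, hm, h3, h4⟩ := sz_card hθ ho h0
  have hb := Finite.surjective_iff_bijective.1 (Lib.Suz.SU.norm_surjective hθ)
  have v := h.bn_uniq h1.le (h2.le.trans h.KK_le) ie iκ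
  obtain ⟨φ⟩ := su_equiv hθ h4 d' hs2 hb (fun x k e => v.1 x k (by simpa [a2, b2] using congrArg π e))
    fun x k y e => v.2 x k y (by simpa [a2, b2] using congrArg π e)
  have e1 := eq_top_of_map hk (B := bnSub e' κ' u) (by
    rw [map_bnSub, ← hL, h.LL_eq_bnSub h.sQ h.rQ h.sdp.norm h1 h2.le, MonoidHom.ext (f := π.comp e') a2,
      MonoidHom.ext (f := π.comp κ') b2]) (t_mem_bnSub _ _ _) hN
  exact ⟨F, _, _, m, hm, h3, ⟨((MulEquiv.subgroupCongr e1).trans topEquiv).symm.trans φ⟩⟩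

end lift

end Cfsg.Agent.BS
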