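import Cfsg.Agent.Lib.Root.OT3
import Cfsg.Agent.BS.S.ZD

set_option autoImplicit false
set_option linter.unusedSectionVars false

/-! # Odd transpositions: the structure of `⟨E_d, x⟩` -/

namespace Cfsg.Agent.Lib.Root

open Cfsg Cfsg.Agent.Lib.Invol Subgroup Cfsg.Agent.BS Cfsg.Agent.Lib.Core Cfsg.Agent.FT
open scoped Cfsg.Agent.Lib.Glaub MatrixGroups

variable {G : Type*} [Group G] [Finite G] {D : Set G}

theorem commute_of_cr {d : G} (hd : d ∈ D) (heq : ∀ g ∈ D, Commute d g → g ∈ sameCommutingClass D d) {y : G}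
    (h : CR D d y) : Commute d y := by
  induction h with
  | refl => exact Commute.refl _
  | tail _ hbc ih => exact ((mem_scc.1 (heq _ hbc.1 ih)).2 _ hbc.2.1).2 hbc.2.2.2

theorem OT.bender_data (h : OT D) (hcl : ∀ a ∈ D, ∀ b ∈ D, ∃ g, b = g * a * g⁻¹) {d x : G} (hd : d ∈ D)
    (hx : x ∈ D) (hdx : ¬ Commute d x) (hg : closure (sameCommutingClass D d ∪ {x}) = ⊤)
    {a b : G} (ha : a ∈ D) (hb : b ∈ D) (hab : a * b ∈ D)
    (heq : ∀ g ∈ D, Commute d g → g ∈ sameCommutingClass D d) :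
    ∃ (H Q E : Subgroup (G ⧸ twoZCore G)) (s r : G ⧸ twoZCore G) (u : G), u ∈ D ∧
      Hyp H Q E (QuotientGroup.mk' _ u) s r ∧ Concl Q E (QuotientGroup.mk' _ u) s ∧
      LL Q (QuotientGroup.mk' _ u) = ⊤ ∧
      (orderOf (s * QuotientGroup.mk' _ u) = 3 → LL (Q0 Q) (QuotientGroup.mk' _ u) = ⊤) ∧
      ∀ y, y ∈ Q0 Q ↔ y = 1 ∨ ∃ e ∈ sameCommutingClass D d, QuotientGroup.mk' _ e = y := by
  have hD := h.ris (eq_top_iff.2 (hg.ge.trans (closure_mono (by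
    rintro t (ht | rfl)
    exacts [ht.1, hx]))))
  have hn : ¬ IsConnectedSet (CommAdj D) D := fun c => hdx (commute_of_cr hd heq (c d hd x hx))
  obtain ⟨hs, hD', -, hn'⟩ := disc_quot hD ⟨a * b, hab, a, ha, b, hb, h.comm_of_mul_mem ha hb hab,
    h.ne_one hab, rfl⟩ hn
  set π := QuotientGroup.mk' (twoZCore G) with hπ
  have sj : Function.Surjective π := QuotientGroup.mk'_surjective _
  have dD : π d ∈ π '' D := ⟨d, hd, rfl⟩
  obtain ⟨Q, E, t, s, r, hy, c, e⟩ := disc_simple (ZD.zds _) hD' hn' dD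
  have inv : ∀ y, orderOf y = 2 → ∃ u ∈ D, π u = y := fun y h2 => by
    obtain ⟨g, rfl⟩ := isConj_iff.1 (hy.isConj_invol (hD'.orderOf_eq _ dD) h2)
    obtain ⟨g, rfl⟩ := sj g
    exact ⟨_, h.conj d hd g, by simp⟩
  obtain ⟨u, hu, rfl⟩ := inv t hy.ht
  have mQ : ∀ y, y ∈ Q0 Q ↔ y = 1 ∨ ∃ e ∈ sameCommutingClass D d, π e = y := fun y => by
    rw [hy.mem_Q0 hy.rank]
    refine ⟨fun ⟨h1, h2⟩ => or_iff_not_imp_left.2 fun h3 => ?_, ?_⟩
    · obtain ⟨f, hf, rfl⟩ := inv y (orderOf_two_of h2 h3)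
      exact ⟨f, heq f hf (commute_of_cr hd heq (cr_of_quot hD hd hf
        (((zset_cr hD').mem_stab_iff dD ⟨f, hf, rfl⟩).1 (hy.QH h1)))), rfl⟩
    · rintro (rfl | ⟨f, hf, rfl⟩)
      · exact ⟨one_mem _, mul_one _⟩
      · have fD : π f ∈ π '' D := ⟨f, hf.1, rfl⟩
        exact ⟨hy.invol_mem (((zset_cr hD').mem_stab_iff dD fD).2 (cr_of_commute dD fD
          (((same_scc d).comm' (self_mem_scc hd) hf).map π))) (hD'.orderOf_eq _ fD), ri_sq hD' fD⟩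
  refine ⟨_, Q, E, s, r, u, hu, hy, c, e, fun h3 => ?_, mQ⟩
  have xD : π x ∈ π '' D := ⟨x, hx, rfl⟩
  obtain ⟨q, hq, k, hk, hkt, e1⟩ := hy.invol_out (u := π x) (fun m => hdx (commute_of_cr hd heq
    (cr_of_quot hD hd hx (((zset_cr hD').mem_stab_iff dD xD).1 m)))) (hD'.orderOf_eq _ xD)
  have hr := hy.r_eq_of_three h3
  have m1 := hy.K_mem_LL hy.s_mem_Q0 (hr ▸ hy.s_mem_Q0) (hy.sdp.right_le.trans hy.le_norm_Q0) hk hkt
  have m2 := hy.t_mem_LL hy.s_mem_Q0 (hr ▸ hy.s_mem_Q0)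
  have : ⊤ ≤ ((LL (Q0 Q) (π u)).comap (MulAut.conj q⁻¹).toMonoidHom).comap π := hg.ge.trans
    ((closure_le _).2 (by
      rintro t (ht | rfl)
      · have h1 := (mQ _).2 (.inr ⟨t, ht, rfl⟩)
        have h2 := mem_cent_iff.1 (hy.Q0_le_cent hy.rank h1) _ (inv_mem hq)
        show q⁻¹ * π t * q⁻¹⁻¹ ∈ LL (Q0 Q) (π u)
        rw [h2, mul_inv_cancel_right]
        exact le_LL _ _ h1
      · show q⁻¹ * π t * q⁻¹⁻¹ ∈ LL (Q0 Q) (π u)
        simpa [e1, mul_assoc] using mul_mem m1 m2))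
  refine eq_top_iff.2 fun y _ => ?_
  obtain ⟨g, hg⟩ := sj (q * y * q⁻¹)
  have h1 : q⁻¹ * π g * q⁻¹⁻¹ ∈ LL (Q0 Q) (π u) := this (mem_top g)
  simpa [hg, mul_assoc] using h1

omit [Finite G] in
theorem eq_top_of_normal (hcl : ∀ a ∈ D, ∀ b ∈ D, ∃ g, b = g * a * g⁻¹) (hg : closure D = ⊤) {u : G}
    (hu : u ∈ D) (N : Subgroup G) (hN : N.Normal) (huN : u ∈ N) : N = ⊤ :=
  eq_top_iff.2 (hg.ge.trans ((closure_le _).2 fun b hb => by
    obtain ⟨g, rfl⟩ := hcl u hu b hb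
    exact hN.conj_mem _ huN g))

omit [Finite G] in
theorem comm_mem_pCore {g : G} (hg : g ∈ twoZCore G) (y : G) : y * g * y⁻¹ * g⁻¹ ∈ pCore 2 G := by
  have := mem_center_iff.1 (mem_comap.1 hg) (QuotientGroup.mk' _ y)
  rw [← QuotientGroup.ker_mk' (pCore 2 G), MonoidHom.mem_ker]
  simp only [map_mul, map_inv, this]
  group

/-- the core of S5051 -/
theorem OT.core (h : OT D) (hcl : ∀ a ∈ D, ∀ b ∈ D, ∃ g, b = g * a * g⁻¹) (hO : pCore 2 G = ⊥) {d x : G}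
    (hd : d ∈ D) (hx : x ∈ D) (hdx : ¬ Commute d x) (hg : closure (sameCommutingClass D d ∪ {x}) = ⊤) :
    (∃ (F : Type) (_ : Field F) (_ : Fintype F), CharP F 2 ∧ 4 ≤ Fintype.card F ∧ Nonempty (G ≃* PSL(2, F))) ∨
      Lie.IsoSuzuki G ∨ ∃ n : ℕ, Nonempty (G ≃* DihedralGroup n) := by
  by_cases hl : ∀ a ∈ sameCommutingClass D d, ∀ b ∈ sameCommutingClass D d, a * b ∉ D
  · have : sameCommutingClass D d ∪ {x} = {d, x} := Set.ext fun e =>
      or_congr_left ⟨h.scc_eq_single hO hd hx hdx hg hl, fun e => e.symm ▸ self_mem_scc hd⟩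
    obtain ⟨φ⟩ := nonempty_mulEquiv_dihedral (h.ord d hd) (h.ord x hx) (fun e => hdx (e ▸ Commute.refl _))
    exact .inr (.inr ⟨_, ⟨((MulEquiv.subgroupCongr (this ▸ hg)).trans topEquiv).symm.trans φ⟩⟩)
  push Not at hl
  obtain ⟨a, ha, b, hb, hab⟩ := hl
  obtain ⟨H, Q, E, s, r, u, hu, hy, c, e1, e2, -⟩ := h.bender_data hcl hd hx hdx hg ha.1 hb.1 hab
    fun g hg' hdg => h.mem_scc_of_line hd hx hdx (fun z h1 h2 h3 => eq_one_of_central hO (k := 1)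
      (by rw [pow_one, pow_two, h1]) fun g => commute_of_closure (by
        rintro t (ht | rfl)
        exacts [h2 t ht, h3]) (hg ▸ mem_top g)) ha hb hab hg' hdg
  set π := QuotientGroup.mk' (twoZCore G) with hπ
  have sj : Function.Surjective π := QuotientGroup.mk'_surjective _
  have hk : π.ker ≤ center G := fun g hg => mem_center_iff.2 fun y => by
    have := comm_mem_pCore (QuotientGroup.ker_mk' (twoZCore G) ▸ hg) y
    rw [hO, mem_bot] at this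
    rw [← one_mul (g * y), ← this]; group
  have hT : ∀ a ∈ {g : G | ∃ k, g ^ 2 ^ k = 1}, ∀ g, g * a * g⁻¹ ∈ {g : G | ∃ k, g ^ 2 ^ k = 1} :=
    fun a ⟨k, hk⟩ g => ⟨k, by rw [conj_pow, hk]; simp⟩
  have hi : Set.InjOn π {g : G | ∃ k, g ^ 2 ^ k = 1} := fun a ⟨k, h1⟩ b ⟨l, h2⟩ e => by
    have c := mem_center_iff.1 (hk (show π (a * b⁻¹) = 1 by rw [map_mul, map_inv, e, mul_inv_cancel]))
    refine mul_inv_eq_one.1 (eq_one_of_central hO (k := k + l) ?_ fun g => (c g).symm)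
    have c1 : Commute a b⁻¹ := by
      have := c b⁻¹
      rw [← mul_assoc, mul_left_inj] at this
      exact this.symm
    rw [c1.mul_pow, pow_add, pow_mul, h1, one_pow, mul_comm (2 ^ k), pow_mul, inv_pow, h2]; simp
  obtain ⟨P', hP'⟩ := c.two.exists_le_sylow
  obtain ⟨P, rfl⟩ := Sylow.mapSurjective_surjective sj 2 P'
  have hS : ((P : Subgroup G) : Set G) ⊆ {g : G | ∃ k, g ^ 2 ^ k = 1} := fun g hg =>
    (P.isPGroup' ⟨g, hg⟩).imp fun k hk => congrArg Subtype.val hk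
  have huT : u ∈ {g : G | ∃ k, g ^ 2 ^ k = 1} := ⟨1, by rw [pow_one, pow_two, h.sq hu]⟩
  have hN := eq_top_of_normal hcl (eq_top_iff.2 (hg.ge.trans (closure_mono (by
    rintro t (ht | rfl)
    exacts [ht.1, hx])))) hu
  have L2 := fun h3 => lift_L2 sj hk hT hi hS huT (h.sq hu) hN hy h3 (hy.Q0_le.trans hP') (e2 h3)
  have h4 := hy.four_le hy.rank
  rcases c.cases with c' | c' | c'
  · obtain ⟨F, _, _, h1, h2, h3⟩ := L2 c'.ord
    exact .inl ⟨F, _, _, h1, h2 ▸ h4, h3⟩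
  · exact .inr (.inl (lift_Sz sj hk hT hi hS huT (h.sq hu) hN hy c.two c' hP' e1))
  · obtain ⟨F, _, _, h1, h2, h3⟩ := L2 c'.ord
    exact .inl ⟨F, _, _, h1, h2 ▸ h4, h3⟩

end Cfsg.Agent.Lib.Root
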