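import Cfsg.Agent.Lib.Root.OT4
import Cfsg.Agent.Lib.Core.Cores

set_option autoImplicit false
set_option linter.unusedSectionVars false

/-! # Odd transpositions: passing to sections -/

namespace Cfsg.Agent.Lib.Root

open Cfsg Cfsg.Agent.Lib.Invol Subgroup
open scoped MatrixGroups

variable {G : Type*} [Group G] {D : Set G}

/-- the conjugacy class of `d` -/
def cls (d : G) : Set G := {a | ∃ g, a = g * d * g⁻¹}

theorem self_mem_cls (d : G) : d ∈ cls d := ⟨1, by simp⟩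

theorem cls_conj {d a : G} (ha : a ∈ cls d) (g : G) : g * a * g⁻¹ ∈ cls d := by
  obtain ⟨k, rfl⟩ := ha
  exact ⟨g * k, by group⟩

theorem cls_cl {d : G} : ∀ a ∈ cls d, ∀ b ∈ cls d, ∃ g, b = g * a * g⁻¹ := by
  rintro _ ⟨k, rfl⟩ _ ⟨l, rfl⟩
  exact ⟨l * k⁻¹, by group⟩

theorem OT.cls_sub (h : OT D) {d : G} (hd : d ∈ D) : cls d ⊆ D := by
  rintro _ ⟨k, rfl⟩
  exact h.conj d hd k

theorem OT.cls (h : OT D) {d : G} (hd : d ∈ D) : OT (cls d) := h.sub (h.cls_sub hd) fun _ ha => cls_conj ha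

theorem OT.mem_cls (h : OT D) {d a b : G} (hd : d ∈ D) (ha : a ∈ Root.cls d) (hb : b ∈ D) (hn : ¬ Commute a b) :
    b ∈ Root.cls d := by
  obtain ⟨k, hk⟩ := h.exists_conj (h.cls_sub hd ha) hb hn
  exact hk ▸ cls_conj ha _

theorem map_mem_cls {G' : Type*} [Group G'] (f : G →* G') {d a : G} (ha : a ∈ cls d) : f a ∈ cls (f d) := by
  obtain ⟨k, rfl⟩ := ha
  exact ⟨f k, by simp⟩

theorem exists_of_mem_cls {G' : Type*} [Group G'] {f : G →* G'} (hf : Function.Surjective f) {d : G} {a : G'}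
    (ha : a ∈ cls (f d)) : ∃ b ∈ cls d, f b = a := by
  obtain ⟨k, rfl⟩ := ha
  obtain ⟨k, rfl⟩ := hf k
  exact ⟨_, ⟨k, rfl⟩, by simp⟩

/-- the image of a class modulo a normal `2`-subgroup -/
theorem OT.cls_map (h : OT D) {G' : Type*} [Group G'] {f : G →* G'} (hf : Function.Surjective f)
    (hk : IsPGroup 2 f.ker) {d x : G} (hd : d ∈ D) (hx : x ∈ D) (hdx : ¬ Commute d x) : OT (Root.cls (f d)) :=
  (h.map hf).cls ⟨⟨d, hd, rfl⟩, fun e => hdx (h.commute_of_map hk hd hx (by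
    rw [show f d = 1 from e]; exact Commute.one_left _))⟩

theorem OT.map_mem_scc (h : OT D) {G' : Type*} [Group G'] {f : G →* G'} (hf : Function.Surjective f)
    (hk : IsPGroup 2 f.ker) {d x s : G} (hd : d ∈ D) (hx : x ∈ D) (hdx : ¬ Commute d x) (hs : s ∈ D)
    (hc : ∀ c ∈ D, Commute d c ↔ Commute s c) : f s ∈ sameCommutingClass (Root.cls (f d)) (f d) := by
  refine mem_scc.2 ⟨map_mem_cls f (h.mem_cls hd (h.mem_cls hd (self_mem_cls d) hx hdx) hs
    fun e => hdx ((hc x hx).2 e.symm)), fun c hc' => ?_⟩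
  obtain ⟨c, h1, rfl⟩ := exists_of_mem_cls hf hc'
  have cD := h.cls_sub hd h1
  exact ⟨fun e => ((hc c cD).1 (h.commute_of_map hk hd cD e)).map f,
    fun e => ((hc c cD).2 (h.commute_of_map hk hs cD e)).map f⟩

theorem commute_coe {Y : Subgroup G} {a b : Y} : Commute a b ↔ Commute (a : G) b :=
  ⟨fun e => e.map Y.subtype, fun e => Subtype.ext e⟩

theorem OT.s5051 [Finite G] (h : OT D) {d x : G} (hd : d ∈ D) (hx : x ∈ D) (hdx : ¬ Commute d x)
    {X : Subgroup G} (hX : X = closure (sameCommutingClass D d ∪ {x})) :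
    (∃ (F : Type) (_ : Field F) (_ : Fintype F), CharP F 2 ∧ 4 ≤ Fintype.card F ∧
      Nonempty ((X ⧸ pCore 2 X) ≃* PSL(2, F))) ∨ Lie.IsoSuzuki (X ⧸ pCore 2 X) ∨
      ∃ n : ℕ, Nonempty ((X ⧸ pCore 2 X) ≃* DihedralGroup n) := by
  have h' := h.comap X.subtype_injective
  let π := QuotientGroup.mk' (pCore 2 X)
  have sj : Function.Surjective π := QuotientGroup.mk'_surjective _
  have hk : IsPGroup 2 π.ker := by rw [QuotientGroup.ker_mk']; exact pCore_isPGroup' 2
  let d' : X := ⟨d, hX ▸ subset_closure (.inl (self_mem_scc hd))⟩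
  let x' : X := ⟨x, hX ▸ subset_closure (.inr rfl)⟩
  have hdx' : ¬ Commute d' x' := fun e => hdx (commute_coe.1 e)
  refine (h'.cls_map sj hk (d := d') (x := x') hd hx hdx').core cls_cl Lib.Core.pCore_quotient
    (self_mem_cls _) (map_mem_cls π (h'.mem_cls (d := d') hd (self_mem_cls _) (b := x') hx hdx'))
    (fun e => hdx' (h'.commute_of_map hk hd hx e)) ?_
  subst hX
  rw [eq_top_iff, ← map_top_of_surjective π sj, ← closure_preimage_eq_top, MonoidHom.map_closure]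
  refine closure_mono ?_
  rintro _ ⟨t, ht | ht, rfl⟩
  · exact .inl (h'.map_mem_scc sj hk (x := x') hd hx hdx' ht.1 fun c hc => by
      rw [commute_coe, commute_coe]; exact (mem_scc.1 ht).2 c hc)
  · exact .inr (congrArg π (Subtype.ext ht))

end Cfsg.Agent.Lib.Root
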