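import Cfsg.Agent.Lib.Root.OT5
import Cfsg.Agent.FT.Base.Hall

set_option autoImplicit false
set_option linter.unusedSectionVars false

/-! # Odd transpositions: more elementary facts -/

namespace Cfsg.Agent.Lib.Root

open Cfsg Cfsg.Agent.Lib.Invol Subgroup Cfsg.Agent.FT Cfsg.Agent.Lib.Core
open scoped Cfsg.Agent.Lib.Glaub

variable {G : Type*} [Group G] {D : Set G}

theorem OT.comm_of_odd_prod (h : OT D) {c t u : G} (hc : c ∈ D) (ht : t ∈ D) (hu : u ∈ D) (hn : ¬ Commute t u)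
    (e : Commute c (t * u)) : Commute c t := by
  by_contra hct
  have e1 : Commute (t * c * t) (t * u) := by
    have := (commute_conj e t).inv_right
    rwa [conj_mul_eq_inv (h.sq ht) (h.sq hu), inv_inv, h.inv ht] at this
  have e2 := h.comm_of_conj hc ht hct e.symm e1.symm
  have := (Commute.refl t).mul_left e2
  rw [h.cancel ht] at this
  exact hn this.symm

theorem OT.comm_of_prod_any (h : OT D) {c t u : G} (hc : c ∈ D) (ht : t ∈ D) (hu : u ∈ D) (hn : t ≠ u)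
    (e : Commute c (t * u)) : Commute c t := by
  by_cases h1 : Commute t u
  · exact (h.comm_of_prod ht hu hn h1 hc e.symm).symm
  · exact h.comm_of_odd_prod hc ht hu h1 e

theorem OT.exists_mid (h : OT D) {a y : G} (ha : a ∈ D) (hy : y ∈ D) (hn : ¬ Commute a y) :
    ∃ g ∈ zpowers (a * y), g * a * g⁻¹ * a * (g * a * g⁻¹) = y := by
  obtain ⟨k, hk⟩ := h.odd a ha y hy hn
  have hinv := conj_mul_eq_inv (h.sq ha) (h.sq hy)
  have h1 : (a * y) ^ (2 * k + 1 : ℤ) = 1 := by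
    rw [← pow_orderOf_eq_one (a * y), hk, ← zpow_natCast]; congr 1
  refine ⟨(a * y) ^ (k * (k + 1) : ℤ), ⟨_, rfl⟩, ?_⟩
  nth_rw 2 [← h.inv (h.conj a ha _)]
  rw [zpow_conj_of_inverts hinv, show (-2 * (k * (k + 1)) : ℤ) = (2 * k + 1) * (-(k + 1)) + (k + 1) by ring,
    zpow_add, zpow_mul, h1, one_zpow, one_mul, mul_zpow_conj_of_inverts (h.sq ha) hinv,
    show (2 * (k + 1) : ℤ) = 2 * k + 1 + 1 by ring, zpow_add, h1, one_mul, zpow_one, h.cancel ha]

/-- `f` is injective on the odd products of two members of `D` -/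
def Refl {G' : Type*} [Group G'] (D : Set G) (f : G →* G') : Prop :=
  ∀ a ∈ D, ∀ g, f g = 1 → Odd (orderOf g) → a * g * a⁻¹ = g⁻¹ → g = 1

theorem refl_of_two {G' : Type*} [Group G'] {f : G →* G'} (hk : IsPGroup 2 f.ker) : Refl D f :=
  fun _ _ _ h1 h2 _ => eq_one_of_odd_pgroup hk h1 h2

theorem refl_twoZ : Refl D (QuotientGroup.mk' (twoZCore G)) := fun a _ g h1 h2 h3 => by
  have := comm_mem_pCore ((QuotientGroup.eq_one_iff g).1 h1) a
  rw [h3] at this
  have h4 := eq_one_of_odd_pgroup (pCore_isPGroup' 2) this (by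
    rw [← mul_inv_rev, orderOf_inv, ← pow_two]; exact h2.of_dvd_nat (orderOf_pow_dvd _))
  rw [← mul_inv_rev, inv_eq_one] at h4
  exact eq_one_of_odd_pow h2 1 (by rwa [pow_one, pow_two])

theorem OT.pow_eq_one (h : OT D) {G' : Type*} [Group G'] {f : G →* G'} (hf : Refl D f) {a b : G} (ha : a ∈ D)
    (hb : b ∈ D) (hn : ¬ Commute a b) {n : ℕ} (e : (f a * f b) ^ n = 1) : (a * b) ^ n = 1 :=
  hf a ha _ (by rw [map_pow, map_mul, e]) ((h.odd a ha b hb hn).of_dvd_nat (orderOf_pow_dvd _))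
    (conj_pow_of_inverts (conj_mul_eq_inv (h.sq ha) (h.sq hb)) n)

theorem OT.comm_of_refl (h : OT D) {G' : Type*} [Group G'] {f : G →* G'} (hf : Refl D f) {a b : G} (ha : a ∈ D)
    (hb : b ∈ D) (hc : Commute (f a) (f b)) : Commute a b := by
  by_contra hn
  refine hn (h.commute_of_sq ha hb ?_)
  rw [← pow_two]
  refine h.pow_eq_one hf ha hb hn ?_
  rw [hc.mul_pow, pow_two, pow_two, ← map_mul, ← map_mul, h.sq ha, h.sq hb, map_one, one_mul]

/-- pairs with the same image are conjugate -/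
theorem OT.pair_conj (h : OT D) {G' : Type*} [Group G'] {f : G →* G'} (hs : Function.Surjective f)
    (hf : Refl D f) {a b x : G} (ha : a ∈ D) (hb : b ∈ D) (hx : x ∈ D) (hn : ¬ Commute a x) (e : f a = f b) :
    ∃ g, g * x * g⁻¹ ∈ D ∧ f (g * x * g⁻¹) = f x ∧ b = g * x * g⁻¹ * x * a * x * (g * x * g⁻¹) := by
  have n1 : ¬ Commute (x * a * x) b := fun c => hn (by
    have c1 := c.map f
    rw [← e] at c1
    exact h.comm_of_conj ha hx hn (Commute.refl a) (h.comm_of_refl hf (h.conj' ha hx) ha c1).symm)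
  obtain ⟨g, -, hg⟩ := h.exists_mid (h.conj' ha hx) hb n1
  obtain ⟨k, hk⟩ := h.exists_conj hx (h.conj' ha hx) fun c => hn (by
    have := commute_conj c x
    rw [h.inv hx, h.sq hx, one_mul, ← mul_assoc, ← mul_assoc, h.sq hx, one_mul, mul_assoc, h.sq hx,
      mul_one] at this
    exact this.symm)
  generalize (x * (x * a * x)) ^ k = l at hk
  have e1 : g * l * x * (g * l)⁻¹ = g * (x * a * x) * g⁻¹ := by rw [← hk]; group
  have yD := h.conj x hx (g * l)
  refine ⟨g * l, yD, ?_, by rw [← hg, e1]; simp only [mul_assoc]⟩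
  rw [← e1] at hg
  generalize g * l * x * (g * l)⁻¹ = y at hg yD
  have h' := h.map hs
  have m : ∀ c ∈ D, ¬ Commute a c → f c ∈ f '' D \ {1} := fun c hc h1 => ⟨⟨c, hc, rfl⟩, fun e1 =>
    h1 (h.comm_of_refl hf ha hc (by rw [show f c = 1 from e1]; exact Commute.one_right _))⟩
  have ma : f a ∈ f '' D \ {1} := ⟨⟨a, ha, rfl⟩, fun e1 =>
    hn (h.comm_of_refl hf ha hx (by rw [show f a = 1 from e1]; exact Commute.one_left _))⟩
  have c1 : Commute (f a) (f x * f y) := by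
    have := congrArg f hg
    rw [← e] at this
    simp only [map_mul] at this
    have y2 : f y * f y = 1 := by rw [← map_mul, h.sq yD, map_one]
    show _ = _
    nth_rw 2 [← this]
    simp only [← mul_assoc]
    rw [mul_assoc _ (f y) (f y), y2, mul_one, ← map_mul f x x, h.sq hx, map_one, one_mul]
  by_contra hne
  by_cases y1 : f y = 1
  · rw [y1, mul_one] at c1
    exact hn (h.comm_of_refl hf ha hx c1)
  · exact hn (h.comm_of_refl hf ha hx (h'.comm_of_prod_any ma (m x hx hn) ⟨⟨y, yD, rfl⟩, y1⟩ (Ne.symm hne) c1))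

theorem exists_conj_odd [Finite G] {N : Subgroup G} [hN : N.Normal] (h2 : IsPGroup 2 N) {a b : G}
    (ha : Odd (orderOf a)) (hb : Odd (orderOf b)) (e : b * a⁻¹ ∈ N) : ∃ n ∈ N, n * b * n⁻¹ = a := by
  have i : N ⊓ zpowers a = ⊥ := eq_bot_iff.2 fun g hg =>
    eq_one_of_odd_pgroup h2 hg.1 (ha.of_dvd_nat (orderOf_dvd_of_mem_zpowers hg.2))
  obtain ⟨k, hk⟩ := IsPGroup.iff_card.1 h2
  obtain ⟨n, hn, h1⟩ := SDP.exists_cj_le (K := zpowers b) ⟨le_normalizer_of_normal, i, rfl⟩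
    (zpowers_le_of_mem (by simpa using mul_mem (mem_sup_left e) (mem_sup_right (mem_zpowers a))))
    (by rw [hk, Nat.card_zpowers]; exact (Nat.coprime_two_right.2 hb).pow_right k) (.inr inferInstance)
  refine ⟨n, hn, mul_inv_eq_one.1 (mem_bot.1 (i ▸ mem_inf.2 ⟨?_,
    (zpowers a).mul_mem (h1 (conj_mem_cj.2 (mem_zpowers b))) (inv_mem (mem_zpowers a))⟩))⟩
  simpa [mul_assoc] using mul_mem (mul_mem hn (hN.conj_mem _ (inv_mem hn) b)) e

theorem mem_pCore_of_two [Finite G] {g : G} (hg : g ∈ twoZCore G) {k : ℕ} (h : g ^ 2 ^ k = 1) : g ∈ pCore 2 G :=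
  (QuotientGroup.eq_one_iff g).1 (eq_one_of_central (G := G ⧸ pCore 2 G) pCore_quotient (k := k)
    (by rw [← QuotientGroup.mk_pow, h]; rfl) fun y => (mem_center_iff.1 (mem_comap.1 hg) y).symm)

/-- Lemma P -/
theorem OT.comm_of_mem [Finite G] (h : OT D) {S : Set G} (hS : Same D S) {a b x g y : G} (ha : a ∈ S) (hb : b ∈ S)
    (hab : a * b ∈ S) (hx : x ∈ D) (hax : ¬ Commute a x) (hg : g ∈ D) (hag : Commute a g) (hy : y ∈ D)
    (hay : Commute a y) (hm : y ∈ closure (S ∪ {x, g})) : Commute g y := by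
  by_contra hn
  set M := closure (S ∪ {x, g}) with hM
  have h' := h.comap M.subtype_injective
  let π := QuotientGroup.mk' (pCore 2 M)
  have sj : Function.Surjective π := QuotientGroup.mk'_surjective _
  have hk : IsPGroup 2 π.ker := by rw [QuotientGroup.ker_mk']; exact pCore_isPGroup' 2
  have r : ∀ u v : M, (u : G) ∈ D → (v : G) ∈ D → Commute (π u) (π v) → Commute (u : G) v :=
    fun u v hu hv c => commute_coe.1 (h'.commute_of_map hk hu hv c)
  let x' : M := ⟨x, subset_closure (by simp)⟩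
  let g' : M := ⟨g, subset_closure (by simp)⟩
  let y' : M := ⟨y, hm⟩
  let a' : M := ⟨a, subset_closure (.inl ha)⟩
  let b' : M := ⟨b, subset_closure (.inl hb)⟩
  have m : ∀ u v : M, (u : G) ∈ D → (v : G) ∈ D → ¬ Commute (u : G) v → π u ∈ π '' (M.subtype ⁻¹' D) \ {1} :=
    fun u v hu hv c => ⟨⟨u, hu, rfl⟩, fun e => c (r u v hu hv (by
      rw [show π u = 1 from e]; exact Commute.one_left _))⟩
  have hS' : Same (π '' (M.subtype ⁻¹' D) \ {1}) (π '' (M.subtype ⁻¹' S)) := ⟨by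
    rintro _ ⟨s, hs, rfl⟩
    exact m s x' (hS.sub hs) hx fun c => hax (hS.comm _ hs a ha x hx c), by
    rintro _ ⟨s, hs, rfl⟩ _ ⟨t, ht, rfl⟩ _ ⟨⟨c, hc, rfl⟩, -⟩ e
    exact (commute_coe.2 (hS.comm _ hs _ ht _ hc (r s c (hS.sub hs) hc e))).map π⟩
  have my := m y' g' hy hg fun c => hn c.symm
  have mg := m g' y' hg hy hn
  obtain ⟨z, z1, z2, z3, z4, z5, -⟩ := (h'.map sj).exists_z hS' (a := π a') (b := π b') (x := π x') (g := π g')
    ⟨a', ha, rfl⟩ ⟨b', hb, rfl⟩ ⟨a' * b', hab, map_mul _ _ _⟩ (m x' a' hx (hS.sub ha) fun c => hax c.symm)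
    (fun c => hax (r a' x' (hS.sub ha) hx c)) mg ((commute_coe.2 hag : Commute a' g').map π) (by
      rintro _ ⟨s, hs, rfl⟩
      have c : Commute (π s) (π y') := (commute_coe.2 (hS.comm a ha _ hs y hy hay) : Commute s y').map π
      exact ⟨fun e => hn (r g' y' hg hy (e ▸ c)), fun e => hn (r g' y' hg hy ((h'.map sj).col
        (hS'.sub ⟨s, hs, rfl⟩) mg (((h'.map sj).comm_of_mul_mem mg (hS'.sub ⟨s, hs, rfl⟩) e).eq ▸ e) my c))⟩)
  refine z2 (eq_one_of_central pCore_quotient (k := 1) (by rw [pow_one, pow_two, z1]) fun u => ?_)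
  refine commute_of_closure (T := π '' (M.subtype ⁻¹' (S ∪ {x, g}))) ?_ (by
    rw [← MonoidHom.map_closure, closure_preimage_eq_top, map_top_of_surjective π sj]; trivial)
  rintro _ ⟨t, ht | ht | ht, rfl⟩
  · exact z3 _ ⟨t, ht, rfl⟩
  · exact (Subtype.ext ht : t = x') ▸ z4
  · exact (Subtype.ext ht : t = g') ▸ z5

theorem OT.mem_scc_of_sub [Finite G] (h : OT D) {a g : G} (ha : a ∈ D)
    (hs : ∀ c ∈ D, Commute a c → Commute (g * a * g⁻¹) c) : g * a * g⁻¹ ∈ sameCommutingClass D a := by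
  have e : {c | c ∈ D ∧ Commute a c} = {c | c ∈ D ∧ Commute (g * a * g⁻¹) c} :=
    Set.eq_of_subset_of_ncard_le (fun c hc => ⟨hc.1, hs c hc.1 hc.2⟩) (le_of_eq (by
      rw [← Set.ncard_image_of_injective {c | c ∈ D ∧ Commute a c} (MulAut.conj g).injective]
      congr 1
      ext c
      refine ⟨fun hc => ⟨g⁻¹ * c * g, ⟨by simpa using h.conj c hc.1 g⁻¹, ?_⟩, by simp [mul_assoc]⟩, ?_⟩
      · simpa [mul_assoc] using commute_conj hc.2 g⁻¹
      · rintro ⟨c, hc, rfl⟩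
        exact ⟨h.conj c hc.1 g, commute_conj hc.2 g⟩))
  exact mem_scc.2 ⟨h.conj a ha g, fun c hc => ⟨hs c hc, fun e1 => (e.ge ⟨hc, e1⟩).2⟩⟩

/-- in the disconnected case commuting is transitive -/
theorem OT.trans_of_disc [Finite G] (h : OT D) (hg : closure D = ⊤) {a b : G} (ha : a ∈ D) (hb : b ∈ D)
    (hab : a * b ∈ D) (hn : ¬ IsConnectedSet (CommAdj D) D) {c d e : G} (hc : c ∈ D) (hd : d ∈ D) (he : e ∈ D)
    (h1 : Commute c d) (h2 : Commute c e) : Commute d e := by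
  have hD := h.ris hg
  obtain ⟨hs, hD', -, hn'⟩ := disc_quot hD ⟨a * b, hab, a, ha, b, hb, h.comm_of_mul_mem ha hb hab,
    h.ne_one hab, rfl⟩ hn
  have m : ∀ u ∈ D, _ ∈ QuotientGroup.mk' (twoZCore G) '' D := fun u hu => ⟨u, hu, rfl⟩
  obtain ⟨Q, E, t, s, r, hy, -, -⟩ := disc_simple (BS.ZD.zds _) hD' hn' (m c hc)
  have q : ∀ u ∈ D, Commute c u → QuotientGroup.mk' (twoZCore G) u ∈ Q := fun u hu e =>
    hy.invol_mem (((zset_cr hD').mem_stab_iff (m c hc) (m u hu)).2 (cr_of_commute (m c hc) (m u hu) (e.map _)))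
      (hD'.orderOf_eq _ (m u hu))
  exact h.comm_of_refl refl_twoZ hd he
    (mem_centralizer_iff.1 (hy.invol_cent hy.rank (q e he h2) (ri_sq hD' (m e he))) _ (q d hd h1))

end Cfsg.Agent.Lib.Root
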