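import Cfsg.Agent.Lib.Root.OT6
import Cfsg.Agent.BS.S.Suzuki

set_option autoImplicit false
set_option linter.unusedSectionVars false

/-! # Odd transpositions: groups of Bender type -/

namespace Cfsg.Agent.Lib.Root

open Cfsg Cfsg.Agent.Lib.Invol Subgroup Cfsg.Agent.BS Cfsg.Agent.Lib.Core Cfsg.Agent.FT
open scoped Cfsg.Agent.Lib.Glaub

variable {G : Type*} [Group G] [Finite G] {D : Set G} {a x : G}

theorem two_mem {H Q E : Subgroup G} {t g : G} (h : A1 H Q E t) (hg : g ∈ H) {k : ℕ} (h2 : g ^ 2 ^ k = 1) :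
    g ∈ Q :=
  le_of_coprime_relIndex (K := zpowers g) h.sdp.nrm.norm (zpowers_le.2 hg) (by
    rw [Nat.card_zpowers, h.sdp.relIndex_left]
    exact ((Nat.coprime_two_left.2 h.oddD).pow_left k).coprime_dvd_left (orderOf_dvd_of_pow_eq_one h2))
    (mem_zpowers g)

theorem dist_inj {H Q E : Subgroup G} {t t' s r r' : G} (h : A1s H Q E t s r) (h3 : A3 Q) (hr : r' ∈ Q)
    (t2 : orderOf t' = 2) (c : Commute t t') (e : t' * s * t' = r'⁻¹ * t' * r') : t' = t := by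
  have hu := ZD.ZL.A1.move h.toA1 (u := r * t * r⁻¹) (h.not_mem (h.QH h.rQ) (inv_mem (h.QH h.rQ)))
    (by rw [orderOf_conj', h.ht])
  have rs := mem_cent_iff.1 (h.invol_cent h3 h.sQ h.ss) r h.rQ
  have e1 : r * t * r⁻¹ * s * (r * t * r⁻¹) = t := by
    rw [show r * t * r⁻¹ * s * (r * t * r⁻¹) = r * (t * (r⁻¹ * (s * r)) * t) * r⁻¹ by group, ← rs,
      inv_mul_cancel_left, h.str]
    group
  generalize r * t * r⁻¹ = u at hu e1
  have ui := hu.tinv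
  have c1 : Commute (u * t' * u) s := by
    have := commute_conj c u
    rw [← e1, ui, ← mul_assoc, ← mul_assoc, hu.tsq, one_mul, mul_assoc, hu.tsq, mul_one] at this
    exact this.symm
  have o1 : orderOf (u * t' * u) = 2 := by nth_rw 2 [← ui]; rw [orderOf_conj', t2]
  have m1 := h.invol_mem (h.C1_le h.sQ h.s_ne (mem_C1_iff_commute.2 c1)) o1
  obtain ⟨k, ⟨⟨kE, kt⟩, hk⟩, -⟩ := hu.exists_K h.sQ m1 h.hs o1
  have e2 : t' = k⁻¹ * t * k := by
    calc t' = u * (k * s * k⁻¹) * u := by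
          rw [hk, ← mul_assoc, ← mul_assoc, hu.tsq, one_mul, mul_assoc, hu.tsq, mul_one]
      _ = (u * k * u⁻¹) * (u * s * u) * (u * k * u⁻¹)⁻¹ := by
          simp [ui, mul_assoc, ← mul_assoc u u, hu.tsq]
      _ = _ := by rw [kt, e1, inv_inv]
  have e3 := (h.unique (s' := k * s * k⁻¹) (r' := k * r' * k⁻¹) ⟨h.toA1, hk ▸ m1, hk ▸ o1,
    h.cQ (hu.DH kE) hr, by
      rw [e2] at e
      calc _ = k * (k⁻¹ * t * k * s * (k⁻¹ * t * k)) * k⁻¹ := by group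
        _ = _ := by rw [e]; group⟩).1
  rw [← e1, ← e3, hk, ← mul_assoc, ← mul_assoc, hu.tsq, one_mul, mul_assoc, hu.tsq, mul_one]

/-- the quotient by `O_{2,Z}` -/
abbrev πZ (G : Type*) [Group G] : G →* G ⧸ twoZCore G := QuotientGroup.mk' (twoZCore G)

omit [Finite G] in
theorem πZ_surj : Function.Surjective (πZ G) := QuotientGroup.mk'_surjective _

omit [Finite G] in
theorem πZ_eq_one {g : G} : πZ G g = 1 ↔ g ∈ twoZCore G := QuotientGroup.eq_one_iff g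

omit [Finite G] in
theorem πZ_pCore {g : G} (hg : g ∈ pCore 2 G) : πZ G g = 1 :=
  πZ_eq_one.2 (mem_comap.2 (by rw [show QuotientGroup.mk' (pCore 2 G) g = 1 from
    (QuotientGroup.eq_one_iff g).2 hg]; exact one_mem _))

/-- a group of Bender type -/
structure BT (D : Set G) (a x : G) : Prop where
  ot : OT D
  cl : ∀ b ∈ D, ∀ c ∈ D, ∃ g, c = g * b * g⁻¹
  ha : a ∈ D
  hx : x ∈ D
  nc : ¬ Commute a x
  gen : closure D = ⊤
  line : ∃ b ∈ D, a * b ∈ D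
  eqv : ∀ g ∈ D, Commute a g → g ∈ sameCommutingClass D a

/-- its quotient -/
structure BD (D : Set G) (a x : G) (H Q E : Subgroup (G ⧸ twoZCore G)) (s r : G ⧸ twoZCore G) : Prop where
  hyp : Hyp H Q E (πZ G x) s r
  concl : Concl Q E (πZ G x) s
  top : LL Q (πZ G x) = ⊤
  top3 : closure (sameCommutingClass D a ∪ {x}) = ⊤ → orderOf (s * πZ G x) = 3 → LL (Q0 Q) (πZ G x) = ⊤
  mQ : ∀ y, y ∈ Q0 Q ↔ y = 1 ∨ ∃ e ∈ sameCommutingClass D a, πZ G e = y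
  mH : ∀ g, πZ G g ∈ H ↔ Commute a (g * a * g⁻¹)
  inv : ∀ y, orderOf y = 2 → ∃ u ∈ D, πZ G u = y

namespace BT

variable (h : BT D a x)
include h

theorem comm_iff {b c : G} (hb : b ∈ D) (hc : c ∈ D) : Commute (πZ G b) (πZ G c) ↔ Commute b c :=
  ⟨h.ot.comm_of_refl refl_twoZ hb hc, fun e => e.map _⟩

theorem trans {b c d : G} (hb : b ∈ D) (hc : c ∈ D) (hd : d ∈ D) (h1 : Commute b c) (h2 : Commute b d) :
    Commute c d := by
  obtain ⟨g, e⟩ := h.cl b hb a h.ha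
  have := (same_scc a).comm' (h.eqv _ (h.ot.conj c hc g) (e ▸ commute_conj h1 g))
    (h.eqv _ (h.ot.conj d hd g) (e ▸ commute_conj h2 g))
  exact commute_conj_iff'.1 this

theorem ord {b : G} (hb : b ∈ D) : orderOf (πZ G b) = 2 :=
  orderOf_two_of (by rw [← map_mul, h.ot.sq hb, map_one]) fun e => h.nc (h.trans hb h.ha h.hx
    ((h.comm_iff hb h.ha).1 (e ▸ Commute.one_left _)) ((h.comm_iff hb h.hx).1 (e ▸ Commute.one_left _)))

theorem data : ∃ H Q E s r, BD D a x H Q E s r := by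
  obtain ⟨b, hb, hab⟩ := h.line
  have hD := h.ot.ris h.gen
  have hn : ¬ IsConnectedSet (CommAdj D) D := fun c => h.nc (commute_of_cr h.ha h.eqv (c a h.ha x h.hx))
  obtain ⟨hs, hD', -, hn'⟩ := disc_quot hD ⟨a * b, hab, a, h.ha, b, hb, h.ot.comm_of_mul_mem h.ha hb hab,
    h.ot.ne_one hab, rfl⟩ hn
  have m : ∀ u ∈ D, πZ G u ∈ πZ G '' D := fun u hu => ⟨u, hu, rfl⟩
  obtain ⟨Q, E, t, s, r, hy, -, -⟩ := disc_simple (ZD.zds _) hD' hn' (m a h.ha)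
  have mH : ∀ g, πZ G g ∈ (zset_cr hD').stab (πZ G a) ↔ Commute a (g * a * g⁻¹) := fun g => by
    rw [ZSet.mem_stab, ← map_inv, ← map_mul, ← map_mul]
    exact ⟨fun e => commute_of_cr h.ha h.eqv (cr_of_quot hD h.ha (h.ot.conj a h.ha g) e),
      fun e => cr_of_commute (m a h.ha) (m _ (h.ot.conj a h.ha g)) (e.map _)⟩
  have mD : ∀ u ∈ D, πZ G u ∈ (zset_cr hD').stab (πZ G a) ↔ Commute a u := fun u hu => by
    rw [mH, h.ot.inv hu]
    exact ⟨fun e => by_contra fun n => n (h.ot.comm_of_conj h.ha hu n (Commute.refl a) e),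
      fun e => (e.mul_right (Commute.refl a)).mul_right e⟩
  have b1 := ZD.ZL.A1.move hy.toA1 (u := πZ G x) (fun e => h.nc ((mD x h.hx).1 e)) (h.ord h.hx)
  obtain ⟨s', r', b2⟩ := b1.exists_dist
  have hy' : Hyp _ Q _ (πZ G x) s' r' := ⟨b2, hy.core, hy.rank⟩
  have inv : ∀ y, orderOf y = 2 → ∃ u ∈ D, πZ G u = y := fun y h2 => by
    obtain ⟨g, rfl⟩ := isConj_iff.1 (hy.isConj_invol (h.ord h.ha) h2)
    obtain ⟨g, rfl⟩ := πZ_surj g
    exact ⟨_, h.ot.conj a h.ha g, by simp⟩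
  have mQ : ∀ y, y ∈ Q0 Q ↔ y = 1 ∨ ∃ e ∈ sameCommutingClass D a, πZ G e = y := fun y => by
    rw [hy.mem_Q0 hy.rank]
    refine ⟨fun ⟨h1, h2⟩ => or_iff_not_imp_left.2 fun h3 => ?_, ?_⟩
    · obtain ⟨f, hf, rfl⟩ := inv y (orderOf_two_of h2 h3)
      exact ⟨f, h.eqv f hf ((mD f hf).1 (hy.QH h1)), rfl⟩
    · rintro (rfl | ⟨f, hf, rfl⟩)
      · exact ⟨one_mem _, mul_one _⟩
      · exact ⟨hy.invol_mem ((mD f hf.1).2 ((same_scc a).comm' (self_mem_scc h.ha) hf)) (h.ord hf.1),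
          mul_self_of_orderOf_two (h.ord hf.1)⟩
  refine ⟨_, Q, _, s', r', hy', hy'.concl, (hy'.LL_normal.eq_bot_or_eq_top).resolve_left fun e =>
    hy'.s_ne (mem_bot.1 (e ▸ le_LL Q _ hy'.sQ)), fun hg h3 => ?_, mQ, mH, inv⟩
  rw [eq_top_iff, ← map_top_of_surjective _ πZ_surj, ← hg, MonoidHom.map_closure, closure_le]
  rintro _ ⟨t, ht | rfl, rfl⟩
  · exact le_LL _ _ ((mQ _).2 (.inr ⟨t, ht, rfl⟩))
  · exact hy'.t_mem_LL hy'.s_mem_Q0 (hy'.r_eq_of_three h3 ▸ hy'.s_mem_Q0)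

end BT

namespace BD

variable {H Q E : Subgroup (G ⧸ twoZCore G)} {s r : G ⧸ twoZCore G} (d : BD D a x H Q E s r) (h : BT D a x)
include d h

theorem mD {u : G} (hu : u ∈ D) : πZ G u ∈ H ↔ Commute a u := by
  rw [d.mH, h.ot.inv hu]
  exact ⟨fun e => by_contra fun n => n (h.ot.comm_of_conj h.ha hu n (Commute.refl a) e),
    fun e => (e.mul_right (Commute.refl a)).mul_right e⟩

theorem memQ {u : G} (hu : u ∈ D) (c : Commute a u) : πZ G u ∈ Q :=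
  d.hyp.invol_mem ((d.mD h hu).2 c) (h.ord hu)

theorem memQ' {e g : G} (he : e ∈ D) (c : Commute a e) (c' : Commute g e) {k : ℕ} (hg : g ^ 2 ^ k = 1) :
    πZ G g ∈ Q :=
  two_mem d.hyp.toA1 (d.hyp.C1_le (d.memQ h he c) (ne_one_of_orderOf_two (h.ord he))
    (mem_C1_iff_commute.2 (c'.map _))) (k := k) (by rw [← map_pow, hg, map_one])

theorem a1s {e g : G} (he : e ∈ D) (c : Commute a e) (c' : Commute g e) {k : ℕ} (hg : g ^ 2 ^ k = 1)
    (e1 : x * e * x = g⁻¹ * x * g) : A1s H Q E (πZ G x) (πZ G e) (πZ G g) :=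
  ⟨d.hyp.toA1, d.memQ h he c, h.ord he, d.memQ' h he c c' hg, by simpa using congrArg (πZ G) e1⟩

end BD

namespace BT

variable (h : BT D a x)
include h

theorem dist_unique {e g e' g' : G} (he : e ∈ D) (c : Commute a e) (c1 : Commute g e) {k : ℕ}
    (hg : g ^ 2 ^ k = 1) (e1 : x * e * x = g⁻¹ * x * g) (he' : e' ∈ D) (c' : Commute a e') (c1' : Commute g' e')
    {k' : ℕ} (hg' : g' ^ 2 ^ k' = 1) (e1' : x * e' * x = g'⁻¹ * x * g') : πZ G e = πZ G e' := by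
  obtain ⟨H, Q, E, s, r, d⟩ := h.data
  exact ((d.a1s h he' c' c1' hg' e1').unique (d.a1s h he c c1 hg e1)).1

theorem dist_inj {e g y g' : G} (he : e ∈ D) (c : Commute a e) (c1 : Commute g e) {k : ℕ}
    (hg : g ^ 2 ^ k = 1) (e1 : x * e * x = g⁻¹ * x * g) (hy : y ∈ D) (c' : Commute x y) (c1' : Commute g' e)
    {k' : ℕ} (hg' : g' ^ 2 ^ k' = 1) (e1' : y * e * y = g'⁻¹ * y * g') : πZ G y = πZ G x := by
  obtain ⟨H, Q, E, s, r, d⟩ := h.data
  exact Root.dist_inj (d.a1s h he c c1 hg e1) d.hyp.rank (d.memQ' h he c c1' hg') (h.ord hy) (c'.map _)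
    (by simpa using congrArg (πZ G) e1')

theorem comm_of_mem {n f : G} (hn : n ∈ closure (sameCommutingClass D a)) (hx : ¬ Commute x (n * x * n⁻¹))
    (hf : f ∈ D) (c : Commute n f) : Commute a f := by
  obtain ⟨H, Q, E, s, r, d⟩ := h.data
  have m : πZ G n ∈ Q0 Q := (closure_le ((Q0 Q).comap (πZ G))).2
    (fun e he => (d.mQ _).2 (.inr ⟨e, he, rfl⟩)) hn
  refine (d.mD h hf).1 (d.hyp.C1_le (d.hyp.Q0_le m) (fun e => hx ?_) (mem_C1_iff_commute.2 (c.map _).symm))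
  rw [← h.comm_iff h.hx (h.ot.conj x h.hx n), map_mul, map_mul, map_inv, e]
  simp

theorem exists_conj {y : G} (hy : y ∈ D) (hn : ¬ Commute a y) :
    ∃ g, Commute a (g * a * g⁻¹) ∧ Commute x (g * y * g⁻¹) := by
  obtain ⟨H, Q, E, s, r, d⟩ := h.data
  obtain ⟨q, hq, k, kE, kt, e⟩ := d.hyp.invol_out (fun e => hn ((d.mD h hy).1 e)) (h.ord hy)
  obtain ⟨l, lE, -, e1⟩ := d.hyp.kt_conj kE kt
  obtain ⟨g, hg⟩ := πZ_surj (q * l)⁻¹
  refine ⟨g, (d.mH g).1 (hg ▸ inv_mem (mul_mem (d.hyp.QH hq) (d.hyp.DH lE))), ?_⟩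
  rw [← h.comm_iff h.hx (h.ot.conj y hy g), map_mul, map_mul, map_inv, hg, e, e1]
  simp [mul_assoc]

/-- the torus lemma -/
theorem torus {C : Subgroup G} (hC : ∀ t ∈ D, ∀ u ∈ D, ¬ Commute t u → t * u ∈ C → t ∈ C) {b : G} (hb : b ∈ D)
    (hab : a * b ∈ D) (aC : a ∈ C) (bC : b ∈ C) (xC : x ∈ C) {y : G} (hy : y ∈ D) (c : Commute a y) :
    ∃ y' ∈ D, y' ∈ C ∧ πZ G y' = πZ G y := by
  obtain ⟨H, Q, E, s, r, d⟩ := h.data
  have ab := h.ot.comm_of_mul_mem h.ha hb hab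
  have xi := h.ot.inv h.hx
  obtain ⟨g, hg, e⟩ := h.ot.exists_mid h.ha (h.ot.conj' hb h.hx) fun e => by
    have bx : ¬ Commute b x := fun e => h.nc (h.trans hb h.ha h.hx ab.symm e)
    exact bx (h.ot.comm_of_conj hb h.hx bx (Commute.refl b) (h.trans h.ha hb (h.ot.conj' hb h.hx) ab e))
  have gC : g ∈ C := zpowers_le_of_mem (mul_mem aC (mul_mem (mul_mem xC bC) xC)) hg
  have tC := mul_mem (mul_mem gC aC) (inv_mem gC)
  have tD := h.ot.conj a h.ha g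
  generalize g * a * g⁻¹ = t at e tC tD
  have e1 : x * t * a * (x * t)⁻¹ = b := by
    rw [mul_inv_rev, xi, h.ot.inv tD, mul_assoc x, mul_assoc x, ← mul_assoc _ t x, e]
    simp only [mul_assoc, h.ot.cancel h.hx, h.ot.sq h.hx, mul_one]
  have e2 := congrArg (πZ G) (conj_mul_eq_inv (h.ot.sq h.hx) (h.ot.sq tD))
  rw [map_mul, map_mul, map_inv, map_inv] at e2
  have kH : πZ G (x * t) ∈ H := (d.mH _).2 (e1 ▸ ab)
  have kE := (d.hyp.memD _).2 ⟨kH, e2 ▸ inv_mem kH⟩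
  have nc : ¬ Commute x t := fun c => ne_one_of_orderOf_two (h.ord hab) (by
    have : πZ G (x * t) = 1 := eq_one_of_odd_pow (d.hyp.oddOf kE) 1 (by
      rw [pow_one, pow_two, ← map_mul, h.ot.prod_sq h.hx tD c, map_one])
    rw [← e1, map_mul, map_mul, map_mul _ _ a, map_inv, this, one_mul, inv_one, mul_one, ← map_mul,
      h.ot.sq h.ha, map_one])
  obtain ⟨κ, ⟨κE, κt⟩, hκ⟩ := d.hyp.exists_gen d.hyp.rank
  obtain ⟨j, hj⟩ := hκ _ ⟨kE, e2⟩
  obtain ⟨κ, rfl⟩ := πZ_surj κ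
  have ko := h.ot.odd x h.hx t tD nc
  obtain ⟨o, ho, e3⟩ := exists_conj_odd (pCore_isPGroup' 2) (b := κ * (x * t) * κ⁻¹) ko (by rwa [orderOf_conj'])
    (by
      have := comm_mem_pCore (g := x * t * (κ ^ j)⁻¹) (πZ_eq_one.1 (by
        rw [map_mul, map_inv, map_zpow, ← hj, mul_inv_cancel])) κ
      convert this using 1
      group)
  have e4 : πZ G (o * κ) = πZ G κ := by rw [map_mul, πZ_pCore ho, one_mul]
  have m1 : o * κ * x * (o * κ)⁻¹ ∈ C := hC _ (h.ot.conj x h.hx _) _ (h.ot.conj t tD (o * κ))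
    (fun c => nc (commute_conj_iff'.1 c)) (by
      rw [show o * κ * x * (o * κ)⁻¹ * (o * κ * t * (o * κ)⁻¹) = o * (κ * (x * t) * κ⁻¹) * o⁻¹ by group, e3]
      exact mul_mem xC tC)
  have e5 : πZ G (o * κ * x * (o * κ)⁻¹ * x) = πZ G κ ^ 2 := by
    rw [map_mul, map_mul, map_mul, map_inv, e4, pow_two, mul_assoc, mul_assoc, ← κt, d.hyp.tinv]
    simp only [mul_assoc, d.hyp.tsq, mul_one]
    rw [← mul_assoc (πZ G x), d.hyp.tsq, one_mul]
  obtain ⟨l, ⟨hl, e6⟩, -⟩ := d.hyp.exists_K (d.memQ h h.ha (Commute.refl a)) (d.memQ h hy c) (h.ord h.ha) (h.ord hy)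
  obtain ⟨i, rfl⟩ := hκ l hl
  obtain ⟨m, hm⟩ := exists_pow_eq_self_of_coprime (x := πZ G κ) (n := 2) (Nat.coprime_two_left.2 (d.hyp.oddOf κE))
  have m2 := zpow_mem (pow_mem (mul_mem m1 xC) m) i
  refine ⟨_, h.ot.conj a h.ha _, mul_mem (mul_mem m2 aC) (inv_mem m2), ?_⟩
  rw [map_mul, map_mul, map_inv, map_zpow, map_pow, e5, hm]
  exact e6

end BT

end Cfsg.Agent.Lib.Root
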