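import Cfsg.Agent.Lib.Root.OT7

set_option autoImplicit false
set_option linter.unusedSectionVars false

/-! # Odd transpositions: the commuting graph has diameter two -/

namespace Cfsg.Agent.Lib.Root

open Cfsg Cfsg.Agent.Lib.Invol Subgroup

universe u

variable {G : Type*} [Group G] [Finite G] {D : Set G}

/-- a class with lines -/
structure LC (D : Set G) : Prop where
  ot : OT D
  cl : ∀ b ∈ D, ∀ c ∈ D, ∃ g, c = g * b * g⁻¹
  gen : closure D = ⊤
  line : ∃ a ∈ D, ∃ b ∈ D, a * b ∈ D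

theorem LC.line' (h : LC D) {a : G} (ha : a ∈ D) : ∃ b ∈ D, a * b ∈ D := by
  obtain ⟨c, hc, b, hb, hcb⟩ := h.line
  obtain ⟨g, rfl⟩ := h.cl c hc a ha
  exact ⟨_, h.ot.conj b hb g, by simpa [mul_assoc] using h.ot.conj _ hcb g⟩

theorem LC.line_scc (h : LC D) {a : G} (ha : a ∈ D) :
    ∃ b ∈ sameCommutingClass D a, a * b ∈ sameCommutingClass D a := by
  obtain ⟨b, hb, hab⟩ := h.line' ha
  exact ⟨b, h.ot.col_mem_scc ha hb hab, h.ot.col_mem_scc ha hab (by rwa [h.ot.cancel ha])⟩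

theorem LC.bt (h : LC D) (hn : ¬ IsConnectedSet (CommAdj D) D) {a x : G} (ha : a ∈ D) (hx : x ∈ D)
    (nc : ¬ Commute a x) : BT D a x := by
  obtain ⟨b, hb, hab⟩ := h.line' ha
  exact ⟨h.ot, h.cl, ha, hx, nc, h.gen, ⟨b, hb, hab⟩, fun g hg c => mem_scc.2 ⟨hg, fun e he =>
    ⟨h.ot.trans_of_disc h.gen ha hb hab hn ha hg he c, h.ot.trans_of_disc h.gen ha hb hab hn hg ha he c.symm⟩⟩⟩

theorem LC.mem_scc (h : LC D) {a b : G} (ha : a ∈ D) (hb : b ∈ D) (hs : ∀ c ∈ D, Commute a c → Commute b c) :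
    b ∈ sameCommutingClass D a := by
  obtain ⟨g, rfl⟩ := h.cl a ha b hb
  exact h.ot.mem_scc_of_sub ha hs

theorem LC.map_ne (h : LC D) {G' : Type*} [Group G'] {f : G →* G'} (hf : Refl D f) {a x : G} (ha : a ∈ D)
    (hx : x ∈ D) (nc : ¬ Commute a x) {b : G} (hb : b ∈ D) : f b ≠ 1 := fun e => by
  obtain ⟨g, rfl⟩ := h.cl b hb a ha
  exact nc (h.ot.comm_of_refl hf ha hx (by simp [e]))

theorem LC.map (h : LC D) {G' : Type*} [Group G'] {f : G →* G'} (hs : Function.Surjective f) (hf : Refl D f)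
    {a x : G} (ha : a ∈ D) (hx : x ∈ D) (nc : ¬ Commute a x) : LC (f '' D) where
  ot := (h.ot.map hs).sub (by
    rintro _ ⟨b, hb, rfl⟩
    exact ⟨⟨b, hb, rfl⟩, h.map_ne hf ha hx nc hb⟩) (by
    rintro _ ⟨b, hb, rfl⟩ g
    obtain ⟨g, rfl⟩ := hs g
    exact ⟨_, h.ot.conj b hb g, by simp⟩)
  cl := by
    rintro _ ⟨b, hb, rfl⟩ _ ⟨c, hc, rfl⟩
    obtain ⟨g, rfl⟩ := h.cl b hb c hc
    exact ⟨f g, by simp⟩
  gen := by rw [← MonoidHom.map_closure, h.gen, map_top_of_surjective f hs]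
  line := by
    obtain ⟨c, hc, b, hb, hcb⟩ := h.line
    exact ⟨_, ⟨c, hc, rfl⟩, _, ⟨b, hb, rfl⟩, _, hcb, map_mul _ _ _⟩

omit [Finite G] in
theorem conn_map {G' : Type*} [Group G'] (f : G →* G') (hc : IsConnectedSet (CommAdj D) D) :
    IsConnectedSet (CommAdj (f '' D)) (f '' D) := by
  rintro _ ⟨a, ha, rfl⟩ _ ⟨b, hb, rfl⟩
  have := hc a ha b hb
  clear hb
  induction this with
  | refl => exact Relation.ReflTransGen.refl
  | tail _ hbc ih => exact ih.trans (cr_of_commute ⟨_, hbc.1, rfl⟩ ⟨_, hbc.2.1, rfl⟩ (Commute.map hbc.2.2.2 f))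

omit [Finite G] in
theorem mem_cls_coe {Y : Subgroup G} {a b : Y} : b ∈ cls a ↔ ∃ g ∈ Y, (b : G) = g * a * g⁻¹ :=
  ⟨fun ⟨g, e⟩ => ⟨g, g.2, congrArg Subtype.val e⟩, fun ⟨g, hg, e⟩ => ⟨⟨g, hg⟩, Subtype.ext e⟩⟩

omit [Finite G] in
theorem OT.cls_coe (h : OT D) {Y : Subgroup G} {a b : Y} (ha : (a : G) ∈ D) (hb : b ∈ Root.cls a) : (b : G) ∈ D :=
  (h.comap Y.subtype_injective).cls_sub ha hb

omit [Finite G] in
theorem OT.mem_cls_coe (h : OT D) {Y : Subgroup G} {a b c : Y} (ha : (a : G) ∈ D) (hb : b ∈ Root.cls a)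
    (hc : (c : G) ∈ D) (nc : ¬ Commute (b : G) c) : c ∈ Root.cls a :=
  (h.comap Y.subtype_injective).mem_cls ha hb hc fun e => nc (commute_coe.1 e)

omit [Finite G] in
theorem OT.lc_sub (h : OT D) {T : Set G} {a b : closure T} (ha : (a : G) ∈ D)
    (hT : ∀ t : closure T, (t : G) ∈ T → t ∈ Root.cls a) (hb : b ∈ Root.cls a) (hab : a * b ∈ Root.cls a) :
    LC (Root.cls a) :=
  ⟨(h.comap (closure T).subtype_injective).cls ha, cls_cl,
    eq_top_iff.2 ((closure_preimage_eq_top T).ge.trans (closure_mono fun t ht => hT t ht)),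
    a, self_mem_cls a, b, hb, hab⟩

/-- the subgroup generated by `E_a` and elements `T` not commuting with `a` or `x` -/
theorem LC.sub (h : LC D) {a x : G} (ha : a ∈ D) (hx : x ∈ D) (nc : ¬ Commute a x) {T : Set G} (hT : T ⊆ D)
    (xT : x ∈ T) (hn : ∀ t ∈ T, ¬ Commute a t ∨ ¬ Commute x t) :
    ∃ ha' : a ∈ closure (sameCommutingClass D a ∪ T), LC (cls (⟨a, ha'⟩ : closure (_ ∪ T))) ∧
      ∀ t : closure (sameCommutingClass D a ∪ T), (t : G) ∈ D → ¬ Commute a t ∨ ¬ Commute x t →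
        t ∈ cls (⟨a, ha'⟩ : closure (_ ∪ T)) := by
  have ha' : a ∈ closure (sameCommutingClass D a ∪ T) := subset_closure (.inl (self_mem_scc ha))
  have hx' : x ∈ closure (sameCommutingClass D a ∪ T) := subset_closure (.inr xT)
  have m : ∀ t : closure (sameCommutingClass D a ∪ T), (t : G) ∈ D → ¬ Commute a t ∨ ¬ Commute x t →
      t ∈ cls (⟨a, ha'⟩ : closure (_ ∪ T)) := fun t ht e => e.elim
    (h.ot.mem_cls_coe (a := ⟨a, ha'⟩) ha (self_mem_cls _) ht) (h.ot.mem_cls_coe (a := ⟨a, ha'⟩) (b := ⟨x, hx'⟩) ha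
      (h.ot.mem_cls_coe (a := ⟨a, ha'⟩) ha (self_mem_cls _) hx nc) ht)
  have m' : ∀ t : closure (sameCommutingClass D a ∪ T), (t : G) ∈ sameCommutingClass D a →
      t ∈ cls (⟨a, ha'⟩ : closure (_ ∪ T)) := fun t ht =>
    m t ht.1 (.inr fun e => nc (((Root.mem_scc.1 ht).2 x hx).2 e.symm))
  obtain ⟨b, hb, hab⟩ := h.line_scc ha
  exact ⟨ha', h.ot.lc_sub (b := ⟨b, subset_closure (.inl hb)⟩) ha
    (fun t ht => ht.elim (m' t) fun ht => m t (hT ht) (hn t ht)) (m' _ hb) (m' _ hab), m⟩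

theorem card_lt_of_cent (hO : pCore 2 G = ⊥) {z : G} (h1 : z * z = 1) (h2 : z ≠ 1) {T : Set G}
    (hT : ∀ t ∈ T, Commute z t) : Nat.card (closure T) < Nat.card G := by
  refine lt_of_le_of_ne (card_le_card_group _) fun e => h2 (eq_one_of_central hO (k := 1)
    (by rw [pow_one, pow_two, h1]) fun g => commute_of_closure hT ?_)
  rw [eq_top_of_card_eq _ e]; trivial

theorem card_quot_lt {N : Subgroup G} [N.Normal] (hN : N ≠ ⊥) : Nat.card (G ⧸ N) < Nat.card G := by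
  rw [card_eq_card_quotient_mul_card_subgroup N]
  exact lt_mul_of_one_lt_right Nat.card_pos (one_lt_card_iff_ne_bot N |>.2 hN)

theorem LC.exists_z (h : LC D) {a x g : G} (ha : a ∈ D) (hx : x ∈ D) (nc : ¬ Commute a x) (hg : g ∈ D)
    (c : Commute a g) (hn : g ∉ sameCommutingClass D a) :
    ∃ z, z * z = 1 ∧ z ≠ 1 ∧ ∀ t ∈ sameCommutingClass D a ∪ {x, g}, Commute z t := by
  obtain ⟨b, hb, hab⟩ := h.line_scc ha
  obtain ⟨z, h1, h2, h3, h4, h5, -⟩ := h.ot.exists_z (same_scc a) (self_mem_scc ha) hb hab hx nc hg c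
    fun s hs => ⟨fun e => hn (e ▸ hs), fun e => hn (scc_eq hs ▸ h.ot.col_mem_scc hs.1 hg
      ((h.ot.comm_of_mul_mem hg hs.1 e).eq ▸ e))⟩
  refine ⟨z, h1, h2, ?_⟩
  rintro t (ht | rfl | rfl)
  exacts [h3 t ht, h4, h5]

/-- the torus lemma in the ambient group -/
theorem BT.torus' (hD : OT D) {Y : Subgroup G} {a x : Y} (h : BT (cls a) a x) (ha : (a : G) ∈ D) {b : Y}
    (hb : b ∈ cls a) (hab : a * b ∈ cls a) {c : G} (hc : c ∈ D) (ca : Commute c a) (cb : Commute c b)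
    (cx : Commute c x) {y : Y} (hy : y ∈ cls a) (ay : Commute a y) :
    ∃ w ∈ cls a, πZ Y w = πZ Y x ∧ Commute (w * c * w) (y : G) := by
  have m : ∀ t : Y, t ∈ (centralizer {c}).comap Y.subtype ↔ Commute c t := fun t =>
    mem_centralizer_singleton_iff.trans ⟨fun e => e.symm, fun e => e.symm⟩
  obtain ⟨y', h1, h2, h3⟩ := h.torus (C := (centralizer {c}).comap Y.subtype) (fun t ht u hu n e =>
    (m t).2 (hD.comm_of_odd_prod hc (hD.cls_coe ha ht) (hD.cls_coe ha hu) (fun e => n (commute_coe.2 e))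
      ((m _).1 e))) hb hab ((m a).2 ca) ((m b).2 cb) ((m x).2 cx) hy ay
  obtain ⟨g, g1, g2, g3⟩ := h.ot.pair_conj πZ_surj refl_twoZ h1 hy h.hx (fun e => h.nc (h.trans hy h.ha h.hx
    ay.symm ((h.comm_iff hy h.hx).1 (h3 ▸ e.map _)))) h3
  refine ⟨_, g1, g2, ?_⟩
  generalize g * x * g⁻¹ = w at g1 g3
  have := commute_conj ((m _).1 h2) ((w : G) * x)
  rw [mul_inv_rev, hD.inv (hD.cls_coe ha g1), hD.inv (hD.cls_coe ha h.hx), mul_assoc _ _ c, ← cx.eq] at this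
  rw [g3]
  simpa [mul_assoc, hD.cancel (hD.cls_coe ha h.hx)] using this

theorem s5050_aux (n : ℕ) : ∀ (G : Type u) [Group G] [Finite G], Nat.card G = n → ∀ D : Set G, LC D →
    IsConnectedSet (CommAdj D) D → ∀ d ∈ D, ∀ x ∈ D, ∃ e ∈ D, Commute e d ∧ Commute e x := by
  induction n using Nat.strong_induction_on with
  | _ n ih =>
  intro G _ _ hn D h hc d hd x hx
  by_cases hO : pCore 2 G = ⊥
  swap
  · by_cases dx : Commute d x
    · exact ⟨d, hd, Commute.refl d, dx⟩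
    have hf : Refl D (QuotientGroup.mk' (pCore 2 G)) :=
      refl_of_two (by rw [QuotientGroup.ker_mk']; exact pCore_isPGroup' 2)
    obtain ⟨_, ⟨e, he, rfl⟩, h1, h2⟩ := ih _ (hn ▸ card_quot_lt hO) _ rfl _
      (h.map (QuotientGroup.mk'_surjective _) hf hd hx dx) (conn_map _ hc) _ ⟨d, hd, rfl⟩ _ ⟨x, hx, rfl⟩
    exact ⟨e, he, h.ot.comm_of_refl hf he hd h1, h.ot.comm_of_refl hf he hx h2⟩
  have := hc x hx d hd
  clear hd
  induction this with
  | refl => exact ⟨x, hx, Commute.refl x, Commute.refl x⟩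
  | @tail a d _ had ih' =>
  obtain ⟨ha, hd, -, ad⟩ := had
  obtain ⟨c, hc, ca, cx⟩ := ih'
  by_contra! hcon
  have ax : ¬ Commute a x := hcon a ha ad
  have dx : ¬ Commute d x := hcon d hd (Commute.refl d)
  obtain ⟨z, z1, z2, z3⟩ := h.exists_z ha hx ax hd ad fun e =>
    hcon c hc (((mem_scc.1 e).2 c hc).1 ca.symm).symm cx
  obtain ⟨ha', l, m⟩ := h.sub ha hx ax (T := {x, d}) (by rintro t (rfl | rfl); exacts [hx, hd]) (.inl rfl)
    (by rintro t (rfl | rfl); exacts [.inl ax, .inr fun e => dx e.symm])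
  let x' : closure (sameCommutingClass D a ∪ {x, d}) := ⟨x, subset_closure (by simp)⟩
  let d' : closure (sameCommutingClass D a ∪ {x, d}) := ⟨d, subset_closure (by simp)⟩
  have mx := m x' hx (.inl ax)
  have md := m d' hd (.inr fun e => dx e.symm)
  by_cases hc' : IsConnectedSet (CommAdj (cls (⟨a, ha'⟩ : closure (_ ∪ {x, d})))) (cls ⟨a, ha'⟩)
  · obtain ⟨e, he, h1, h2⟩ := ih _ (hn ▸ card_lt_of_cent hO z1 z2 z3) _ rfl _ l hc' d' md x' mx
    exact hcon e (h.ot.cls_coe ha he) (commute_coe.1 h1) (commute_coe.1 h2)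
  have bt := l.bt hc' (self_mem_cls _) mx fun e => ax (commute_coe.1 e)
  obtain ⟨b, hb, hab⟩ := h.line_scc ha
  have n : ∀ s ∈ sameCommutingClass D a, ¬ Commute x s := fun s hs e => ax (((mem_scc.1 hs).2 x hx).2 e.symm)
  obtain ⟨w, w1, w2, w3⟩ := bt.torus' h.ot ha (b := ⟨b, subset_closure (.inl hb)⟩) (m _ hb.1 (.inr (n b hb)))
    (m _ hab.1 (.inr (n _ hab))) hc ca (((mem_scc.1 hb).2 c hc).1 ca.symm).symm cx md (commute_coe.2 ad)
  have wD := h.ot.cls_coe ha w1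
  have wx : Commute (w : G) x := commute_coe.1 ((bt.comm_iff w1 mx).1 (w2 ▸ Commute.refl _))
  exact hcon _ (h.ot.conj' hc wD) w3 ((wx.mul_left cx).mul_left wx)

theorem LC.exists_comm (h : LC D) (hc : IsConnectedSet (CommAdj D) D) {d x : G} (hd : d ∈ D) (hx : x ∈ D) :
    ∃ e ∈ D, Commute e d ∧ Commute e x := s5050_aux _ G rfl D h hc d hd x hx

omit [Finite G] in
theorem LC.of (hD : IsOddTranspositionSet D) (hcl : IsRootInvolutionClass D)
    (hDD : (D ∩ commutingProducts D).Nonempty) : LC D := by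
  obtain ⟨c, hcD, a, ha, b, hb, -, -, rfl⟩ := hDD
  exact ⟨OT.of hD, hcl.2.2, hD.1.generates, a, ha, b, hb, hcD⟩

end Cfsg.Agent.Lib.Root
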