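import Cfsg.Agent.Lib.Root.OT8

set_option autoImplicit false
set_option linter.unusedSectionVars false

/-! # Odd transpositions: `E_d ∪ {1}` is a group -/

namespace Cfsg.Agent.Lib.Root

open Cfsg Cfsg.Agent.Lib.Invol Subgroup

variable {G : Type*} [Group G] [Finite G] {D : Set G}

namespace LC

variable (h : LC D)
include h

theorem mem_scc_of_mem {a x y : G} (ha : a ∈ D) (hx : x ∈ D) (nc : ¬ Commute a x) (hy : y ∈ D)
    (hm : y ∈ closure (sameCommutingClass D a ∪ {x})) (c : Commute a y) : y ∈ sameCommutingClass D a := by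
  obtain ⟨b, hb, hab⟩ := h.line_scc ha
  exact h.mem_scc ha hy fun g hg ag => (h.ot.comm_of_mem (same_scc a) (self_mem_scc ha) hb hab hx nc hg ag hy c
    (closure_mono (Set.union_subset_union_right _ (by simp)) hm)).symm

theorem bt_pair {a x : G} (ha : a ∈ D) (hx : x ∈ D) (nc : ¬ Commute a x) :
    ∃ (ha' : a ∈ closure (sameCommutingClass D a ∪ {x})) (hx' : x ∈ closure (sameCommutingClass D a ∪ {x})),
      BT (cls (⟨a, ha'⟩ : closure (_ ∪ {x}))) ⟨a, ha'⟩ ⟨x, hx'⟩ ∧
      (∀ t : closure (sameCommutingClass D a ∪ {x}),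
        t ∈ sameCommutingClass (cls (⟨a, ha'⟩ : closure (_ ∪ {x}))) ⟨a, ha'⟩ ↔ (t : G) ∈ sameCommutingClass D a) ∧
      closure (sameCommutingClass (cls (⟨a, ha'⟩ : closure (_ ∪ {x}))) ⟨a, ha'⟩ ∪ {⟨x, hx'⟩}) = ⊤ := by
  obtain ⟨ha', l, m⟩ := h.sub ha hx nc (T := {x}) (by rintro t rfl; exact hx) rfl (by rintro t rfl; exact .inl nc)
  have hx' : x ∈ closure (sameCommutingClass D a ∪ {x}) := subset_closure (.inr rfl)
  have k1 : ∀ t : closure (sameCommutingClass D a ∪ {x}), (t : G) ∈ sameCommutingClass D a →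
      t ∈ sameCommutingClass (cls (⟨a, ha'⟩ : closure (_ ∪ {x}))) ⟨a, ha'⟩ := fun t ht =>
    Root.mem_scc.2 ⟨m t ht.1 (.inr fun e => nc (((Root.mem_scc.1 ht).2 x hx).2 e.symm)), fun c hc => by
      rw [commute_coe, commute_coe]; exact (Root.mem_scc.1 ht).2 c (h.ot.cls_coe ha hc)⟩
  have k2 : ∀ t ∈ cls (⟨a, ha'⟩ : closure (_ ∪ {x})), Commute ⟨a, ha'⟩ t → (t : G) ∈ sameCommutingClass D a :=
    fun t ht c => h.mem_scc_of_mem ha hx nc (h.ot.cls_coe ha ht) t.2 (commute_coe.1 c)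
  refine ⟨ha', hx', ⟨l.ot, l.cl, self_mem_cls _, m _ hx (.inl nc), fun e => nc (commute_coe.1 e), l.gen,
    l.line' (self_mem_cls _), fun g hg c => k1 g (k2 g hg c)⟩, fun t => ⟨fun ht => k2 t ht.1
      ((same_scc _).comm' (self_mem_scc (self_mem_cls _)) ht), k1 t⟩, ?_⟩
  refine eq_top_iff.2 ((closure_preimage_eq_top _).ge.trans (closure_mono ?_))
  rintro t (ht | ht)
  exacts [.inl (k1 t ht), .inr (Subtype.ext ht)]

theorem closure_conj {a n : G} (hn : n ∈ closure (sameCommutingClass D a)) (g : G) :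
    g * n * g⁻¹ ∈ closure (sameCommutingClass D (g * a * g⁻¹)) :=
  (closure_le ((closure (sameCommutingClass D (g * a * g⁻¹))).comap (MulAut.conj g).toMonoidHom)).2
    (fun _ hs => subset_closure (h.ot.scc_conj hs g)) hn

theorem closure_le_pair {a x : G} (ha : a ∈ D) (hx : x ∈ D) (nc : ¬ Commute a x) :
    closure (sameCommutingClass D x) ≤ closure (sameCommutingClass D a ∪ {x}) := fun n hn => by
  obtain ⟨k, hk⟩ := h.ot.exists_conj hx ha fun e => nc e.symm
  have m : (x * a) ^ k ∈ closure (sameCommutingClass D a ∪ {x}) :=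
    pow_mem (mul_mem (subset_closure (.inr rfl)) (subset_closure (.inl (self_mem_scc ha)))) k
  have := closure_mono (Set.subset_union_left (t := {x})) (hk ▸ h.closure_conj hn ((x * a) ^ k))
  simpa [mul_assoc] using mul_mem (mul_mem (inv_mem m) this) m

theorem comm_closure {a n c : G} (hn : n ∈ closure (sameCommutingClass D a)) (hc : c ∈ D) (e : Commute a c) :
    Commute c n :=
  commute_of_closure (fun t ht => (((Root.mem_scc.1 ht).2 c hc).1 e).symm) hn

theorem mem_scc_of_cent {a n w g : G} (ha : a ∈ D) (hn : n ∈ closure (sameCommutingClass D a)) (hw : w ∈ D)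
    (nc : ¬ Commute w (n * w * n⁻¹)) (hg : g ∈ zpowers (w * n)) (c : Commute n (g * w * g⁻¹)) :
    g * w * g⁻¹ ∈ sameCommutingClass D a := by
  have aw : ¬ Commute a w := fun e => nc (by rw [conj_eq_of_commute (h.comm_closure hn hw e).symm])
  obtain ⟨ha', hw', bt, k, -⟩ := h.bt_pair ha hw aw
  have n' := closure_mono (Set.subset_union_left (t := {w})) hn
  have g' := zpowers_le_of_mem (mul_mem hw' n') hg
  have m := cls_conj bt.hx ⟨g, g'⟩
  refine (k _).1 (bt.eqv _ m (bt.comm_of_mem (n := ⟨n, n'⟩) ?_ (fun e => nc (commute_coe.1 e)) m (commute_coe.2 c)))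
  have : closure (sameCommutingClass D a) ≤ (closure (sameCommutingClass (cls (⟨a, ha'⟩ : closure (_ ∪ {w})))
      ⟨a, ha'⟩)).map (Subgroup.subtype _) := (closure_le _).2 fun t ht =>
    ⟨⟨t, subset_closure (.inl ht)⟩, subset_closure ((k _).2 ht), rfl⟩
  obtain ⟨t, ht, e⟩ := this hn
  exact (Subtype.ext e : t = ⟨n, n'⟩) ▸ ht

theorem exists_nc (hZ : center G = ⊥) {a : G} (ha : a ∈ D) : ∃ x ∈ D, ¬ Commute a x := by
  by_contra! e
  exact h.ot.ne_one ha (mem_bot.1 (hZ ▸ mem_center_iff.2 fun g =>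
    (commute_of_closure e (h.gen ▸ mem_top g)).symm.eq))

theorem odd_conn {a x : G} (ha : a ∈ D) (hx : x ∈ D) (nc : ¬ Commute a x) : IsConnectedSet (OddAdj D) D :=
  odd_connected_of_class (h.ot.ris h.gen) h.cl ⟨a, ha, x, hx, fun e => nc (e ▸ Commute.refl a), h.ot.odd a ha x hx nc⟩

omit h in
theorem twoZ_le (hO : pCore 2 G = ⊥) : twoZCore G ≤ center G := fun g hg => mem_center_iff.2 fun y => by
  have := comm_mem_pCore hg y
  rw [hO, mem_bot] at this
  rw [← one_mul (g * y), ← this]; group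

variable (hO : pCore 2 G = ⊥) (hZ : center G = ⊥)
include hO hZ

theorem exists_moved {a n : G} (ha : a ∈ D) (hn : n ∈ closure (sameCommutingClass D a)) (h1 : n ≠ 1) :
    ∃ w ∈ D, ¬ Commute w (n * w * n⁻¹) := by
  by_contra! e
  let N : Subgroup G :=
    { carrier := {g | ∀ w ∈ D, g * w * g⁻¹ ∈ sameCommutingClass D w}
      one_mem' := fun w hw => by simpa using self_mem_scc hw
      mul_mem' := fun {g k} hg hk w hw => by
        have := hg _ (hk w hw).1
        rw [scc_eq (hk w hw)] at this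
        simpa [mul_assoc] using this
      inv_mem' := fun {g} hg w hw => by
        have := hg _ (h.ot.conj w hw g⁻¹)
        rw [show g * (g⁻¹ * w * g⁻¹⁻¹) * g⁻¹ = w by group] at this
        exact scc_eq this ▸ self_mem_scc (h.ot.conj w hw g⁻¹) }
  obtain ⟨x, hx, nc⟩ := h.exists_nc hZ ha
  obtain ⟨b, hb, hab⟩ := h.line' ha
  rcases S5048.normal_case (h.ot.ris h.gen) (h.odd_conn ha hx nc) ⟨ha, hb, h.ot.comm_of_mul_mem ha hb hab, hab⟩
    N ⟨fun k hk g w hw => by simpa [mul_assoc] using h.ot.scc_conj (hk _ (h.ot.conj w hw g⁻¹)) g⟩ with e1 | e1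
  · have := (same_scc x).comm' (self_mem_scc hx) ((e1.ge (mem_top a)) x hx)
    rw [h.ot.inv ha] at this
    exact nc (h.ot.comm_of_conj hx ha (fun c => nc c.symm) (Commute.refl x) this).symm
  · refine h1 (mem_bot.1 (hZ ▸ twoZ_le hO (e1 fun w hw => ?_)))
    by_cases c : Commute a w
    · rw [conj_eq_of_commute (h.comm_closure hn hw c).symm]; exact self_mem_scc hw
    · have m := h.closure_le_pair hw ha (fun e => c e.symm) hn
      exact h.mem_scc_of_mem hw ha (fun e => c e.symm) (h.ot.conj w hw n)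
        (mul_mem (mul_mem m (subset_closure (.inl (self_mem_scc hw)))) (inv_mem m)) (e w hw)

theorem exists_f {a n : G} (ha : a ∈ D) (hn : n ∈ closure (sameCommutingClass D a)) (h1 : n ≠ 1) (hD : n ∉ D) :
    ∃ w ∈ D, ¬ Commute a w ∧ ∃ f, Commute (n * f) w ∧ n * f ≠ 1 ∧
      ∀ b ∈ D, n ∈ closure (sameCommutingClass D b) → f ∈ sameCommutingClass D b := by
  obtain ⟨w, hw, nc⟩ := h.exists_moved hO hZ ha hn h1
  have n2 := sq_of_mem_closure (fun _ ht => h.ot.sq ht.1) (fun _ hs _ ht => (same_scc a).comm' hs ht) hn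
  obtain ⟨f, -, c1, c2, c3, -, -, g, hg, rfl⟩ := h.ot.exists_cent n2 hD hw
    (by rwa [inv_eq_of_mul_eq_one_right n2] at nc)
  exact ⟨w, hw, fun e => nc (by rw [conj_eq_of_commute (h.comm_closure hn hw e).symm]), _, c2, c3,
    fun b hb m => h.mem_scc_of_cent hb m hw nc hg c1⟩

theorem eq_one_of_comm {a n y : G} (ha : a ∈ D) (hn : n ∈ closure (sameCommutingClass D a)) (hy : y ∈ D)
    (nc : ¬ Commute a y) (c : Commute n y) : n = 1 := by
  by_contra h1
  obtain ⟨w, -, -, f, -, -, k⟩ := h.exists_f hO hZ ha hn h1 fun hD => nc (((Root.mem_scc.1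
    (h.mem_scc ha hD fun g hg e => (h.comm_closure hn hg e).symm)).2 y hy).2 c)
  obtain ⟨j, hj⟩ := h.ot.exists_conj ha hy nc
  have := h.closure_conj hn ((a * y) ^ j)
  rw [hj, conj_eq_of_commute (((h.comm_closure hn ha (Commute.refl a)).mul_left c.symm).pow_left j)] at this
  exact nc ((same_scc f).comm' (scc_eq (k a ha hn) ▸ self_mem_scc ha) (scc_eq (k y hy this) ▸ self_mem_scc hy))

theorem mem_closure_scc {a n : G} (ha : a ∈ D) (hn : n ∈ closure (sameCommutingClass D a)) :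
    n ∈ sameCommutingClass D a ∨ n = 1 := by
  refine or_iff_not_imp_right.2 fun h1 => h.mem_scc ha (by_contra fun hD => ?_)
    fun g hg e => (h.comm_closure hn hg e).symm
  obtain ⟨w, hw, nc, f, c1, c2, k⟩ := h.exists_f hO hZ ha hn h1 hD
  exact c2 (h.eq_one_of_comm hO hZ ha (mul_mem hn (subset_closure (k a ha hn))) hw nc c1)

end LC

end Cfsg.Agent.Lib.Root
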