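import Cfsg.Agent.Lib.Root.Inv4
import Cfsg.Agent.Lib.Root.Inv5
import Cfsg.Agent.Lib.Root.OT2

set_option autoImplicit false
set_option linter.unusedSectionVars false

/-! # Non-degenerate root involutions: the basic calculus -/

namespace Cfsg.Agent.Lib.Root

open Cfsg Cfsg.Agent.Lib.Invol Subgroup
open scoped commutatorElement

variable {G : Type*} [Group G] [Finite G] {D : Set G}

/-- product of order four -/
abbrev Sp (a b : G) : Prop := orderOf (a * b) = 4

/-- same odd partners -/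
def Sm (D : Set G) (a b : G) : Prop := a ∈ D ∧ b ∈ D ∧ ASet D a = ASet D b

/-- the group `E(a)` -/
def EG (D : Set G) (a : G) : Subgroup G := closure {b | Sm D a b}

/-- the group `N_a` -/
def NG (D : Set G) (a : G) : Subgroup G := closure (WSet D a)

/-- a non-degenerate class -/
structure ND (D : Set G) : Prop where
  ris : IsRootInvolutionSet D
  oc : IsConnectedSet (OddAdj D) D
  pc : IsConnectedSet (ProdAdj D) D
  four : ∀ a ∈ D, ∃ c ∈ D, Sp a c
  zen : center G = ⊥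

section
omit [Finite G]

theorem sm_refl {a : G} (ha : a ∈ D) : Sm D a a := ⟨ha, ha, rfl⟩
theorem Sm.symm {a b : G} (s : Sm D a b) : Sm D b a := ⟨s.2.1, s.1, s.2.2.symm⟩
theorem Sm.trans {a b c : G} (s : Sm D a b) (t : Sm D b c) : Sm D a c := ⟨s.1, t.2.1, s.2.2.trans t.2.2⟩
theorem Sm.oa {a b c : G} (s : Sm D a b) (hc : c ∈ D) (e : OA a c) : OA b c :=
  (s.2.2.le ⟨hc, e⟩).2
theorem Sm.mem_EG {a b : G} (s : Sm D a b) : b ∈ EG D a := subset_closure s
theorem Sm.EG_eq {a b : G} (s : Sm D a b) : EG D a = EG D b := by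
  unfold EG; congr 1; ext c; exact ⟨s.symm.trans, s.trans⟩
theorem self_mem_EG {a : G} (ha : a ∈ D) : a ∈ EG D a := (sm_refl ha).mem_EG
theorem mem_NG {a w : G} (hw : w ∈ WSet D a) : w ∈ NG D a := subset_closure hw
theorem Sp.symm {a b : G} (e : Sp a b) : Sp b a := four_symm e
theorem Sp.not_oa {a b : G} (e : Sp a b) : ¬ OA a b := not_oa_of_four e
theorem Sp.conj {a b : G} (e : Sp a b) (g : G) : Sp (g * a * g⁻¹) (g * b * g⁻¹) := four_conj e g

theorem cm_eq_one {a b : G} (ha : a * a = 1) (hb : b * b = 1) : cm a b = 1 ↔ Commute a b := by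
  have : cm a b = ⁅a, b⁆ := by
    rw [commutatorElement_def, inv_eq_of_mul_eq_one_right ha, inv_eq_of_mul_eq_one_right hb]; rfl
  rw [this, commutatorElement_eq_one_iff_commute]

theorem cm_comm {a b : G} (ha : a * a = 1) (hb : b * b = 1) (h : cm a b * cm a b = 1) : cm b a = cm a b := by
  rw [← inv_eq_of_mul_eq_one_right h]
  simp [cm, inv_eq_of_mul_eq_one_right ha, inv_eq_of_mul_eq_one_right hb, mul_assoc]

theorem conj_eq_cm {a : G} (ha : a * a = 1) (b : G) : b * a * b = a * cm a b := by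
  simp [cm, ← mul_assoc, ha]

theorem cm_mul {p q x : G} (hx : x * x = 1) (hc : Commute p q) (h : Commute p (cm q x)) :
    cm (p * q) x = cm q x * cm p x := by
  calc cm (p * q) x = p * (q * x * q * x) * (x * p * x) := by
        simp only [cm, mul_assoc]
        rw [← mul_assoc x x, hx, one_mul, ← mul_assoc q p, ← hc.eq, mul_assoc]
    _ = _ := by rw [show q * x * q * x = cm q x from rfl, h.eq]; simp [cm, mul_assoc]

theorem cm_one (x : G) (hx : x * x = 1) : cm 1 x = 1 := by simp [cm, hx]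

theorem cj_of_comm {a g : G} (hg : g * g = 1) (e : Commute g a) : g * a * g = a := by
  rw [e.eq, mul_assoc, hg, mul_one]

theorem cj_mul {g : G} (hg : g * g = 1) (x y : G) : g * (x * y) * g = (g * x * g) * (g * y * g) := by
  simp [mul_assoc, ← mul_assoc g g, hg]

theorem cj_cj {g : G} (hg : g * g = 1) (x : G) : g * (g * x * g) * g = x := by
  simp [mul_assoc, ← mul_assoc g g, hg]

theorem comm_cj {a b g : G} (hg : g * g = 1) (e : Commute a b) : Commute (g * a * g) (g * b * g) := by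
  simpa [inv_eq_of_mul_eq_one_right hg] using commute_conj e g

theorem closure_cj {S T : Set G} {g n : G} (e : ∀ s ∈ S, g * s * g⁻¹ ∈ T) (hn : n ∈ closure S) :
    g * n * g⁻¹ ∈ closure T := by
  induction hn using closure_induction with
  | mem w hw => exact subset_closure (e w hw)
  | one => simp
  | mul a b _ _ ha hb => simpa [mul_assoc] using mul_mem ha hb
  | inv a _ ha => simpa [mul_assoc] using inv_mem ha

end

namespace ND

variable (h : ND D)
include h

theorem sq {a : G} (ha : a ∈ D) : a * a = 1 := ri_sq h.ris ha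
theorem inv {a : G} (ha : a ∈ D) : a⁻¹ = a := ri_inv h.ris ha
theorem cancel {a : G} (ha : a ∈ D) (x : G) : a * (a * x) = x := ri_cancel h.ris ha x
theorem ne_one {a : G} (ha : a ∈ D) : a ≠ 1 := ri_ne_one h.ris ha
theorem cj {a : G} (ha : a ∈ D) (g : G) : g * a * g⁻¹ ∈ D := h.ris.conj_mem a ha g
theorem cj' {a g : G} (ha : a ∈ D) (hg : g * g = 1) : g * a * g ∈ D := by
  simpa [inv_eq_of_mul_eq_one_right hg] using h.cj ha g
theorem not_oa {a b : G} (ha : a ∈ D) (hb : b ∈ D) (e : Commute a b) : ¬ OA a b := ri_not_oa_of_comm h.ris ha hb e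
theorem not_sp {a b : G} (ha : a ∈ D) (hb : b ∈ D) (e : Commute a b) : ¬ Sp a b := ri_not_four_of_comm h.ris ha hb e
theorem sp_of {a b : G} (ha : a ∈ D) (hb : b ∈ D) (h1 : ¬ Commute a b) (h2 : ¬ OA a b) : Sp a b :=
  ri_four_of h.ris ha hb h1 h2
theorem cm_mem {a b : G} (ha : a ∈ D) (hb : b ∈ D) (e : Sp a b) : cm a b ∈ D := Root.cm_mem h.ris ha hb e
theorem cm_swap {a b : G} (ha : a ∈ D) (hb : b ∈ D) (e : Sp a b) : cm b a = cm a b := Root.cm_swap h.ris ha hb e
theorem col {a b : G} (ha : a ∈ D) (hb : b ∈ D) (e : Sp a b) : Col D a (cm a b) := col_cm h.ris ha hb e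
theorem col' {a b : G} (ha : a ∈ D) (hb : b ∈ D) (e : Sp a b) : Col D b (cm a b) := col_cm' h.ris ha hb e
theorem colW {a b : G} (l : Col D a b) : b ∈ WSet D a := l.mem_wset h.ris
theorem selfW {a : G} (ha : a ∈ D) : a ∈ WSet D a := self_mem_wset h.ris ha
theorem W1 {a b : G} (ha : a ∈ D) (hb : b ∈ D) (e : Sp a b) : a ∈ WSet D (cm a b) := h.colW (h.col ha hb e).symm
theorem W2 {a b : G} (ha : a ∈ D) (hb : b ∈ D) (e : Sp a b) : b ∈ WSet D (cm a b) := h.colW (h.col' ha hb e).symm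

theorem exists_cj {a b : G} (ha : a ∈ D) (hb : b ∈ D) : ∃ g : G, b = g * a * g⁻¹ := conj_of_reach h.ris (h.oc a ha b hb)

theorem sm_comm {a b c : G} (s : Sm D a b) (hc : c ∈ D) (e : Commute c a) : Commute c b :=
  csub_of_aset_eq h.ris h.oc s.1 s.2.1 s.2.2 hc e

theorem sm_sp {a b c : G} (s : Sm D a b) (hc : c ∈ D) (e : Sp a c) : Sp b c :=
  h.sp_of s.2.1 hc (fun e1 => h.not_sp s.1 hc (h.sm_comm s.symm hc e1.symm).symm e)
    fun e1 => e.not_oa (s.symm.oa hc e1)

theorem sm_cj {a b : G} (s : Sm D a b) (g : G) : Sm D (g * a * g⁻¹) (g * b * g⁻¹) :=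
  ⟨h.cj s.1 g, h.cj s.2.1 g, aset_conj_congr h.ris s.2.2 g⟩

theorem sm_cj' {a b g : G} (s : Sm D a b) (hg : g * g = 1) : Sm D (g * a * g) (g * b * g) := by
  simpa [inv_eq_of_mul_eq_one_right hg] using h.sm_cj s g

theorem sm_of_comm {a b : G} (ha : a ∈ D) (hb : b ∈ D) (e : ∀ c ∈ D, Commute c a → Commute c b) : Sm D a b :=
  ⟨ha, hb, (aset_eq_of_subset h.ris h.oc hb ha (aset_subset_of_csub h.ris ha hb e)).symm⟩

theorem W_eq {a b : G} (s : Sm D a b) : WSet D a = WSet D b := wset_congr h.ris h.oc s.1 s.2.1 s.2.2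

theorem NG_eq {a b : G} (s : Sm D a b) : NG D a = NG D b := by unfold NG; rw [h.W_eq s]

theorem W_sm {d w e : G} (hd : d ∈ D) (hw : w ∈ WSet D d) (s : Sm D w e) : e ∈ WSet D d :=
  mem_wset_of_same h.ris h.oc hd hw s.2.1 s.2.2.symm

theorem comm_EG {a n c : G} (hn : n ∈ EG D a) (hc : c ∈ D) (e : Commute c a) : Commute c n :=
  commute_of_closure (fun _ s => h.sm_comm s hc e) hn

theorem comm_EG2 {a b n m : G} (ha : a ∈ D) (hb : b ∈ D) (e : Commute a b) (hn : n ∈ EG D a) (hm : m ∈ EG D b) :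
    Commute n m :=
  (commute_of_closure (fun _ s => (h.comm_EG hm s.2.1 (h.sm_comm s hb e.symm).symm).symm) hn).symm

theorem sq_EG {a n : G} (hn : n ∈ EG D a) : n * n = 1 :=
  sq_of_mem_closure (fun _ s => h.sq s.2.1) (fun _ s _ t => h.sm_comm (s.symm.trans t) s.2.1 (Commute.refl _)) hn

theorem sm_of_EG {a n : G} (ha : a ∈ D) (hn : n ∈ EG D a) (nD : n ∈ D) : Sm D a n :=
  h.sm_of_comm ha nD fun _ hc e => h.comm_EG hn hc e

theorem EG_cj {a b n g : G} (s : Sm D (g * a * g⁻¹) b) (hn : n ∈ EG D a) : g * n * g⁻¹ ∈ EG D b :=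
  closure_cj (fun _ t => s.symm.trans (h.sm_cj t g)) hn

theorem EG_cj' {a b n g : G} (hg : g * g = 1) (s : Sm D (g * a * g) b) (hn : n ∈ EG D a) : g * n * g ∈ EG D b := by
  rw [← inv_eq_of_mul_eq_one_right hg] at s
  simpa [inv_eq_of_mul_eq_one_right hg] using h.EG_cj (g := g) (by simpa [inv_eq_of_mul_eq_one_right hg] using s) hn

theorem W_cj {a b w g : G} (s : Sm D (g * a * g⁻¹) b) (hw : w ∈ WSet D a) : g * w * g⁻¹ ∈ WSet D b :=
  h.W_eq s ▸ wset_conj h.ris hw g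

theorem NG_cj {a b n g : G} (s : Sm D (g * a * g⁻¹) b) (hn : n ∈ NG D a) : g * n * g⁻¹ ∈ NG D b :=
  closure_cj (fun _ t => h.W_cj s t) hn

theorem W_of_NG {a n : G} (hn : n ∈ NG D a) (nD : n ∈ D) : n ∈ WSet D a := mem_wset_of_closure h.ris nD hn

theorem not_oa_W {d a b : G} (ha : a ∈ WSet D d) (hb : b ∈ WSet D d) : ¬ OA a b := ha.2.2 b hb.1 hb.2.1

theorem sp_W {d a b : G} (ha : a ∈ WSet D d) (hb : b ∈ WSet D d) (e : ¬ Commute a b) : Sp a b :=
  four_of_wset h.ris ha hb e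

theorem not_sm_of_sp {a b c : G} (hc : c ∈ D) (e : Commute c a) (e' : Sp b c) : ¬ Sm D a b :=
  fun s => h.not_sp s.2.1 hc (h.sm_comm s hc e).symm e'

theorem comm_of_norm {a d : G} (hd : d ∈ D) (s : Sm D a (d * a * d)) : Commute d a := by
  have ha := s.1
  rcases ri_tri h.ris ha hd with e | e | e
  · exact e.symm
  · have c := h.sm_comm s ha (Commute.refl a)
    refine (e.1 (ri_eq_of_mul h.ris ha (eq_one_of_odd_pow e.2 2 ?_))).elim
    calc (a * d) ^ 2 ^ 2 = a * (d * a * d) * (a * (d * a * d)) := by simp [pow_succ, mul_assoc]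
      _ = 1 := by rw [← pow_two, c.mul_pow, pow_two, pow_two, h.sq ha, h.sq s.2.1, one_mul]
  · exact h.sm_comm ⟨h.cm_mem ha hd e, ha, aset_cm h.ris h.oc ha hd e s.2.2.symm⟩ hd (h.col' ha hd e).comm

theorem eq_one_of {u y z : G} (hu : u ∈ D) (hy : y ∈ D) (e : OA u y) (h1 : ∀ c, Col D u c → Commute z c)
    (h2 : Commute z y) : z = 1 := by
  obtain ⟨c, hc, e4⟩ := h.four u hu
  have := closure_eq_top_of_pr h.ris h.oc h.pc (h.col hu hc e4) hy e (U := centralizer {z})
    (fun c l => mem_centralizer_singleton_iff.2 (h1 c l).symm) (mem_centralizer_singleton_iff.2 h2.symm)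
  exact mem_bot.1 (h.zen ▸ mem_center_iff.2 fun g => mem_centralizer_singleton_iff.1 (this ▸ mem_top g))

theorem eq_one_EG {u y z : G} (hu : u ∈ D) (hy : y ∈ D) (e : OA u y) (h1 : z ∈ EG D u) (h2 : Commute z y) : z = 1 :=
  h.eq_one_of hu hy e (fun _ l => (h.comm_EG h1 l.right l.comm.symm).symm) h2

theorem exists_f {d c : G} (hd : d ∈ D) (hc : c ∈ WSet D d) (hn : ¬ Sm D d c) : ∃ f, Col D d f ∧ Sp c f :=
  exists_four_of_wset h.ris h.oc hd hc fun e => hn ⟨hd, hc.1, e.symm⟩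

theorem exists_J {a b : G} (l : Col D a b) (hn : ¬ Sm D a b) : ∃ c ∈ D, Sp a c ∧ cm a c = b :=
  Root.exists_J h.ris h.oc l fun e => hn ⟨l.left, l.right, e⟩

theorem nice_col {d b : G} (l : Col D d b) (hne : ASet D b ≠ ASet D d) : Nice D b d := by
  have hD := h.ris
  have hc := h.oc
  have hd := l.left
  set N := Subgroup.closure (WSet D d) with hN
  let B : Subgroup G := Subgroup.closure {x | ∃ n ∈ N, x = n * b * n⁻¹}
  have hB : ∀ x ∈ B, ∀ g ∈ N, g * x * g⁻¹ ∈ B := fun x hx g hg => closure_cj (by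
    rintro _ ⟨m, hm, rfl⟩
    exact ⟨g * m, mul_mem hg hm, by group⟩) hx
  have hex : ∃ c ∈ B, Nice D c d := by
    by_contra hcon
    push Not at hcon
    have key : ∀ k, ∃ a ∈ WSet D d, ASet D a ≠ ASet D d ∧ a ∈ B ∧ a ∈ N.lowerCentralSeries k := by
      intro k
      induction k with
      | zero =>
        exact ⟨b, l.mem_wset hD, hne, Subgroup.subset_closure ⟨1, one_mem _, by simp⟩,
          Subgroup.subset_closure (l.mem_wset hD)⟩
      | succ k ih =>
        obtain ⟨a, ha, h1, h2, h3⟩ := ih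
        have := hcon a h2
        unfold Nice at this
        push Not at this
        obtain ⟨w, hw, h4, h5⟩ := this ha h1
        have hwN : w ∈ N := Subgroup.subset_closure hw
        have e1 : cm a w = ⁅a, w⁆ := by
          rw [commutatorElement_def, ri_inv hD ha.1, ri_inv hD hw.1]; rfl
        refine ⟨cm a w, mem_wset_of_closure hD (Root.cm_mem hD ha.1 hw.1 (four_of_wset hD ha hw h4)) ?_,
          h5, ?_, ?_⟩
        · have haN : a ∈ N := Subgroup.subset_closure ha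
          exact mul_mem (mul_mem (mul_mem haN hwN) haN) hwN
        · have := mul_mem h2 (hB a h2 w hwN)
          rw [ri_inv hD hw.1] at this
          simpa [cm, mul_assoc] using this
        · rw [e1]; exact Subgroup.commutator_mem_commutator h3 hwN
    obtain ⟨k, hk⟩ := (Subgroup.isNilpotent_iff_lowerCentralSeries _).mp (wset_pgroup hD d).isNilpotent
    obtain ⟨a, ha, -, -, ha'⟩ := key k
    rw [hk, Subgroup.mem_bot] at ha'
    exact ri_ne_one hD ha.1 ha'
  obtain ⟨c, hcB, n⟩ := hex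
  obtain ⟨f, lf, h4⟩ := exists_four_of_wset hD hc hd n.1 n.2.1
  have hm : ∃ m ∈ N, ¬ Commute (m * b * m⁻¹) f := by
    by_contra hcon
    push Not at hcon
    refine h.not_sp n.1.1 lf.right (commute_of_closure ?_ hcB).symm h4
    rintro _ ⟨m, hm, rfl⟩
    exact (hcon m hm).symm
  obtain ⟨m, hm, hmb⟩ := hm
  have hmd : m⁻¹ * d * m⁻¹⁻¹ = d := by
    rw [(commute_of_mem_wclosure (inv_mem hm)).eq]; group
  have n' := n.conj hD m⁻¹
  have h4' := four_conj h4 m⁻¹
  have lf' := lf.conj hD m⁻¹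
  have hbf : ¬ Commute b (m⁻¹ * f * m⁻¹⁻¹) := fun h => hmb (by
    have := commute_conj h m
    simpa [mul_assoc] using this)
  rw [hmd] at n' lf'
  generalize m⁻¹ * c * m⁻¹⁻¹ = c' at n' h4'
  generalize m⁻¹ * f * m⁻¹⁻¹ = f' at h4' lf' hbf
  have hc' := n'.1.1
  have hf' := lf'.right
  have s : Sm D (cm f' c') d := ⟨h.cm_mem hf' hc' (four_symm h4'), hd, by
    rw [h.cm_swap hc' hf' h4']
    exact (n'.2.2 _ (h.colW lf')).resolve_left fun e => h.not_sp hc' hf' e h4'⟩
  obtain ⟨y, hy, hdy, hy'⟩ := h.exists_J lf' (h.not_sm_of_sp hc' n'.1.2.1 (four_symm h4'))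
  have ly : Col D f' y := (hy' ▸ h.col' hd hy hdy).symm
  have n2 := nice_of_oa hD hc hc' (four_symm h4') (n'.congr hD hc hd s.1 s.2.2.symm) ly
    (oa_of_chain hD hc hc' (four_symm h4') ly (h.sm_sp s.symm hy hdy).symm)
  have hb4 := four_of_wset hD (l.mem_wset hD) (h.colW lf') hbf
  exact nice_of_oa hD hc hy hdy (hy' ▸ n2) l (oa_of_chain hD hc hy hdy l (hy' ▸ hb4))

theorem exists_col {d u : G} (hd : d ∈ D) (hu : u ∈ WSet D d) (hn : ¬ Sm D d u) : ∃ e, Sm D d e ∧ Col D e u := by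
  obtain ⟨f, lf, h4⟩ := h.exists_f hd hu hn
  have n := h.nice_col lf fun e => h.not_sm_of_sp hu.1 hu.2.1 h4.symm ⟨hd, lf.right, e.symm⟩
  have h1 := (n.2.2 u hu).resolve_left fun h1 => h.not_sp hu.1 lf.right h1.symm h4
  have l1 := h.col' lf.right hu.1 h4.symm
  exact ⟨_, ⟨hd, l1.right, h1.symm⟩, l1.symm⟩

theorem nice {d c w : G} (hd : d ∈ D) (hc : c ∈ WSet D d) (hw : w ∈ WSet D d) (e : Sp c w) : Sm D d (cm c w) := by
  have hn := h.not_sm_of_sp hw.1 hw.2.1 e
  obtain ⟨f, s, l⟩ := h.exists_col hd hc hn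
  have n := h.nice_col l fun e => hn (s.trans ⟨l.left, l.right, e.symm⟩)
  exact s.trans ⟨s.2.1, h.cm_mem hc.1 hw.1 e,
    ((n.2.2 w (h.W_eq s ▸ hw)).resolve_left fun e1 => h.not_sp hc.1 hw.1 e1 e).symm⟩

theorem W_symm {d u : G} (hd : d ∈ D) (hu : u ∈ WSet D d) : d ∈ WSet D u := by
  by_cases s : Sm D d u
  · exact h.W_eq s ▸ h.selfW hd
  · obtain ⟨e, s, l⟩ := h.exists_col hd hu s
    exact h.W_sm hu.1 (h.colW l.symm) s.symm

theorem EG_le {d : G} (hd : d ∈ D) : EG D d ≤ NG D d :=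
  closure_mono fun _ s => h.W_sm hd (h.selfW hd) s

theorem EG_le' {d w : G} (hd : d ∈ D) (hw : w ∈ WSet D d) : EG D w ≤ NG D d :=
  closure_mono fun _ s => h.W_sm hd hw s

theorem cen {d n g : G} (hn : n ∈ EG D d) (hg : g ∈ NG D d) : Commute n g :=
  commute_of_closure (fun _ hw => (h.comm_EG hn hw.1 hw.2.1).symm) hg

theorem cmt_mem {d a b : G} (hd : d ∈ D) (ha : a ∈ NG D d) (hb : b ∈ NG D d) : ⁅a, b⁆ ∈ EG D d := by
  have gen : ∀ a ∈ WSet D d, ∀ b ∈ WSet D d, ⁅a, b⁆ ∈ EG D d := by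
    intro a ha b hb
    by_cases hab : Commute a b
    · rw [commutatorElement_eq_one_iff_commute.mpr hab]; exact one_mem _
    rw [commutatorElement_def, h.inv ha.1, h.inv hb.1]
    exact (h.nice hd ha hb (h.sp_W ha hb hab)).mem_EG
  have step : ∀ b, (∀ a ∈ WSet D d, ⁅a, b⁆ ∈ EG D d) → ∀ a ∈ NG D d, ⁅a, b⁆ ∈ EG D d := by
    intro b hb a ha
    induction ha using Subgroup.closure_induction'' with
    | mem x hx => exact hb x hx
    | inv_mem x hx => rw [h.inv hx.1]; exact hb x hx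
    | one => simp
    | mul x y hx _ ihx ihy =>
      have : ⁅x * y, b⁆ = ⁅y, b⁆ * ⁅x, b⁆ := by
        calc ⁅x * y, b⁆ = (x * ⁅y, b⁆) * x⁻¹ * ⁅x, b⁆ := by
              simp only [commutatorElement_def]; group
          _ = _ := by rw [← (h.cen ihy hx).eq]; group
      rw [this]; exact mul_mem ihy ihx
  refine step b (fun x hx => ?_) a ha
  rw [← commutatorElement_inv]
  exact inv_mem (step x (fun y hy => gen y hy x hx) b hb)

theorem cm_EG {d a b : G} (hd : d ∈ D) (ha : a ∈ NG D d) (hb : b ∈ NG D d) (h1 : a * a = 1) (h2 : b * b = 1) :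
    cm a b ∈ EG D d := by
  have := h.cmt_mem hd ha hb
  rwa [commutatorElement_def, inv_eq_of_mul_eq_one_right h1, inv_eq_of_mul_eq_one_right h2] at this

theorem cmt_mul {d a b c : G} (hd : d ∈ D) (ha : a ∈ NG D d) (hb : b ∈ NG D d) (hc : c ∈ NG D d) :
    ⁅a * b, c⁆ = ⁅a, c⁆ * ⁅b, c⁆ := by
  calc ⁅a * b, c⁆ = (a * ⁅b, c⁆) * a⁻¹ * ⁅a, c⁆ := by simp only [commutatorElement_def]; group
    _ = _ := by
      rw [← (h.cen (h.cmt_mem hd hb hc) ha).eq, mul_inv_cancel_right,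
        (h.comm_EG2 hd hd (Commute.refl d) (h.cmt_mem hd hb hc) (h.cmt_mem hd ha hc)).eq]

theorem sq_NG {d g : G} (hd : d ∈ D) (hg : g ∈ NG D d) : g * g ∈ EG D d := by
  induction hg using Subgroup.closure_induction'' with
  | mem x hx => rw [h.sq hx.1]; exact one_mem _
  | inv_mem x hx => rw [h.inv hx.1, h.sq hx.1]; exact one_mem _
  | one => simp
  | mul x y hx hy ihx ihy =>
    have : x * y * (x * y) = (x * x) * ⁅x⁻¹, y⁆ * (y * y) := by simp only [commutatorElement_def]; group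
    rw [this]; exact mul_mem (mul_mem ihx (h.cmt_mem hd (inv_mem hx) hy)) ihy

/-- a path of length three joins odd partners -/
theorem oa_path {a y u : G} (ha : a ∈ D) (hy : y ∈ D) (e : Sp a y) (hu : u ∈ WSet D a) (e' : Sp u (cm a y)) :
    OA u y := by
  obtain ⟨f, s, l⟩ := h.exists_col ha hu (h.not_sm_of_sp (h.cm_mem ha hy e) (h.col ha hy e).comm.symm e')
  have e1 := h.sm_sp s hy e
  have s1 := h.nice (h.cm_mem ha hy e) (h.W_sm (h.cm_mem ha hy e) (h.W1 ha hy e) s) (h.W2 ha hy e) e1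
  exact oa_of_chain h.ris h.oc hy e1 l (h.sm_sp s1 hu.1 e'.symm).symm

theorem oa_path' {a b c x : G} (hb : b ∈ D) (hc : c ∈ WSet D b) (ha : a ∈ WSet D b) (hx : x ∈ WSet D c)
    (e : Sp a c) (e' : Sp b x) : OA a x := by
  have s := h.nice hc.1 (h.W_symm hb hc) hx e'
  exact h.oa_path hb hx.1 e' ha (h.sm_sp s ha.1 e.symm).symm

theorem not_comm_W {a b x : G} (ha : a ∈ D) (hb : b ∈ WSet D a) (hx : x ∈ D) (e : OA a x) : ¬ Commute x b :=
  fun c => (h.W_symm ha hb).2.2 x hx c e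

end ND

end Cfsg.Agent.Lib.Root
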