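import Cfsg.Agent.Lib.Root.RI1

set_option autoImplicit false
set_option linter.unusedSectionVars false

/-! # Non-degenerate root involutions: the elements of `E(a)` outside `D` -/

namespace Cfsg.Agent.Lib.Root

open Cfsg Cfsg.Agent.Lib.Invol Subgroup
open scoped commutatorElement

variable {G : Type*} [Group G] [Finite G] {D : Set G}

/-- a normalised path `c ~ d ~ f ~ y` -/
structure Nq (D : Set G) (c d f y : G) : Prop where
  hc : c ∈ D
  hd : d ∈ D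
  hf : f ∈ D
  hy : y ∈ D
  cf : Sp c f
  dy : Sp d y
  e1 : cm c f = d
  e2 : cm d y = f

namespace ND

variable (h : ND D)
include h

section
variable {c d f y : G} (q : Nq D c d f y)
include q

theorem nq_symm : Nq D y f d c :=
  ⟨q.hy, q.hf, q.hd, q.hc, q.dy.symm, q.cf.symm, (h.cm_swap q.hd q.hy q.dy).trans q.e2,
    (h.cm_swap q.hc q.hf q.cf).trans q.e1⟩

theorem nq_cW : c ∈ WSet D d := q.e1 ▸ h.W1 q.hc q.hf q.cf
theorem nq_fW : f ∈ WSet D d := q.e1 ▸ h.W2 q.hc q.hf q.cf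
theorem nq_dW : d ∈ WSet D f := q.e2 ▸ h.W1 q.hd q.hy q.dy
theorem nq_yW : y ∈ WSet D f := q.e2 ▸ h.W2 q.hd q.hy q.dy
theorem nq_three : orderOf (c * y) = 3 := order_three h.ris q.hc q.hf q.hy q.cf q.e1 q.dy q.e2
theorem nq_oa : OA c y := oa_of_three (h.sq q.hc) (h.nq_three q)
theorem nq_braid : c * y * c = y * c * y := braid_of_three h.ris q.hc q.hy (h.nq_three q)
theorem nq_n : c * y * c ∈ D := h.cj' q.hy (h.sq q.hc)

theorem nq_swap : (c * y * c) * c * (c * y * c) = y ∧ (c * y * c) * d * (c * y * c) = f ∧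
    (c * y * c) * f * (c * y * c) = d ∧ (c * y * c) * y * (c * y * c) = c := by
  have := swap_of_three h.ris q.hc q.hf q.hy q.cf q.e1 q.dy q.e2
  rw [h.inv (h.nq_n q)] at this
  refine ⟨this.1, this.2.1, this.2.2, ?_⟩
  nth_rw 2 [← this.1]
  exact cj_cj (h.sq (h.nq_n q)) c

theorem nq_cm {p : G} (hp : p ∈ EG D f) : cm p c ∈ EG D d :=
  h.cm_EG q.hd (h.EG_le' q.hd (h.nq_fW q) hp) (mem_NG (h.nq_cW q)) (h.sq_EG hp) (h.sq q.hc)

theorem nq_cj {p : G} (hp : p ∈ EG D f) :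
    (c * y * c) * p * (c * y * c) = p * cm (cm p c) y * cm p c := by
  have r := h.nq_cm q hp
  have r2 := h.nq_cm (h.nq_symm q) r
  have e1 : y * p * y = p := cj_of_comm (h.sq q.hy) (h.comm_EG hp q.hy (h.nq_yW q).2.1)
  calc _ = y * (c * (y * p * y) * c) * y := by rw [h.nq_braid q]; simp only [mul_assoc]
    _ = _ := by
      rw [e1, conj_eq_cm (h.sq_EG hp), cj_mul (h.sq q.hy), e1, conj_eq_cm (h.sq_EG r),
        (h.comm_EG2 q.hd q.hf (h.nq_dW q).2.1 r r2).eq, mul_assoc]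

theorem nq_cjE {p : G} (hp : p ∈ EG D f) : (c * y * c) * p * (c * y * c) ∈ EG D d :=
  h.EG_cj' (h.sq (h.nq_n q)) (by rw [(h.nq_swap q).2.2.1]; exact sm_refl q.hd) hp

/-- the `S₃`-lemma -/
theorem nq_J {p : G} (hp : p ∈ EG D f) : p * cm (cm p c) y ∈ EG D d ⊓ EG D f := by
  have r := h.nq_cm q hp
  refine ⟨?_, mul_mem hp (h.nq_cm (h.nq_symm q) r)⟩
  have := h.nq_cjE q hp
  rw [h.nq_cj q hp] at this
  exact (mul_mem_cancel_right r).1 this

theorem nq_ker {p : G} (hp : p ∈ EG D f) (e : Commute p c) : p ∈ EG D d := by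
  have := (h.nq_J q hp).1
  rwa [(cm_eq_one (h.sq_EG hp) (h.sq q.hc)).2 e, cm_one _ (h.sq q.hy), mul_one] at this

theorem nq_J1 {p : G} (hp : p ∈ EG D f) (e : y * p ∈ D) : p = cm (cm p c) y := by
  have r := h.nq_cm q hp
  have r2 := h.nq_cm (h.nq_symm q) r
  have j := h.nq_J q hp
  have := ri_CT h.ris q.hy q.hc (h.nq_oa q).symm (h.comm_EG j.2 q.hy (h.nq_yW q).2.1).symm
    (h.comm_EG j.1 q.hc (h.nq_cW q).2.1).symm (by
      have := h.cj' e (h.sq_EG r)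
      rwa [cj_mul (h.sq_EG r), conj_eq_cm (h.sq q.hy), cm_comm (h.sq_EG r) (h.sq q.hy) (h.sq_EG r2),
        cj_of_comm (h.sq_EG r) (h.comm_EG2 q.hd q.hf (h.nq_dW q).2.1 r hp), mul_assoc,
        (h.comm_EG2 q.hf q.hf (Commute.refl f) r2 hp).eq] at this)
  exact (eq_inv_of_mul_eq_one_left this).trans (inv_eq_of_mul_eq_one_right (h.sq_EG r2))

theorem nq_JJ {j : G} (h1 : j ∈ EG D c) (h2 : j ∈ EG D f) : j = 1 :=
  h.eq_one_EG q.hc q.hy (h.nq_oa q) h1 (h.comm_EG h2 q.hy (h.nq_yW q).2.1).symm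

end

theorem exists_nq {a y : G} (ha : a ∈ D) (hy : y ∈ D) (e : Sp a y) : ∃ u, Nq D u a (cm a y) y := by
  have l := h.col ha hy e
  obtain ⟨c, hc, e1, e2⟩ := h.exists_J l.symm (h.not_sm_of_sp hy (h.col' ha hy e).comm e)
  exact ⟨c, hc, ha, l.right, hy, e1.symm, e, (h.cm_swap l.right hc e1).trans e2, rfl⟩

theorem exists_nq' {a y : G} (ha : a ∈ D) (hy : y ∈ D) (e : Sp a y) : ∃ x, Nq D a (cm a y) y x := by
  obtain ⟨x, q⟩ := h.exists_nq ha hy e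
  have l := h.col' ha hy e
  obtain ⟨c, hc, e1, e2⟩ := h.exists_J l.symm (h.not_sm_of_sp ha (h.col ha hy e).comm e.symm)
  exact ⟨c, ha, l.right, hy, hc, e, e1, rfl, e2⟩

theorem ker_EG {a y p : G} (ha : a ∈ D) (hy : y ∈ D) (e : Sp a y) (hp : p ∈ EG D a) (c : Commute p y) :
    p ∈ EG D (cm a y) := by
  obtain ⟨u, q⟩ := h.exists_nq ha hy e
  exact h.nq_ker (h.nq_symm q) hp c

theorem JJ {a c j : G} (ha : a ∈ D) (hc : c ∈ D) (e : Sp a c) (h1 : j ∈ EG D a) (h2 : j ∈ EG D c) : j = 1 := by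
  obtain ⟨x, q⟩ := h.exists_nq' ha hc e
  exact h.nq_JJ q h1 h2

/-- the partner in a given class -/
theorem partner {a y u : G} (ha : a ∈ D) (hy : y ∈ D) (e : Sp a y) (hu : u ∈ WSet D a) (e' : Sp u (cm a y)) :
    ∃ u', Sm D u u' ∧ Nq D u' a (cm a y) y := by
  have l := h.col ha hy e
  have s := h.nice ha hu (h.colW l) e'
  obtain ⟨v, q⟩ := h.exists_nq hu.1 l.right e'
  have e1 := h.nq_J1 q s.symm.mem_EG l.symm.mul
  have e2 : Sp a v := h.sm_sp s.symm q.hc q.cf.symm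
  have s2 := h.nice hu.1 (h.W_symm ha hu) (h.nq_cW q) e2
  exact ⟨_, s2, s2.2.1, ha, l.right, hy, h.sm_sp s2 l.right e', e, e1.symm, rfl⟩

theorem J2_aux {a y j : G} (ha : a ∈ D) (hy : y ∈ D) (e : Sp a y) (h1 : j ∈ EG D (cm a y)) (h2 : y * j ∈ D)
    (h3 : j ∈ EG D y) {y' : G} (s : Sm D y y') : y' * j ∈ D := by
  have f := h.cm_mem ha hy e
  have e' : Sp a y' := (h.sm_sp s ha e.symm).symm
  have s1 := h.nice f (h.W1 ha hy e) (h.W_sm f (h.W2 ha hy e) s) e'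
  obtain ⟨u, q⟩ := h.exists_nq ha hy e
  obtain ⟨u', s2, q'⟩ := h.partner ha s.2.1 e' (h.nq_cW q) (h.sm_sp s1 q.hc q.cf.symm).symm
  have jj := h.sq_EG h1
  have k1 : cm j u ∈ EG D u := by
    have := h.EG_cj' (h.sq (h.nq_n q)) (by rw [(h.nq_swap q).2.2.2]; exact sm_refl q.hc) h3
    rwa [h.nq_cj q h1, ← h.nq_J1 q h1 h2, jj, one_mul] at this
  have k2 : Sm D u (j * u * j) := h.sm_of_EG q.hc (by
    rw [conj_eq_cm (h.sq q.hc), cm_comm jj (h.sq q.hc) (h.sq_EG k1)]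
    exact mul_mem (self_mem_EG q.hc) k1) (h.cj' q.hc jj)
  rw [s1.EG_eq] at h1
  have r := h.nq_cm q' h1
  have k3 : cm j u' ∈ EG D u' := by
    have := (s2.symm.trans (k2.trans (h.sm_cj' s2 jj))).mem_EG
    rw [conj_eq_cm (h.sq q'.hc), cm_comm jj (h.sq q'.hc) (h.sq_EG r)] at this
    exact (mul_mem_cancel_left (self_mem_EG q'.hc)).1 this
  have k4 := h.EG_cj' (h.sq (h.nq_n q')) (by rw [(h.nq_swap q').2.2.2]; exact sm_refl q'.hc) (s.EG_eq ▸ h3)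
  rw [h.nq_cj q' h1] at k4
  have k5 := h.nq_JJ q' ((mul_mem_cancel_right k3).1 k4) (h.nq_J q' h1).2
  have r2 := h.nq_cm (h.nq_symm q') r
  have := h.cj' q'.hy (h.sq_EG r)
  rwa [conj_eq_cm (h.sq q'.hy), cm_comm (h.sq_EG r) (h.sq q'.hy) (h.sq_EG r2), eq_inv_of_mul_eq_one_right k5,
    inv_eq_of_mul_eq_one_right jj] at this

theorem J2 {a y j : G} (ha : a ∈ D) (hy : y ∈ D) (e : Sp a y) (h1 : j ∈ EG D (cm a y)) (h3 : j ∈ EG D y)
    {y' : G} (s : Sm D y y') : y' * j ∈ D := by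
  obtain ⟨x, q⟩ := h.exists_nq' ha hy e
  have q' := h.nq_symm q
  set f := cm a y with hf
  have base : ∀ r, Sm D y r → ∃ g ∈ EG D f ⊓ EG D y, (∀ y', Sm D y y' → y' * g ∈ D) ∧
      ∃ p ∈ EG D f, r = g * cm p x := fun r s => by
    have j := h.nq_J q s.mem_EG
    have r1 := h.nq_cm q s.mem_EG
    have e1 : Sp r a := h.sm_sp s ha e.symm
    have s1 : Sm D f (cm r a) := h.sm_of_EG q.hd r1 (h.cm_mem s.2.1 ha e1)
    have e2 := h.sm_sp s1 q.hy q.dy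
    have r2 := h.nq_cm q' r1
    refine ⟨_, j, fun y' s' => ?_, _, r1, by rw [mul_assoc, h.sq_EG r2, mul_one]⟩
    refine h.J2_aux ha s.2.1 e1.symm (by rw [h.cm_swap s.2.1 ha e1, ← s1.EG_eq]; exact j.1) (by
      rw [h.cancel s.2.1]; exact h.cm_mem s1.2.1 q.hy e2) (s.EG_eq ▸ j.2) (s.symm.trans s')
  have key : ∀ r ∈ EG D y, ∃ g ∈ EG D f ⊓ EG D y, (∀ y', Sm D y y' → y' * g ∈ D) ∧
      ∃ p ∈ EG D f, r = g * cm p x := fun r hr => by
    induction hr using closure_induction'' with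
    | mem r s => exact base r s
    | inv_mem r s => rw [h.inv s.2.1]; exact base r s
    | one => exact ⟨1, one_mem _, fun y' s => by simpa using s.2.1, 1, one_mem _, by simp [cm_one _ (h.sq q.hy)]⟩
    | mul r r' _ _ ih ih' =>
      obtain ⟨g, hg, k1, p, hp, rfl⟩ := ih
      obtain ⟨g', hg', k1', p', hp', rfl⟩ := ih'
      refine ⟨g * g', mul_mem hg hg', fun y' s => ?_, p' * p, mul_mem hp' hp, ?_⟩
      · rw [← mul_assoc]
        exact k1' _ (h.sm_of_EG hy (mul_mem s.mem_EG hg.2) (k1 y' s))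
      · rw [cm_mul (h.sq q.hy) (h.comm_EG2 q.hd q.hd (Commute.refl _) hp' hp)
          (h.comm_EG2 q.hd hy (h.nq_dW q).2.1 hp' (h.nq_cm q' hp)), mul_assoc, ← mul_assoc (cm p x),
          (h.comm_EG2 hy hy (Commute.refl _) (h.nq_cm q' hp) hg'.2).eq]
        simp only [mul_assoc]
  obtain ⟨g, hg, k1, p, hp, rfl⟩ := key j h3
  have k2 : cm p x ∈ EG D f := (mul_mem_cancel_left (mem_inf.1 hg).1).1 h1
  have k3 := (h.nq_J q' hp).1
  rw [(cm_eq_one (h.sq_EG k2) (h.sq ha)).2 (h.comm_EG k2 ha (h.nq_cW q).2.1).symm, mul_one] at k3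
  rw [(cm_eq_one (h.sq_EG hp) (h.sq q.hy)).2 (h.comm_EG k3 q.hy (h.nq_yW q).2.1).symm, mul_one]
  exact k1 y' s

end ND

/-- `E(a)` consists of `E_a` and `1` -/
def HEE (D : Set G) : Prop := ∀ a ∈ D, ∀ n ∈ EG D a, n = 1 ∨ n ∈ D

/-- commuting members are collinear -/
def RT (D : Set G) : Prop := ∀ a ∈ D, ∀ c ∈ D, Commute c a → c ∈ WSet D a

/-- odd partners are at distance three -/
def AllNear (D : Set G) : Prop := ∀ a ∈ D, ∀ x ∈ D, OA a x → ∃ b ∈ WSet D a, ¬ OA b x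

end Cfsg.Agent.Lib.Root
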