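import Cfsg.Agent.Lib.Root.RI2

set_option autoImplicit false
set_option linter.unusedSectionVars false

/-! # Non-degenerate root involutions: midpoints, and elements of `E(a)` outside `D` -/

namespace Cfsg.Agent.Lib.Root

open Cfsg Cfsg.Agent.Lib.Invol Subgroup
open scoped commutatorElement

variable {G : Type*} [Group G] [Finite G] {D : Set G}

/-- `g` fixes the point `E_x` -/
def Fx (D : Set G) (g x : G) : Prop := Sm D x (g * x * g⁻¹)

section
omit [Finite G]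

theorem eq_of_sq_odd {x y : G} (hx : Odd (orderOf x)) (hy : Odd (orderOf y)) (e : x * x = y * y) : x = y := by
  have o : ∀ z : G, Odd (orderOf z) → orderOf (z * z) = orderOf z := fun z hz => by
    rw [← pow_two]; exact Nat.Coprime.orderOf_pow hz.coprime_two_right
  have e1 : orderOf x = orderOf y := by rw [← o x hx, e, o y hy]
  obtain ⟨k, hk⟩ := hx
  have p : ∀ z : G, orderOf z = 2 * k + 1 → z = (z * z) ^ (k + 1) := fun z hz => by
    rw [← pow_two, ← pow_mul, show 2 * (k + 1) = orderOf z + 1 by omega, pow_succ, pow_orderOf_eq_one, one_mul]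
  rw [p x hk, p y (e1 ▸ hk), e]

/-- uniqueness of midpoints -/
theorem mid_uniq {e s t : G} (h1 : OA e s) (h2 : OA e t) (h : s * e * s = t * e * t) : s = t :=
  mul_left_cancel (eq_of_sq_odd h1.2 h2.2 (by simp only [mul_assoc] at h ⊢; rw [h]))

theorem oa_cj {a b g : G} (hg : g * g = 1) (e : OA a b) : OA (g * a * g) (g * b * g) := by
  simpa [inv_eq_of_mul_eq_one_right hg] using e.conj g

theorem oa_sq {a s : G} (ha : a * a = 1) (hs : s * s = 1) (e : OA a s) : OA a (s * a * s) := by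
  have o : orderOf (a * (s * a * s)) = orderOf (a * s) := by
    rw [show a * (s * a * s) = (a * s) ^ 2 by simp [pow_two, mul_assoc]]
    exact Nat.Coprime.orderOf_pow e.2.coprime_two_right
  refine ⟨fun e1 => e.1 ?_, o ▸ e.2⟩
  have c : Commute a s := by
    show a * s = s * a
    nth_rw 1 [e1]
    rw [mul_assoc, hs, mul_one]
  have h2 : (a * s) ^ 2 ^ 1 = 1 := by rw [pow_one, c.mul_pow, pow_two, pow_two, hs, ha, mul_one]
  rw [eq_inv_of_mul_eq_one_left (eq_one_of_odd_pow e.2 1 h2), inv_eq_of_mul_eq_one_right hs]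

theorem fx_iff {g x : G} (hg : g * g = 1) : Fx D g x ↔ Sm D x (g * x * g) := by
  rw [Fx, inv_eq_of_mul_eq_one_right hg]

theorem fx_of_comm {g x : G} (hx : x ∈ D) (e : Commute g x) : Fx D g x := by
  rw [Fx, e.eq, mul_inv_cancel_right]; exact sm_refl hx

end

namespace ND

variable (h : ND D)
include h

theorem fx_mul {g g' x : G} (f : Fx D g x) (f' : Fx D g' x) : Fx D (g * g') x := by
  simpa [Fx, mul_assoc] using Sm.trans f (h.sm_cj f' g)

theorem fx_inv {g x : G} (f : Fx D g x) : Fx D g⁻¹ x := by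
  simpa [Fx, mul_assoc] using (h.sm_cj f g⁻¹).symm

theorem fx_congr {g x y : G} (s : Sm D x y) (f : Fx D g x) : Fx D g y := s.symm.trans (Sm.trans f (h.sm_cj s g))

theorem fx_cj {g x : G} (f : Fx D g x) (k : G) : Fx D (k * g * k⁻¹) (k * x * k⁻¹) := by
  simpa [Fx, mul_assoc] using h.sm_cj f k

theorem comm_of_fx {d x : G} (hd : d ∈ D) (f : Fx D d x) : Commute d x :=
  h.comm_of_norm hd ((fx_iff (h.sq hd)).1 f)

theorem fx_EG {g x n : G} (f : Fx D g x) (hn : n ∈ EG D x) : g * n * g⁻¹ ∈ EG D x := h.EG_cj (Sm.symm f) hn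

theorem fx_of_cm {g x : G} (hx : x ∈ D) (hg : g * g = 1) (e : cm x g ∈ EG D x) : Fx D g x := by
  rw [fx_iff hg]
  refine h.sm_of_EG hx ?_ (h.cj' hx hg)
  rw [conj_eq_cm (h.sq hx)]
  exact mul_mem (self_mem_EG hx) e

theorem cm_of_fx {g x : G} (hg : g * g = 1) (f : Fx D g x) : cm x g ∈ EG D x := by
  have := ((fx_iff hg).1 f).mem_EG
  rw [conj_eq_cm (h.sq f.1)] at this
  exact (mul_mem_cancel_left (self_mem_EG f.1)).1 this

theorem oa_of_sq {a s : G} (ha : a ∈ D) (hs : s ∈ D) (e : OA a (s * a * s)) : OA a s := by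
  rcases ri_tri h.ris ha hs with c | c | c
  · exact (e.1 (cj_of_comm (h.sq hs) c.symm).symm).elim
  · exact c
  · refine (h.not_oa ha (h.cj' ha (h.sq hs)) ?_ e).elim
    rw [conj_eq_cm (h.sq ha)]
    exact (Commute.refl a).mul_right (h.col ha hs c).comm

theorem exists_mid {a x : G} (ha : a ∈ D) (hx : x ∈ D) (e : OA a x) : ∃ s ∈ D, OA a s ∧ s * a * s = x := by
  obtain ⟨k, hk⟩ := e.2
  have i := conj_mul_eq_inv (h.sq ha) (h.sq hx)
  have p : (a * x) ^ (2 * k + 1) = 1 := hk ▸ pow_orderOf_eq_one _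
  have e1 : (a * x) ^ (k * (k + 1)) * a * ((a * x) ^ (k * (k + 1)))⁻¹ = (a * x) ^ k * a := by
    rw [← conj_pow_of_inverts i, h.inv ha, ← mul_assoc, ← mul_assoc, mul_assoc _ a a, h.sq ha, mul_one, ← pow_add,
      show k * (k + 1) + k * (k + 1) = (2 * k + 1) * k + k by ring, pow_add, pow_mul, p, one_pow, one_mul]
  have hs : (a * x) ^ k * a ∈ D := e1 ▸ h.cj ha _
  have e2 : (a * x) ^ k * a * a * ((a * x) ^ k * a) = x := by
    rw [mul_assoc _ a a, h.sq ha, mul_one, ← mul_assoc, ← pow_add, ← mul_left_inj (x * x), ← mul_assoc, mul_assoc _ a x,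
      ← pow_succ, show k + k + 1 = 2 * k + 1 by ring, p, h.sq hx, one_mul, mul_one]
  exact ⟨_, hs, h.oa_of_sq ha hs (e2.symm ▸ e), e2⟩

theorem sm_oa' {a b c : G} (s : Sm D a b) (hc : c ∈ D) (e : OA c a) : OA c b := (s.oa hc e.symm).symm

/-- an element of `E(a)` outside `D` fixes the special partners -/
theorem J_fx_sp {a y z : G} (ha : a ∈ D) (hy : y ∈ D) (e : Sp a y) (hz : z ∈ EG D a) (nz : z ∉ D) : Fx D z y := by
  by_contra hn
  have f := h.cm_mem ha hy e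
  have zz := h.sq_EG hz
  have hp : cm y z ∈ EG D (cm a y) :=
    h.cm_EG f (mem_NG (h.W2 ha hy e)) (h.EG_le' f (h.W1 ha hy e) hz) (h.sq hy) zz
  have np : cm y z ∉ EG D y := fun m => hn (h.fx_of_cm hy zz m)
  obtain ⟨x, q⟩ := h.exists_nq' ha hy e
  have q' := h.nq_symm q
  have yp : y * cm y z ∈ D := conj_eq_cm (h.sq hy) z ▸ h.cj' hy zz
  have xW := h.nq_yW q
  have cxy : Commute x y := xW.2.1
  have r := h.nq_cm q' hp
  have ypW : y * cm y z ∈ WSet D y :=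
    h.W_of_NG (mul_mem (mem_NG (h.selfW hy)) (h.EG_le' hy (h.nq_dW q) hp)) yp
  have e1 : cm (y * cm y z) x = cm (cm y z) x := by
    rw [cm_mul (h.sq q.hy) (h.comm_EG hp hy (h.nq_fW q).2.1) (h.comm_EG r hy (Commute.refl y)),
      (cm_eq_one (h.sq hy) (h.sq q.hy)).2 cxy.symm, mul_one]
  have e2 : Sp (y * cm y z) x := h.sp_W ypW xW fun c => np (h.nq_ker q' hp (by
    rwa [← cm_eq_one (h.sq_EG hp) (h.sq q.hy), ← e1, cm_eq_one (h.sq yp) (h.sq q.hy)]))
  have rD : cm (cm y z) x ∈ D := e1 ▸ h.cm_mem yp q.hy e2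
  have s1 := h.sm_of_EG hy r rD
  have e3 : Sp (cm (cm y z) x) a := h.sm_sp s1 ha e.symm
  have s2 := h.sm_of_EG f (h.nq_cm q r) (h.cm_mem rD ha e3)
  have j := h.nq_J q' hp
  have pD : cm y z ∈ D := by
    have := h.J2 q.hy f q.dy.symm (by rw [q'.e1]; exact j.1) j.2 s2
    rwa [(h.comm_EG j.2 s2.2.1 (h.sm_comm s2.symm s2.2.1 (Commute.refl _))).eq, mul_assoc, h.sq s2.2.1,
      mul_one] at this
  obtain ⟨u, w⟩ := h.exists_nq ha hy e
  have w' := h.nq_symm w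
  have j' := h.nq_J w' hz
  rw [cm_comm (h.sq hy) zz (h.sq pD)] at j'
  have s3 := h.sm_of_EG f hp pD
  have s4 := h.sm_of_EG ha (h.nq_cm w hp) (h.cm_mem pD w.hc (h.sm_sp s3 w.hc w.cf.symm))
  have := h.J2 hy ha e.symm (by rw [h.cm_swap ha hy e]; exact j'.1) j'.2 s4
  rw [(h.comm_EG j'.2 s4.2.1 (h.sm_comm s4.symm s4.2.1 (Commute.refl _))).eq, mul_assoc, h.sq s4.2.1,
      mul_one] at this
  exact nz this

theorem J_mul {a z w : G} (ha : a ∈ D) (hz : z ∈ EG D a) (nz : z ∉ D) (hw : w ∈ EG D a) (nw : w ∉ D) : z * w ∉ D := by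
  intro m
  obtain ⟨y, hy, e⟩ := h.four a ha
  exact h.not_sp m hy (h.comm_of_fx m (h.fx_mul (h.J_fx_sp ha hy e hz nz) (h.J_fx_sp ha hy e hw nw)))
    (h.sm_sp (h.sm_of_EG ha (mul_mem hz hw) m) hy e)

theorem J_sm {a e z : G} (s : Sm D a e) (hz : z ∈ EG D a) (nz : z ∉ D) : Sm D a (e * z) := by
  refine h.sm_of_EG s.1 (mul_mem s.mem_EG hz) (by_contra fun m => ?_)
  have := h.J_mul s.1 (mul_mem s.mem_EG hz) m hz nz
  rw [mul_assoc, h.sq_EG hz, mul_one] at this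
  exact this s.2.1

theorem J_inter {a b z : G} (ha : a ∈ D) (hb : b ∈ D) (hn : ¬ Sm D a b) (h1 : z ∈ EG D a) (h2 : z ∈ EG D b) : z ∉ D :=
  fun m => hn ((h.sm_of_EG ha h1 m).trans (h.sm_of_EG hb h2 m).symm)

theorem sp_of_near {a b x : G} (ha : a ∈ D) (hx : x ∈ D) (e : OA a x) (hb : b ∈ WSet D a) (nb : ¬ OA b x) : Sp b x :=
  h.sp_of hb.1 hx (fun c => h.not_comm_W ha hb hx e c.symm) nb

theorem sp_cm {a b x : G} (ha : a ∈ D) (hx : x ∈ D) (e : OA a x) (hb : b ∈ D) (c : Commute b a) (e' : Sp b x) :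
    Sp a (cm b x) := four_symm (four_cm h.ris ha hb hx e e' c.symm)

theorem near_nq {a b x : G} (ha : a ∈ D) (hx : x ∈ D) (e : OA a x) (hb : b ∈ WSet D a) (nb : ¬ OA b x) :
    ∃ a', Sm D a a' ∧ Nq D a' b (cm b x) x :=
  have e1 := h.sp_of_near ha hx e hb nb
  h.partner hb.1 hx e1 (h.W_symm ha hb) (h.sp_cm ha hx e hb.1 hb.2.1 e1)

/-- an element of `E(a)` outside `D` fixes the near odd partners -/
theorem J_fx_near {a b x z : G} (ha : a ∈ D) (hx : x ∈ D) (e : OA a x) (hb : b ∈ WSet D a) (nb : ¬ OA b x)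
    (hz : z ∈ EG D a) (nz : z ∉ D) : Fx D z x := by
  obtain ⟨c, s, q⟩ := h.near_nq ha hx e hb nb
  generalize cm b x = y at q
  rw [s.EG_eq] at hz
  have zz := h.sq_EG hz
  have s1 := h.J_sm (sm_refl q.hc) hz nz
  have j1 : cm z y ∈ EG D b :=
    h.cm_EG q.hd (h.EG_le' q.hd (h.nq_cW q) hz) (mem_NG (h.nq_fW q)) zz (h.sq q.hf)
  have j2 : cm z y ∈ EG D y := by
    rw [cm_comm (h.sq q.hf) zz (by rw [cm_comm zz (h.sq q.hf) (h.sq_EG j1)]; exact h.sq_EG j1)]
    exact h.cm_of_fx zz (h.J_fx_sp q.hc q.hf q.cf hz nz)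
  have cz := h.comm_EG hz q.hc (Commute.refl c)
  have e1 : cm (c * z) y = b * cm z y := by
    rw [cm_mul (h.sq q.hf) cz (h.comm_EG j1 q.hc (h.nq_cW q).2.1), q.e1, (h.comm_EG j1 q.hd (Commute.refl b)).eq]
  have e2 := h.sm_sp s1 q.hf q.cf
  have s2 : Sm D b (b * cm z y) := h.sm_of_EG q.hd (mul_mem (self_mem_EG q.hd) j1) (e1 ▸ h.cm_mem s1.2.1 q.hf e2)
  have c3 := h.comm_EG j2 hx (h.nq_yW q).2.1
  have q2 : Nq D (c * z) (b * cm z y) y x := ⟨s1.2.1, s2.2.1, q.hf, hx, e2, h.sm_sp s2 hx q.dy, e1, by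
    have k := (cm_eq_one (h.sq_EG j1) (h.sq hx)).2 c3.symm
    rw [cm_mul (h.sq hx) (h.comm_EG j1 q.hd (Commute.refl b)) (by rw [k]; exact Commute.one_right b), k, q.e2, one_mul]⟩
  have e3 : z * x * z = (c * x * c) * (c * z) * (c * x * c) := by
    have b1 := h.nq_braid q2
    calc z * x * z = c * (c * z * x * (c * z)) * c := by
          nth_rw 2 [cz.eq]; simp [mul_assoc, h.cancel q.hc, h.sq q.hc]
      _ = _ := by
          rw [b1]
          calc c * (x * (c * z) * x) * c = c * x * (c * (c * z) * c) * x * c := by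
                rw [h.cancel q.hc, ← cz.eq]; simp only [mul_assoc]
            _ = _ := by simp only [mul_assoc]
  rw [fx_iff zz, e3]
  have := h.sm_cj' s1 (h.sq (h.nq_n q))
  rwa [(h.nq_swap q).1] at this

/-- if the elements of `E(a)` outside `D` fix all points, they are trivial -/
theorem hee_of (hO : pCore 2 G = ⊥) (H : ∀ a ∈ D, ∀ x ∈ D, OA a x → ∀ z ∈ EG D a, z ∉ D → Fx D z x) : HEE D := by
  let K : Set G := {z | z ∉ D ∧ ∃ a ∈ D, z ∈ EG D a}
  have cm2 : ∀ z ∈ K, ∀ w ∈ K, Commute z w := by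
    rintro z ⟨nz, a, ha, hz⟩ w ⟨nw, x, hx, hw⟩
    have key : Fx D z x → Fx D w a → ⁅z, w⁆ ∈ EG D a ∧ ⁅z, w⁆ ∈ EG D x := fun f1 f2 =>
      ⟨by simpa [commutatorElement_def, mul_assoc] using mul_mem hz (h.fx_EG f2 (inv_mem hz)),
        mul_mem (h.fx_EG f1 hw) (inv_mem hw)⟩
    rw [← commutatorElement_eq_one_iff_commute]
    rcases ri_tri h.ris ha hx with e | e | e
    · exact commutatorElement_eq_one_iff_commute.2 (h.comm_EG2 ha hx e hz hw)
    · have := key (H a ha x hx e z hz nz) (H x hx a ha e.symm w hw nw)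
      exact h.eq_one_EG ha hx e this.1 (h.comm_EG this.2 hx (Commute.refl x)).symm
    · have := key (h.J_fx_sp ha hx e hz nz) (h.J_fx_sp hx ha (four_symm e) hw nw)
      exact h.JJ ha hx e this.1 this.2
  have p := pgroup_closure_comm (T := K) (fun z ⟨_, a, _, hz⟩ => h.sq_EG hz) cm2
  have nK : (closure K).Normal := ⟨fun n hn g => closure_cj (by
    rintro z ⟨nz, a, ha, hz⟩
    exact ⟨fun m => nz ((ri_conj_iff h.ris).1 m), _, h.cj ha g, h.EG_cj (sm_refl (h.cj ha g)) hz⟩) hn⟩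
  intro a ha n hn
  by_cases m : n ∈ D
  · exact .inr m
  · exact .inl (mem_bot.1 (hO ▸ le_pCore' nK p (subset_closure ⟨m, a, ha, hn⟩)))

end ND

end Cfsg.Agent.Lib.Root
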