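import Cfsg.Agent.Lib.Root.RI3

set_option autoImplicit false
set_option linter.unusedSectionVars false

/-! # Non-degenerate root involutions: planes, and `E(a) = E_a ∪ {1}` -/

namespace Cfsg.Agent.Lib.Root

open Cfsg Cfsg.Agent.Lib.Invol Subgroup
open scoped commutatorElement

variable {G : Type*} [Group G] [Finite G] {D : Set G}

/-- `d, u, v` span a plane -/
structure Plane (D : Set G) (d u v : G) : Prop where
  hd : d ∈ D
  hu : u ∈ WSet D d
  du : ¬ Sm D d u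
  hv : v ∈ WSet D d
  uv : v ∈ WSet D u
  out : ∀ e ∈ EG D d, ∀ p ∈ EG D u, v ≠ e * p

namespace ND

variable (h : ND D)
include h

theorem W_mul {a w p : G} (ha : a ∈ D) (hw : w ∈ WSet D a) (hp : p ∈ EG D a) (m : w * p ∈ D) : w * p ∈ WSet D a :=
  h.W_of_NG (mul_mem (mem_NG hw) (h.EG_le ha hp)) m

theorem shear {u v p : G} (hu : u ∈ D) (hv : v ∈ WSet D u) (hn : ¬ Sm D u v) (hp : p ∈ EG D u) :
    ∃ p' ∈ EG D u, v * p' ∈ D ∧ p * p' ∉ D := by
  obtain ⟨e, s, l⟩ := h.exists_col hu hv hn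
  obtain ⟨g, hg, e1, e2⟩ := h.exists_J l.symm fun t => hn (s.trans t.symm)
  obtain ⟨c, q⟩ := h.exists_nq hg l.right e1.symm
  rw [h.cm_swap l.right hg e1, e2] at q
  rw [s.EG_eq] at hp ⊢
  have r := h.nq_cm q hp
  have r2 := h.nq_cm (h.nq_symm q) r
  refine ⟨_, r2, ?_, h.J_inter l.left hg (h.not_sm_of_sp l.right l.comm.symm e1.symm) (h.nq_J q hp).2 (h.nq_J q hp).1⟩
  have := h.cj' l.right (h.sq_EG r)
  rwa [conj_eq_cm (h.sq l.right), cm_comm (h.sq_EG r) (h.sq l.right) (h.sq_EG r2)] at this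

theorem plane_adj {d u v w : G} (P : Plane D d u v) (hw : w ∈ WSet D d) (hn : ¬ Sm D d w) :
    ∃ t ∈ WSet D d, ¬ Sm D d t ∧ Commute t w ∧ Commute t u := by
  by_cases c1 : Commute u w
  · exact ⟨u, P.hu, P.du, c1, Commute.refl u⟩
  by_cases c2 : Commute v w
  · exact ⟨v, P.hv, fun s => P.out v s.mem_EG 1 (one_mem _) (mul_one v).symm, c2, P.uv.2.1⟩
  have e1 := h.sp_W P.hu hw c1
  have e2 := h.sp_W P.hv hw c2
  have s := h.nice P.hd P.hv hw e2
  obtain ⟨y, hy, e3, e4⟩ := h.exists_J (h.col' P.hv.1 hw.1 e2).symm fun t => hn (s.trans t)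
  obtain ⟨u', s1, q⟩ := h.partner s.2.1 hy e3 (h.W_eq s ▸ P.hu) (by rw [e4]; exact e1)
  rw [e4] at q
  obtain ⟨p, hp, m, nj⟩ := h.shear P.hu.1 P.uv (fun t => P.out 1 (one_mem _) v t.mem_EG (one_mul v).symm) s1.mem_EG
  have c3 : Commute (v * u') w := by
    have : w * (v * u') * w = v * u' := by
      rw [cj_mul (h.sq hw.1), conj_eq_cm (h.sq P.hv.1), conj_eq_cm (h.sq q.hc), q.e1, mul_assoc, ← mul_assoc _ u',
        ← (h.nq_cW q).2.1.eq, mul_assoc u', h.sq q.hd, mul_one]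
    show v * u' * w = w * (v * u')
    nth_rw 1 [← this]
    rw [mul_assoc _ w w, h.sq hw.1, mul_one]
  have f := h.fx_mul (fx_of_comm hw.1 c3) (h.J_fx_sp P.hu.1 hw.1 e1 (mul_mem s1.mem_EG hp) nj)
  rw [mul_assoc, h.cancel q.hc] at f
  refine ⟨_, h.W_of_NG (mul_mem (mem_NG P.hv) (h.EG_le' P.hd P.hu hp)) m, fun t => ?_, h.comm_of_fx m f,
    P.uv.2.1.mul_left (h.comm_EG hp P.hu.1 (Commute.refl u)).symm⟩
  exact P.out _ t.mem_EG p hp (by rw [mul_assoc, h.sq_EG hp, mul_one])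

theorem propagate {a b x u : G} (ha : a ∈ D) (hx : x ∈ D) (e : OA a x) (hb : b ∈ WSet D a) (nb : ¬ OA b x)
    (hu : u ∈ WSet D a) (hn : ¬ Sm D a u) (cu : Commute u b) : ∃ p ∈ EG D a, u * p ∈ D ∧ ¬ OA (u * p) x := by
  obtain ⟨a1, s, q⟩ := h.near_nq ha hx e hb nb
  generalize cm b x = c at q
  have cW := h.nq_fW q
  have xW := h.nq_yW q
  have fin : ∀ w ∈ D, Commute w b → Fx D (cm w c) x → ¬ OA w x := fun w hw cw f => by
    by_cases c1 : Commute w c
    · exact fun o => xW.2.2 w hw c1 o.symm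
    · have e1 := h.sp_of hw q.hf c1 fun o => cW.2.2 w hw cw o.symm
      exact (h.W1 hw q.hf e1).2.2 x hx (h.comm_of_fx (h.cm_mem hw q.hf e1) f).symm
  by_cases c1 : Commute u c
  · exact ⟨1, one_mem _, by simpa using hu.1, by simpa using fun o => xW.2.2 u hu.1 c1 (OA.symm o)⟩
  have e1 := h.sp_of hu.1 q.hf c1 fun o => cW.2.2 u hu.1 cu o.symm
  have hg := h.cm_mem hu.1 q.hf e1
  have gW := h.W_symm hg (h.W2 hu.1 q.hf e1)
  set g := cm u c with hgd
  have p0 : cm x g ∈ EG D c := h.cm_EG q.hf (mem_NG xW) (mem_NG gW) (h.sq hx) (h.sq hg)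
  have r := h.nq_cm q p0
  have k := h.nq_J1 q p0 (conj_eq_cm (h.sq hx) g ▸ h.cj' hx (h.sq hg))
  set r0 := cm (cm x g) a1 with hr0
  have rr := h.sq_EG r
  have f1 : Fx D (r0 * g) x := by
    refine fx_of_comm hx ?_
    have : r0 * g * x * (r0 * g)⁻¹ = x := by
      rw [mul_inv_rev, h.inv hg, inv_eq_of_mul_eq_one_right rr, show r0 * g * x * (g * r0) = r0 * (g * x * g) * r0 by
        simp only [mul_assoc], conj_eq_cm (h.sq hx), cj_mul rr, conj_eq_cm (h.sq hx),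
        cj_of_comm rr (h.comm_EG2 q.hd q.hf cW.2.1.symm r p0), cm_comm rr (h.sq hx) (by rw [← k]; exact h.sq_EG p0),
        ← k, mul_assoc, h.sq_EG p0, mul_one]
    exact mul_inv_eq_iff_eq_mul.1 this
  obtain ⟨v, q2⟩ := h.exists_nq q.hc q.hf q.cf
  rw [q.e1] at q2
  have a' := h.nq_cm q2 r
  have j := h.nq_J q2 r
  rw [← s.EG_eq] at a'
  obtain ⟨p, hp, m, nj⟩ := h.shear ha hu hn a'
  refine ⟨p, hp, m, fin _ m (cu.mul_left (h.comm_EG hp hb.1 hb.2.1).symm) ?_⟩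
  have aW := h.W_symm ha hb
  have cE : ∀ z ∈ EG D a, cm z c ∈ EG D b := fun z hz =>
    h.cm_EG q.hd (h.EG_le' q.hd aW hz) (mem_NG cW) (h.sq_EG hz) (h.sq q.hf)
  have j1 := mul_mem a' hp
  have e2 : cm (u * p) c = cm (cm r0 v * p) c * ((r0 * cm (cm r0 v) c) * (r0 * g)) := by
    rw [cm_mul (h.sq q.hf) (h.comm_EG hp hu.1 hu.2.1) (h.comm_EG (cE p hp) hu.1 cu),
      cm_mul (h.sq q.hf) (h.comm_EG2 ha ha (Commute.refl a) a' hp)
        (h.comm_EG2 ha hb.1 hb.2.1.symm a' (cE p hp)),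
      (h.comm_EG2 hb.1 hb.1 (Commute.refl b) r (cE _ a')).eq]
    simp only [mul_assoc, ← mul_assoc r0 r0, rr, one_mul, ← mul_assoc (cm (cm r0 v) c) (cm (cm r0 v) c),
      h.sq_EG (cE _ a'), hgd]
  rw [e2]
  refine h.fx_mul (fx_of_comm hx (h.comm_EG ?_ hx xW.2.1).symm) (h.fx_mul (h.J_fx_sp q.hd hx q.dy j.2
    (h.J_inter q.hc q.hd (h.not_sm_of_sp q.hf cW.2.1 q.cf ∘ Sm.symm) j.1 j.2)) f1)
  rw [cm_comm (h.sq q.hf) (h.sq_EG j1) (by
    rw [cm_comm (h.sq_EG j1) (h.sq q.hf) (h.sq_EG (cE _ j1))]; exact h.sq_EG (cE _ j1))]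
  exact h.cm_of_fx (h.sq_EG j1) (h.J_fx_sp ha q.hf (h.sm_sp s.symm q.hf q.cf) j1 nj)

theorem common {a c : G} (ha : a ∈ D) (hc : c ∈ D) (e : Commute c a) : ∃ d ∈ D, a ∈ WSet D d ∧ c ∈ WSet D d := by
  by_cases hs : Sm D a c
  · exact ⟨a, ha, h.selfW ha, h.W_sm ha (h.selfW ha) hs⟩
  by_cases h1 : ∃ b ∈ WSet D a, Sp b c
  · obtain ⟨b, hb, e1⟩ := h1
    have hd := h.cm_mem hb.1 hc e1
    refine ⟨_, hd, h.W_symm ha (h.W_of_NG ?_ hd), h.W2 hb.1 hc e1⟩
    have := wset_conj' h.ris hb e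
    rw [h.inv hc] at this
    simpa [cm, mul_assoc] using mul_mem (mem_NG hb) (mem_NG this)
  have h2 : ∀ b ∈ WSet D a, Commute b c := fun b hb => by_contra fun n =>
    h1 ⟨b, hb, h.sp_of hb.1 hc n (hb.2.2 c hc e)⟩
  obtain ⟨y, hy, e1, e2⟩ := exists_aset_diff h.ris h.oc ha hc fun t => hs ⟨ha, hc, t⟩
  have e3 : Sp c y := h.sp_of hc hy (fun c1 => h.ne_one hc
    (h.eq_one_of ha hy e1 (fun b l => (h2 b (h.colW l)).symm) c1)) e2
  have e4 := h.sp_cm ha hy e1 hc e e3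
  have hc' := h.cm_mem hc hy e3
  have l := h.col ha hc' e4
  obtain ⟨u, lu, e5⟩ := h.exists_f ha (h.colW l) (h.not_sm_of_sp hc' (h.col' ha hc' e4).comm e4 ∘ Sm.symm)
  exact ((h.colW (h.col hc hy e3)).2.2 u lu.right (h2 u (h.colW lu))
    (h.oa_path ha hc' e4 (h.colW lu) e5.symm).symm).elim

theorem exists_plane (hn : ¬ RT D) {d : G} (hd : d ∈ D) : ∃ u v, Plane D d u v := by
  simp only [RT, not_forall] at hn
  obtain ⟨u, hu, v, hv, e, nv⟩ := hn
  obtain ⟨d', hd', h1, h2⟩ := h.common hu hv e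
  obtain ⟨g, rfl⟩ := h.exists_cj hd' hd
  obtain ⟨y, hy, c, o⟩ : ∃ y ∈ D, Commute y u ∧ OA v y := by
    by_contra k
    exact nv ⟨hv, e, fun y hy c o => k ⟨y, hy, c, o⟩⟩
  have dW := h.W_symm hd' h1
  have e1 : Sp d' y := h.sp_of hd' hy (fun c1 => h2.2.2 y hy c1.symm o) (dW.2.2 y hy c)
  have hf := h.cm_mem hd' hy e1
  have e2 := h.sp_cm hv hy o hd' h2.2.1.symm e1
  have fW : cm d' y ∈ WSet D u := by
    refine h.W_of_NG ?_ hf
    have := wset_conj' h.ris dW c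
    rw [h.inv hy] at this
    simpa [cm, mul_assoc] using mul_mem (mem_NG dW) (mem_NG this)
  have sr := sm_refl hd
  refine ⟨g * u * g⁻¹, g * cm d' y * g⁻¹, hd, h.W_cj sr h1, fun s => nv ?_, h.W_cj sr (h.colW (h.col hd' hy e1)),
    h.W_cj (sm_refl (h.cj hu g)) fW, fun e' he p hp k => h.not_sp (h.cj hv g) (h.cj hf g) ?_ (e2.conj g)⟩
  · have := h.sm_cj s g⁻¹
    simp only [mul_assoc, inv_mul_cancel_left, inv_inv, inv_mul_cancel, mul_one] at this
    exact h.W_eq this ▸ h2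
  · rw [k]
    exact (h.comm_EG he (h.cj hv g) (commute_conj h2.2.1 g)).mul_right (h.comm_EG hp (h.cj hv g) (commute_conj e g))

theorem allNear_of_not_RT (hn : ¬ RT D) : AllNear D := by
  intro a ha x hx _
  have key := h.pc x hx a ha
  clear ha
  induction key with
  | refl => exact ⟨x, h.selfW hx, not_oa_self x⟩
  | @tail a u _ l ih =>
    have l := prodAdj_col l
    have ha := l.left
    have hu := h.colW l
    by_cases e : OA a x
    swap
    · exact ⟨a, h.colW l.symm, e⟩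
    obtain ⟨b, hb, nb⟩ := ih e
    by_cases s : Sm D a u
    · exact ⟨b, h.W_eq s ▸ hb, nb⟩
    have step : ∀ w ∈ WSet D a, ∀ t ∈ WSet D a, ¬ Sm D a t → Commute t w →
        (∃ p ∈ EG D a, w * p ∈ D ∧ ¬ OA (w * p) x) → ∃ p ∈ EG D a, t * p ∈ D ∧ ¬ OA (t * p) x := by
      rintro w hw t ht nt c ⟨p, hp, m, no⟩
      exact h.propagate ha hx e (h.W_mul ha hw hp m) no ht nt (c.mul_right (h.comm_EG hp ht.1 ht.2.1))
    obtain ⟨u0, v0, P⟩ := h.exists_plane hn ha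
    obtain ⟨t, ht, nt, c1, c2⟩ := h.plane_adj P hb fun s => nb (s.oa hx e)
    obtain ⟨t', ht', nt', c1', c2'⟩ := h.plane_adj P hu s
    obtain ⟨p, hp, m, no⟩ := step t' ht' u hu s c1'.symm (step u0 P.hu t' ht' nt' c2' (step t ht u0 P.hu P.du c2.symm
      (step b hb t ht nt c1 ⟨1, one_mem _, by simpa using hb.1, by simpa using nb⟩)))
    exact ⟨_, h.W_of_NG (mul_mem (mem_NG (h.selfW hu.1)) (h.EG_le' hu.1 (h.colW l.symm) hp)) m, no⟩

/-- the elements of `E(a)` outside `D` -/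
def JG {a : G} (ha : a ∈ D) : Subgroup G where
  carrier := {z | z ∈ EG D a ∧ z ∉ D}
  one_mem' := ⟨one_mem _, fun m => h.ne_one m rfl⟩
  mul_mem' := fun hz hw => ⟨mul_mem hz.1 hw.1, h.J_mul ha hz.1 hz.2 hw.1 hw.2⟩
  inv_mem' := fun hz => by rwa [Set.mem_setOf_eq, inv_eq_of_mul_eq_one_right (h.sq_EG hz.1)]

theorem fx_sp_false {a m m' : G} (ha : a ∈ D) (hm : m ∈ D) (hm' : m' ∈ D) (o : OA a m) (f : Fx D (m * m') a) :
    ¬ Sp m m' := fun e =>
  (h.W1 hm hm' e).2.2 a ha (h.comm_of_fx (h.cm_mem hm hm' e) (by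
    simpa [cm, mul_assoc] using h.fx_mul f f)).symm o.symm

theorem claimA {a z m m' : G} (ha : a ∈ D) (hz : z ∈ EG D a) (nz : z ∉ D) (hm : m ∈ D) (hm' : m' ∈ D) (o : OA a m)
    (o' : OA a m') (e : m * a * m = m' * (a * z) * m') : Commute m m' := by
  have s := h.J_sm (sm_refl ha) hz nz
  have e1 : m * m' * (a * z) * (m * m')⁻¹ = a := by
    rw [mul_inv_rev, h.inv hm, h.inv hm', show m * m' * (a * z) * (m' * m) = m * (m' * (a * z) * m') * m by
      simp only [mul_assoc], ← e, cj_cj (h.sq hm)]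
  have f : Fx D (m * m') a := by
    have := h.sm_cj s (m * m')
    rw [e1] at this
    exact this.symm
  rcases ri_tri h.ris hm hm' with c | c | c
  · exact c
  swap
  · exact (h.fx_sp_false ha hm hm' o f c).elim
  obtain ⟨k, hk⟩ := c.2
  have tk : (m * m') ^ (2 * k + 1) = 1 := hk ▸ pow_orderOf_eq_one _
  generalize ht : m * m' = t at e1 f tk
  have cj : ∀ w ∈ h.JG ha, t * w * t⁻¹ ∈ h.JG ha := fun w hw =>
    ⟨h.fx_EG f hw.1, fun m => hw.2 ((ri_conj_iff h.ris).1 m)⟩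
  have z' := cj z ⟨hz, nz⟩
  have e2 : t * a * t⁻¹ = a * (t * z * t⁻¹) := by
    nth_rw 2 [← e1]
    simp [mul_assoc, ← mul_assoc z z, h.sq_EG hz]
  have key : ∀ n : ℕ, ∃ w ∈ h.JG ha, (a * t) ^ n = a ^ n * w * t ^ n := fun n => by
    induction n with
    | zero => exact ⟨1, one_mem _, by simp⟩
    | succ n ih =>
      obtain ⟨w, hw, ih⟩ := ih
      refine ⟨(t * z * t⁻¹) ^ n * (t * w * t⁻¹), mul_mem (pow_mem z' n) (cj w hw), ?_⟩
      rw [pow_succ', ih, pow_succ' a, pow_succ' t, mul_assoc a (a ^ n), ← mul_assoc (a ^ n),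
        ← (h.comm_EG z'.1 ha (Commute.refl a)).mul_pow, ← e2, conj_pow]
      simp only [mul_assoc, inv_mul_cancel_left]
  obtain ⟨w, hw, e3⟩ := key (2 * k + 1)
  rw [tk, mul_one, pow_succ a, pow_mul, pow_two, h.sq ha, one_pow, one_mul] at e3
  have s1 := h.J_sm (sm_refl ha) hw.1 hw.2
  have c1 : Commute (a * t) (a * w) := e3 ▸ (Commute.refl _).pow_right _
  have c2 : Commute t (a * w) := by
    have := (h.sm_comm s1 ha (Commute.refl a)).mul_left c1
    rwa [h.cancel ha] at this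
  refine (c.1 (mid_uniq (s1.oa hm o) (s1.oa hm' o') ?_)).elim
  have := c2.eq
  rw [← ht] at this
  calc m * (a * w) * m = m * (a * w * (m * m')) * m' := by simp only [mul_assoc, h.sq hm', mul_one]
    _ = _ := by rw [← this]; simp only [mul_assoc, h.cancel hm]

theorem far_false {s a v j : G} (hs : s ∈ D) (ha : a ∈ D) (far : ∀ w ∈ WSet D s, OA w a) (hv : v ∈ WSet D s)
    (hj : j ∈ EG D s) (nj : j ∉ D) : ¬ Commute (v * j) a := fun c => by
  by_cases s1 : Sm D s v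
  · have s2 := h.J_sm s1 hj nj
    exact h.not_oa s2.2.1 ha c (far _ (h.W_sm hs (h.selfW hs) s2))
  obtain ⟨e, s2, l⟩ := h.exists_col hs hv s1
  have s3 := h.J_sm s2 hj nj
  have m : e * v ∈ WSet D s := l.comm.eq ▸ h.W_mul hs hv s2.mem_EG l.symm.mul
  have e1 : v * j = e * j * (e * v) := by
    rw [(h.comm_EG hj l.left (h.sm_comm s2.symm l.left (Commute.refl e))).eq, mul_assoc, h.cancel l.left,
      (h.comm_EG hj hv.1 hv.2.1).eq]
  have := mid_uniq (far _ (h.W_sm hs (h.selfW hs) s3)).symm (far _ m).symm (by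
    rw [e1] at c
    calc e * j * a * (e * j) = e * j * (a * (e * j * (e * v))) * (e * v) := by
          rw [mul_assoc (e * j) a, mul_assoc (e * j) (a * _), mul_assoc a, mul_assoc (e * j) (e * v), h.sq m.1, mul_one]
      _ = _ := by rw [← c.eq, mul_assoc (e * j) (e * v), h.cancel s3.2.1])
  exact nj (mul_left_cancel this ▸ hv.1)

theorem claimB (rt : RT D) {s a z : G} (hs : s ∈ D) (ha : a ∈ D) (far : ∀ w ∈ WSet D s, OA w a) (hz : z ∈ EG D a)
    (nz : z ∉ D) : ∃ t ∈ EG D s, t ∉ D ∧ t * a * t = a * z := by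
  have o := (far s (h.selfW hs)).symm
  have s1 := h.J_sm (sm_refl ha) hz nz
  have hx := h.cj' ha (h.sq hs)
  obtain ⟨s', hs', o', e1⟩ := h.exists_mid s1.2.1 hx (s1.oa hx (oa_sq (h.sq ha) (h.sq hs) o))
  have c := h.claimA ha hz nz hs hs' o (s1.symm.oa hs' o') e1.symm
  have tt : s * s' * (s * s') = 1 := by rw [← pow_two, c.mul_pow, pow_two, pow_two, h.sq hs, h.sq hs', one_mul]
  have e2 : s * s' * (a * z) * (s * s') = a := by
    nth_rw 2 [c.eq]
    rw [show s * s' * (a * z) * (s' * s) = s * (s' * (a * z) * s') * s by simp only [mul_assoc], e1, cj_cj (h.sq hs)]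
  have e3 : s * s' * a * (s * s') = a * z := by nth_rw 1 [← e2]; exact cj_cj tt _
  have sW := rt s hs s' hs' c.symm
  have nt : s * s' ∉ D := fun m => h.not_oa m ha (h.comm_of_fx m (by rw [fx_iff tt, e3]; exact s1))
    (far _ (h.W_of_NG (mul_mem (mem_NG (h.selfW hs)) (mem_NG sW)) m))
  by_cases s2 : Sm D s s'
  · exact ⟨_, mul_mem (self_mem_EG hs) s2.mem_EG, nt, e3⟩
  exfalso
  obtain ⟨p, hp, hd, nj⟩ := h.shear hs sW s2 (self_mem_EG hs)
  have hj := mul_mem (self_mem_EG hs) hp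
  have jj := h.sq_EG hj
  have e4 : s' * p = s * s' * (s * p) := by rw [c.eq, mul_assoc, h.cancel hs]
  have dW := h.W_mul hs sW hp hd
  generalize s * p = j at hj jj e4 nj
  generalize s' * p = d at hd dW e4
  have c1 : Commute (s * s') j := (h.comm_EG hj hs (Commute.refl s)).mul_left (h.comm_EG hj hs' c.symm)
  have e5 : d * (a * z) * d = j * a * j := by
    nth_rw 1 [e4, c1.eq]
    rw [e4, mul_assoc j, mul_assoc j, ← mul_assoc _ (s * s') j, e2, mul_assoc]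
  have hy := h.cj' ha jj
  have od := (far d dW).symm
  obtain ⟨m, hm, om, e6⟩ := h.exists_mid ha hy
    (h.sm_oa' (e5 ▸ h.sm_cj' s1 (h.sq hd)) ha (oa_sq (h.sq ha) (h.sq hd) od))
  have c2 := h.claimA ha hz nz hm hd om od (e6.trans e5.symm)
  have c3 : j * m * j = m := by
    have o1 := oa_cj jj (oa_cj (h.sq hm) om)
    rw [e6, cj_cj jj, h.sq hm, one_mul] at o1
    refine mid_uniq o1 om ?_
    rw [e6, show j * m * j * a * (j * m * j) = j * (m * (j * a * j) * m) * j by simp only [mul_assoc], ← e6,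
      cj_cj (h.sq hm), e6]
  have c4 : Commute j m := by
    show j * m = m * j
    nth_rw 2 [← c3]
    rw [mul_assoc _ j j, jj, mul_one]
  by_cases c5 : Commute s m
  · refine h.far_false hs ha far (rt s hs m hm c5.symm) hj nj ?_
    refine mul_inv_eq_iff_eq_mul.1 ?_
    rw [mul_inv_rev, h.inv hm, inv_eq_of_mul_eq_one_right jj, show m * j * a * (j * m) = m * (j * a * j) * m by
      simp only [mul_assoc], ← e6, cj_cj (h.sq hm)]
  · have mW := rt d hd m hm c2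
    have sW' := h.W_symm hs dW
    have e7 := h.sp_W sW' mW c5
    have k := h.ker_EG hs hm e7 hj c4
    rw [← (h.nice hd sW' mW e7).EG_eq] at k
    have := (h.J_sm (sm_refl hd) k nj).2.1
    rw [e4, mul_assoc, jj, mul_one] at this
    exact nt this

theorem J_fx_far (rt : RT D) {s a j : G} (hs : s ∈ D) (ha : a ∈ D) (far : ∀ w ∈ WSet D s, OA w a) (hj : j ∈ EG D s)
    (nj : j ∉ D) : Fx D j a := by
  choose t h1 h2 h3 using fun z : h.JG ha => h.claimB rt hs ha far z.2.1 z.2.2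
  obtain ⟨g, hg⟩ := h.exists_cj hs ha
  let τ : h.JG ha → h.JG hs := fun z => ⟨t z, h1 z, h2 z⟩
  let σ : h.JG hs → h.JG ha := fun z => ⟨g * z * g⁻¹, h.EG_cj (hg ▸ sm_refl ha) z.2.1,
    fun m => z.2.2 ((ri_conj_iff h.ris).1 m)⟩
  have i1 : Function.Injective τ := fun z w e => by
    have := h3 z
    rw [show t z = t w from congrArg Subtype.val e, h3 w] at this
    exact Subtype.ext (mul_left_cancel this).symm
  have i2 : Function.Injective σ := fun z w e => by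
    have := congrArg Subtype.val e
    exact Subtype.ext (by simpa [σ] using this)
  obtain ⟨z, hz⟩ := (Finite.injective_iff_surjective.1 (i2.comp i1)) (σ ⟨j, hj, nj⟩)
  have e : t z = j := congrArg Subtype.val (i2 hz)
  rw [fx_iff (h.sq_EG hj), ← e, h3]
  exact h.J_sm (sm_refl ha) z.2.1 z.2.2

theorem hee (hO : pCore 2 G = ⊥) : HEE D := by
  refine h.hee_of hO fun a ha x hx e z hz nz => ?_
  by_cases near : ∃ b ∈ WSet D a, ¬ OA b x
  · obtain ⟨b, hb, nb⟩ := near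
    exact h.J_fx_near ha hx e hb nb hz nz
  · refine h.J_fx_far (by_contra fun n => near (h.allNear_of_not_RT n a ha x hx e)) ha hx (fun w hw => ?_) hz nz
    exact by_contra fun k => near ⟨w, hw, k⟩

end ND

end Cfsg.Agent.Lib.Root
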