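import Cfsg.Agent.Lib.Root.RI4

set_option autoImplicit false
set_option linter.unusedSectionVars false

/-! # Non-degenerate root involutions of rank two: lines -/

namespace Cfsg.Agent.Lib.Root

open Cfsg Cfsg.Agent.Lib.Invol Subgroup
open scoped commutatorElement

variable {G : Type*} [Group G] [Finite G] {D : Set G}

/-- the rank two case -/
structure HX (D : Set G) : Prop extends ND D where
  rt : RT D
  he : HEE D

omit [Finite G] in
theorem mid_mem {a m : G} {U : Subgroup G} (ha : a * a = 1) (o : OA a m) (h1 : a ∈ U) (h2 : m * a * m ∈ U) : m ∈ U := by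
  obtain ⟨k, hk⟩ := o.2
  have e : m = a * (a * (m * a * m)) ^ (k + 1) := by
    rw [show a * (m * a * m) = (a * m) ^ 2 by simp [pow_two, mul_assoc], ← pow_mul,
      show 2 * (k + 1) = orderOf (a * m) + 1 by omega, pow_succ, pow_orderOf_eq_one, one_mul, ← mul_assoc, ha, one_mul]
  rw [e]
  exact mul_mem h1 (pow_mem (mul_mem h1 h2) _)

omit [Finite G] in
theorem comm_of_cj {g x : G} (hg : g * g = 1) (e : g * x * g = x) : Commute g x := by
  show g * x = x * g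
  nth_rw 2 [← e]
  rw [mul_assoc _ g g, hg, mul_one]

namespace HX

variable (h : HX D)
include h

theorem sm_of_ne {a n : G} (ha : a ∈ D) (hn : n ∈ EG D a) (h1 : n ≠ 1) : Sm D a n :=
  h.sm_of_EG ha hn ((h.he a ha n hn).resolve_left h1)

theorem eq_one_J {a n : G} (ha : a ∈ D) (hn : n ∈ EG D a) (h1 : n ∉ D) : n = 1 := (h.he a ha n hn).resolve_right h1

theorem line_mem {u v p : G} (hu : u ∈ D) (hv : v ∈ WSet D u) (hn : ¬ Sm D u v) (hp : p ∈ EG D u) : v * p ∈ D := by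
  obtain ⟨p', hp', m, nj⟩ := h.shear hu hv hn hp
  rwa [eq_inv_of_mul_eq_one_right (h.eq_one_J hu (mul_mem hp hp') nj), inv_eq_of_mul_eq_one_right (h.sq_EG hp)] at m

theorem line_W {u v p : G} (hu : u ∈ D) (hv : v ∈ WSet D u) (hn : ¬ Sm D u v) (hp : p ∈ EG D u) : v * p ∈ WSet D u :=
  h.W_mul hu hv hp (h.line_mem hu hv hn hp)

theorem mul_mem_D {a b : G} (ha : a ∈ D) (hb : b ∈ D) (c : Commute a b) (hn : a ≠ b) : a * b ∈ D := by
  by_cases s : Sm D b a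
  · exact (h.sm_of_ne hb (mul_mem s.mem_EG (self_mem_EG hb)) fun e => hn (ri_eq_of_mul h.ris ha e)).2.1
  · exact h.line_mem hb (h.rt b hb a ha c) s (self_mem_EG hb)

theorem EG_inter {a b z : G} (ha : a ∈ D) (hb : b ∈ D) (hn : ¬ Sm D a b) (h1 : z ∈ EG D a) (h2 : z ∈ EG D b) : z = 1 :=
  h.eq_one_J ha h1 (h.J_inter ha hb hn h1 h2)

theorem eq_one_sp {a c p : G} (ha : a ∈ D) (hc : c ∈ D) (e : Sp a c) (hp : p ∈ EG D a) (k : Commute p c) : p = 1 :=
  by_contra fun n => have s := h.sm_of_ne ha hp n; h.not_sp s.2.1 hc k (h.sm_sp s hc e)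

theorem eq_one_fx {a c p : G} (ha : a ∈ D) (hc : c ∈ D) (e : Sp a c) (hp : p ∈ EG D a) (k : Fx D p c) : p = 1 :=
  by_contra fun n => n (h.eq_one_sp ha hc e hp (h.comm_of_fx (h.sm_of_ne ha hp n).2.1 k))

theorem nsm {a b c : G} (ha : a ∈ WSet D b) (e : Sp a c) (hc : c ∈ WSet D b) : ¬ Sm D b a :=
  h.not_sm_of_sp hc.1 hc.2.1 e

theorem shear_surj {a b c e : G} (hb : b ∈ D) (ha : a ∈ WSet D b) (hc : c ∈ WSet D b) (s : Sp a c) (he : e ∈ EG D b) :
    ∃ p ∈ EG D a, cm p c = e := by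
  obtain ⟨v, q⟩ := h.exists_nq ha.1 hc.1 s
  have s1 := h.nice hb ha hc s
  rw [s1.EG_eq] at he
  have j := h.nq_J q he
  have := h.EG_inter ha.1 q.hf (fun t => h.nsm ha s hc (s1.trans t.symm)) j.1 j.2
  exact ⟨_, h.nq_cm q he, by rw [eq_inv_of_mul_eq_one_right this, inv_eq_of_mul_eq_one_right (h.sq_EG he)]⟩

theorem exists_sp {b w : G} (hb : b ∈ D) (hw : w ∈ WSet D b) (hn : ¬ Sm D b w) : ∃ f ∈ WSet D b, Sp w f := by
  obtain ⟨f, l, e⟩ := h.exists_f hb hw hn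
  exact ⟨f, h.colW l, e⟩

/-- no planes -/
theorem np {b w w' : G} (hb : b ∈ D) (hw : w ∈ WSet D b) (hn : ¬ Sm D b w) (hw' : w' ∈ WSet D b) (c : Commute w' w) :
    ∃ e ∈ EG D b, ∃ p ∈ EG D w, w' = e * p := by
  by_contra k
  obtain ⟨f, hf, e⟩ := h.exists_sp hb hw hn
  obtain ⟨t, ht, nt, c1, c2⟩ := h.plane_adj ⟨hb, hw, hn, hw', h.rt w hw.1 w' hw'.1 c,
    fun e he p hp e1 => k ⟨e, he, p, hp, e1⟩⟩ hf (h.nsm hf e.symm hw)
  exact nt ((h.nice hb hw hf e).trans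
    (h.nice ht.1 (h.rt t ht.1 w hw.1 c2.symm) (h.rt t ht.1 f hf.1 c1.symm) e).symm)

theorem comm_trans {b w w' w'' : G} (hb : b ∈ D) (hw : w ∈ WSet D b) (hw' : w' ∈ WSet D b) (hn : ¬ Sm D b w')
    (hw'' : w'' ∈ WSet D b) (c : Commute w w') (c' : Commute w' w'') : Commute w w'' := by
  obtain ⟨e, he, p, hp, rfl⟩ := h.np hb hw' hn hw c
  exact (h.comm_EG he hw''.1 hw''.2.1).symm.mul_left (h.comm_EG hp hw''.1 c'.symm).symm

theorem sp_line {b w w' c : G} (hb : b ∈ D) (hw : w ∈ WSet D b) (hw' : w' ∈ WSet D b) (hn : ¬ Sm D b w')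
    (hc : c ∈ WSet D b) (k : Commute w w') (e : Sp w c) : Sp w' c :=
  h.sp_W hw' hc fun k' => h.not_sp hw.1 hc.1 (h.comm_trans hb hw hw' hn hc k k') e

theorem cent_EG {a b g p : G} (hb : b ∈ D) (ha : a ∈ WSet D b) (hn : ¬ Sm D b a) (hg : g ∈ NG D b) (c : Commute g a)
    (hp : p ∈ EG D a) : Commute g p :=
  commutatorElement_eq_one_iff_commute.1 (h.EG_inter hb ha.1 hn (h.cmt_mem hb hg (h.EG_le' hb ha hp))
    (mul_mem (h.fx_EG (fx_of_comm ha.1 c) hp) (inv_mem hp)))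

theorem cj_NG {a g u : G} (ha : a ∈ D) (hg : g ∈ NG D a) (hu : u ∈ WSet D a) : ∃ e ∈ EG D a, g * u * g⁻¹ = u * e := by
  refine ⟨⁅u⁻¹, g⁆, h.cmt_mem ha (inv_mem (mem_NG hu)) hg, ?_⟩
  rw [commutatorElement_def, inv_inv, h.inv hu.1]
  simp only [← mul_assoc, h.sq hu.1, one_mul]

theorem uq {a b w w' : G} (hb : b ∈ D) (ha : a ∈ WSet D b) (hw : w ∈ WSet D b) (hw' : w' ∈ WSet D b) (e : Sp a w)
    (e' : Sp a w') (m : w * w' ∈ NG D a) : ∃ p ∈ EG D b, w' = w * p := by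
  have bW := h.W_symm hb ha
  obtain ⟨u, hu, e1⟩ := h.exists_sp ha.1 bW fun s => h.nsm ha e hw s.symm
  obtain ⟨k, hk, e2⟩ := h.cj_NG ha.1 m hu
  obtain ⟨p, hp, e3⟩ := h.shear_surj ha.1 bW hu e1 hk
  have wp := h.line_W hb hw (h.nsm hw e.symm ha) hp
  have c := h.comm_EG hp hw.1 hw.2.1
  have e4 : Sp a (w * p) := h.sp_W ha wp fun k => h.not_sp ha.1 hw.1 (by
    simpa [mul_assoc, h.sq_EG hp] using k.mul_right (h.comm_EG hp ha.1 ha.2.1)) e
  refine ⟨p, hp, mid_uniq (h.oa_path' ha.1 bW hu hw' e1.symm e') (h.oa_path' ha.1 bW hu wp e1.symm e4) ?_⟩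
  rw [mul_inv_rev, h.inv hw.1, h.inv hw'.1, ← e3, cm_comm (h.sq hu.1) (h.sq_EG hp) (by
    rw [cm_comm (h.sq_EG hp) (h.sq hu.1) (e3 ▸ h.sq_EG hk), e3]; exact h.sq_EG hk), ← conj_eq_cm (h.sq hu.1)] at e2
  nth_rw 2 [c.eq]
  calc w' * u * w' = w * (w * w' * u * (w' * w)) * w := by simp only [mul_assoc, h.cancel hw.1, h.sq hw.1, mul_one]
    _ = _ := by rw [e2]; simp only [mul_assoc]

theorem pt_trans {a a' b c : G} (hb : b ∈ D) (ha : a ∈ WSet D b) (ha' : a' ∈ WSet D b) (hn : ¬ Sm D b a')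
    (k : Commute a a') (hc : c ∈ WSet D b) (e : Sp a c) : ∃ r ∈ EG D c, Sm D a (r * a' * r) := by
  obtain ⟨x, hx, p, hp, e1⟩ := h.np hb ha (h.nsm ha e hc) ha' k.symm
  obtain ⟨r, hr, e2⟩ := h.shear_surj hb hc ha' (h.sp_line hb ha ha' hn hc k e).symm hx
  refine ⟨r, hr, h.sm_of_EG ha.1 ?_ (h.cj' ha'.1 (h.sq_EG hr))⟩
  rw [conj_eq_cm (h.sq ha'.1), cm_comm (h.sq_EG hr) (h.sq ha'.1) (e2 ▸ h.sq_EG hx), e2,
    (h.comm_EG hx ha'.1 ha'.2.1).eq, e1, ← mul_assoc, h.sq_EG hx, one_mul]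
  exact hp

theorem NG_line {a b b' g : G} (hb : b ∈ D) (ha : a ∈ WSet D b) (hb' : b' ∈ WSet D b) (hn : ¬ Sm D b b')
    (k : Commute a b') (h1 : g ∈ NG D b) (h2 : g ∈ NG D b') : g ∈ NG D a := by
  by_cases s : Sm D b a
  · exact h.NG_eq s ▸ h1
  obtain ⟨c, hc, e⟩ := h.exists_sp hb ha s
  obtain ⟨r, hr, s1⟩ := h.pt_trans hb ha hb' hn k hc e
  have rr := inv_eq_of_mul_eq_one_right (h.sq_EG hr)
  have m := h.NG_cj (g := r) (by rw [rr]; exact s1.symm) h2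
  have m2 := h.EG_le' ha.1 (h.W_symm hb ha) (h.cmt_mem hb (h.EG_le' hb hc hr) h1)
  simpa [commutatorElement_def, mul_assoc] using mul_mem (inv_mem m2) m

theorem cj_eq {a b g u : G} (ha : a ∈ D) (hb : b ∈ WSet D a) (hu : u ∈ WSet D a) (e : Sp u b) (c : Commute g b)
    (c1 : ∀ p ∈ EG D a, Commute g p) (k : Commute (g * u * g⁻¹) u) : ∃ r ∈ EG D b, Commute (r * g) u := by
  have c0 := c1 a (self_mem_EG ha)
  have uW := wset_conj' h.ris hu c0
  obtain ⟨x, hx, p, hp, e1⟩ := h.np ha hu (h.nsm hu e hb) uW k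
  have cE : ∀ z ∈ EG D u, cm z b ∈ EG D a := fun z hz =>
    h.cm_EG ha (h.EG_le' ha hu hz) (mem_NG hb) (h.sq_EG hz) (h.sq hb.1)
  have s := cE u (self_mem_EG hu.1)
  have e2 : cm p b = cm u b := by
    have := cm_conj u b g
    rw [(c1 _ s).eq, mul_inv_cancel_right, c.eq, mul_inv_cancel_right, e1, cm_mul (h.sq hb.1)
      (h.comm_EG2 ha hu.1 hu.2.1.symm hx hp) (h.comm_EG2 ha ha (Commute.refl a) hx (cE p hp)),
      (cm_eq_one (h.sq_EG hx) (h.sq hb.1)).2 (h.comm_EG hx hb.1 hb.2.1).symm, mul_one] at this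
    exact this.symm
  have up := mul_mem (self_mem_EG hu.1) hp
  have e3 := h.eq_one_sp hu.1 hb.1 e up (by
    rw [← cm_eq_one (h.sq_EG up) (h.sq hb.1), cm_mul (h.sq hb.1) (h.comm_EG hp hu.1 (Commute.refl u))
      (h.comm_EG (cE p hp) hu.1 hu.2.1), e2, h.sq_EG s])
  rw [eq_inv_of_mul_eq_one_right e3, h.inv hu.1] at e1
  obtain ⟨r, hr, e4⟩ := h.shear_surj ha hb hu e.symm hx
  refine ⟨r, hr, mul_inv_eq_iff_eq_mul.1 ?_⟩
  have rr := h.sq_EG hr
  rw [mul_inv_rev, inv_eq_of_mul_eq_one_right rr, show r * g * u * (g⁻¹ * r) = r * (g * u * g⁻¹) * r by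
    simp only [mul_assoc], e1, cj_mul rr, cj_of_comm rr (h.comm_EG2 hb.1 ha hb.2.1 hr hx), conj_eq_cm (h.sq hu.1),
    cm_comm rr (h.sq hu.1) (e4 ▸ h.sq_EG hx), e4, (h.comm_EG hx hu.1 hu.2.1).eq, ← mul_assoc, h.sq_EG hx, one_mul]

theorem k1 {a b g u : G} (ha : a ∈ D) (hb : b ∈ WSet D a) (hu : u ∈ WSet D a) (e : Sp u b) (hg : g ∈ NG D b)
    (c : Commute g a) (k : Commute (g * u * g⁻¹) u) : g ∈ NG D a := by
  have aW := h.W_symm ha hb
  have hn : ¬ Sm D b a := fun s => h.nsm hb e.symm hu s.symm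
  obtain ⟨r, hr, c1⟩ := h.cj_eq ha hb hu e (commute_of_mem_wclosure hg) (fun p hp => h.cent_EG hb.1 aW hn hg c hp) k
  have m := mul_mem (h.EG_le hb.1 hr) hg
  have hb' := h.cj hb.1 u
  have m2 := h.NG_cj (sm_refl hb') m
  rw [← c1.eq, mul_inv_cancel_right] at m2
  have l : Col D b (u * b * u⁻¹) := by
    rw [h.inv hu.1, conj_eq_cm (h.sq hb.1)]; exact (h.col hb.1 hu.1 e.symm).third h.ris
  have := h.NG_line hb.1 aW (h.colW l) (fun s => h.not_sp hu.1 hb.1 (h.comm_of_fx hu.1 s) e)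
    ((hu.2.1.symm.mul_right hb.2.1.symm).mul_right hu.2.1.symm.inv_right) m m2
  exact (mul_mem_cancel_left (h.EG_le' ha hb hr)).1 this

/-- transitivity on the lines through `a` different from `a b` -/
theorem tr {a b u u' : G} (ha : a ∈ D) (hb : b ∈ WSet D a) (hu : u ∈ WSet D a) (hu' : u' ∈ WSet D a) (e : Sp u b)
    (e' : Sp u' b) : ∃ g ∈ NG D b, Commute g a ∧ Commute (g * u * g⁻¹) u' := by
  obtain ⟨x, q⟩ := h.exists_nq' hu.1 hb.1 e
  have s := h.nice ha hu hb e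
  obtain ⟨p, hp, e1⟩ := h.shear_surj ha hu' hb e' s.mem_EG
  generalize cm u b = α at q s e1
  have hn : ¬ Sm D b α := fun t => h.nsm hb e.symm hu (s.trans t.symm)
  let C := {c // c ∈ WSet D b ∧ cm α c = b}
  let U := {w // w ∈ WSet D α ∧ cm b w = α}
  have αW := h.nq_dW q
  have bW := h.nq_fW q
  have uW := h.nq_cW q
  have xW := h.nq_yW q
  have cc : ∀ c : C, Commute (x * c) α := fun c => mul_inv_eq_iff_eq_mul.1 (by
    rw [mul_inv_rev, h.inv q.hy, h.inv c.2.1.1, show x * c * α * (c * x) = x * (c * α * c) * x by simp only [mul_assoc],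
      conj_eq_cm (h.sq q.hd), c.2.2, cj_mul (h.sq q.hy), conj_eq_cm (h.sq q.hd), q.e2, cj_of_comm (h.sq q.hy) xW.2.1,
      mul_assoc, h.sq q.hf, mul_one])
  have cb : ∀ c : C, Commute (x * c) b := fun c => xW.2.1.mul_left c.2.1.2.1
  have eu : cm b u = α := (h.cm_swap q.hc q.hf q.cf).trans q.e1
  let φ : C → U := fun c => ⟨x * c * u * (x * c)⁻¹, wset_conj' h.ris uW (cc c), by
    have := cm_conj b u (x * c)
    rw [eu, (cc c).eq, (cb c).eq, mul_inv_cancel_right, mul_inv_cancel_right] at this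
    exact this.symm⟩
  have nn := h.sq (h.nq_n q)
  have ni := h.inv (h.nq_n q)
  let ψ : U → C := fun w => ⟨u * x * u * w * (u * x * u)⁻¹,
    h.W_cj (by rw [ni, (h.nq_swap q).2.1]; exact sm_refl q.hf) w.2.1, by
      have := cm_conj b w (u * x * u)
      rw [w.2.2, ni, (h.nq_swap q).2.1, (h.nq_swap q).2.2.1] at this
      rw [ni]; exact this.symm⟩
  have i1 : Function.Injective φ := fun c c' k => by
    have k := congrArg Subtype.val k
    have o : ∀ c : C, OA u c := fun c => h.oa_path' q.hd bW uW c.2.1 e (h.sp_W αW c.2.1 fun k => h.ne_one q.hf (by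
      rw [← c.2.2, cm_eq_one (h.sq q.hd) (h.sq c.2.1.1)]; exact k))
    refine Subtype.ext (mid_uniq (o c) (o c') ?_)
    simp only [φ, mul_inv_rev, h.inv c.2.1.1, h.inv c'.2.1.1, mul_assoc, mul_right_inj] at k
    simpa only [← mul_assoc, mul_left_inj] using k
  have i2 : Function.Injective ψ := fun w w' k => by
    have := congrArg Subtype.val k
    exact Subtype.ext (by simpa [ψ] using this)
  have s1 := h.sm_of_ne hu'.1 hp fun k => h.ne_one q.hd (by rw [← e1, k, cm_one _ (h.sq hb.1)])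
  obtain ⟨c, hc⟩ := (Finite.injective_iff_surjective.1 (i2.comp i1)) (ψ ⟨p, h.W_eq s ▸ h.W_sm ha hu' s1, by
    rw [cm_comm (h.sq_EG hp) (h.sq hb.1) (by rw [e1]; exact h.sq q.hd), e1]⟩)
  have k : x * c * u * (x * c)⁻¹ = p := congrArg Subtype.val (i2 hc)
  have m := mul_mem (mem_NG xW) (mem_NG c.2.1)
  exact ⟨_, m, h.cent_EG hb.1 αW hn m (cc c) s.symm.mem_EG, k ▸ (h.comm_EG hp hu'.1 (Commute.refl _)).symm⟩

theorem lemM {a m m' : G} (ha : a ∈ D) (hm : m ∈ D) (hm' : m' ∈ D) (o : OA a m) (o' : OA a m')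
    (s : Sm D (m * a * m) (m' * a * m')) (hn : m ≠ m') : OA m m' := by
  have f : Fx D (m * m') a := by
    have := h.sm_cj' s (h.sq hm)
    rw [cj_cj (h.sq hm)] at this
    simpa [Fx, h.inv hm, h.inv hm', mul_assoc] using this
  rcases ri_tri h.ris hm hm' with c | c | c
  · refine (hn (mid_uniq o o' ?_)).elim
    have := (h.comm_of_fx (h.mul_mem_D hm hm' c hn) f).eq
    calc m * a * m = m * (a * (m * m')) * m' := by simp only [mul_assoc, h.sq hm', mul_one]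
      _ = _ := by rw [← this]; simp only [mul_assoc, h.cancel hm]
  · exact c
  · exact (h.fx_sp_false ha hm hm' o f c).elim

/-- a line through `s` has at most one point not opposite to `x` -/
theorem up {s x w w' : G} (hs : s ∈ D) (hx : x ∈ D) (o : OA s x) (hw : w ∈ WSet D s) (hw' : w' ∈ WSet D s)
    (c : Commute w w') (n : ¬ OA w x) (n' : ¬ OA w' x) : Sm D w w' := by
  by_contra k
  have e := h.sp_of_near hs hx o hw n
  have l := h.col hw.1 hx e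
  have m := h.rt w hw.1 w' hw'.1 c.symm
  have c1 : Commute w' (cm w x) := by_contra fun c1 =>
    n' (h.oa_path hw.1 hx e m (h.sp_W m (h.colW l) c1))
  exact h.not_sp hs l.right (h.comm_trans hw.1 (h.W_symm hs hw) m k (h.colW l) hw'.2.1.symm c1)
    (h.sp_cm hs hx o hw.1 hw.2.1 e)

theorem fix_uniq {s k g w w' : G} (hs : s ∈ D) (hk : k ∈ WSet D s) (fk : Fx D g k)
    (fp : ∀ p ∈ EG D k, Commute g p → p = 1) (hw : w ∈ WSet D s) (hw' : w' ∈ WSet D s) (hn : ¬ Sm D s w')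
    (c : Commute w w') (e : Sp w k) (f : Fx D g w) (f' : Fx D g w') : Sm D w w' := by
  obtain ⟨r, hr, s1⟩ := h.pt_trans hs hw hw' hn c hk e
  have rr := h.sq_EG hr
  have r' := h.fx_EG fk hr
  have f1 : Fx D (r * (g * r * g⁻¹)) w' := by
    have f2 := h.fx_cj (h.fx_congr s1 f) r
    rw [inv_eq_of_mul_eq_one_right rr, cj_cj rr] at f2
    simpa [mul_assoc] using h.fx_mul f2 (h.fx_inv f')
  have := h.eq_one_fx hk.1 hw'.1 (h.sp_line hs hw hw' hn hk c e).symm (mul_mem hr r') f1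
  rw [fp r hr (mul_inv_eq_iff_eq_mul.1 ((eq_inv_of_mul_eq_one_right this).trans (inv_eq_of_mul_eq_one_right rr)))] at s1
  simpa using s1

theorem fix_exists {s k g w : G} (hs : s ∈ D) (fs : Fx D g s) (hk : k ∈ WSet D s) (fk : Fx D g k)
    (fp : ∀ p ∈ EG D k, Commute g p → p = 1) (hw : w ∈ WSet D s) (e : Sp w k) (c : Commute (g * w * g⁻¹) w) :
    ∃ r ∈ EG D k, Fx D g (r * w * r) := by
  have gW := h.W_cj (Sm.symm fs) hw
  have e1 : Sp (g * w * g⁻¹) k := (h.sm_sp (Sm.symm fk) gW.1 (e.conj g).symm).symm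
  obtain ⟨p, hp, s1⟩ := h.pt_trans hs gW hw (h.nsm hw e hk) c hk e1
  let φ : EG D k → EG D k := fun r => ⟨r * (g * r * g⁻¹), mul_mem r.2 (h.fx_EG fk r.2)⟩
  have i : Function.Injective φ := fun r r' t => by
    have t : (r : G) * (g * r * g⁻¹) = r' * (g * r' * g⁻¹) := congrArg Subtype.val t
    have := fp _ (mul_mem r'.2 r.2) (mul_inv_eq_iff_eq_mul.1 (by
      calc g * (r' * r) * g⁻¹ = (g * r' * g⁻¹) * r * (r * (g * r * g⁻¹)) := by
            simp only [mul_assoc, ← mul_assoc (r : G) r, h.sq_EG r.2, one_mul, inv_mul_cancel_left]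
        _ = _ := by
          rw [t, (h.comm_EG2 hk.1 hk.1 (Commute.refl k) (h.fx_EG fk r'.2) r.2).eq, mul_assoc (r : G),
            (h.comm_EG2 hk.1 hk.1 (Commute.refl k) r'.2 (h.fx_EG fk r'.2)).eq, ← mul_assoc (g * r' * g⁻¹),
            h.sq_EG (h.fx_EG fk r'.2), one_mul, (h.comm_EG2 hk.1 hk.1 (Commute.refl k) r.2 r'.2).eq]))
    exact Subtype.ext ((eq_inv_of_mul_eq_one_right this).trans (inv_eq_of_mul_eq_one_right (h.sq_EG r'.2)))
  obtain ⟨r, hr⟩ := Finite.injective_iff_surjective.1 i ⟨p, hp⟩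
  have hr : (r : G) * (g * r * g⁻¹) = p := congrArg Subtype.val hr
  refine ⟨r, r.2, ?_⟩
  have r' := h.fx_EG fk r.2
  have := (h.sm_cj' s1 (h.sq_EG r')).symm
  nth_rw 1 [← hr, (h.comm_EG2 hk.1 hk.1 (Commute.refl k) r.2 r').eq] at this
  rw [← hr] at this
  simpa [Fx, mul_assoc, ← mul_assoc (r : G) r, h.sq_EG r.2] using this

end HX

end Cfsg.Agent.Lib.Root
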