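import Cfsg.Agent.Lib.Root.RI5
import Cfsg.Agent.Lib.Root.Conj

set_option autoImplicit false
set_option linter.unusedSectionVars false

/-! # Non-degenerate root involutions of rank two: the factorisation of `N_b` -/

namespace Cfsg.Agent.Lib.Root

open Cfsg Cfsg.Agent.Lib.Invol Subgroup
open scoped commutatorElement

variable {G : Type*} [Group G] [Finite G] {D : Set G}

/-- more than three points on a line -/
def Q3 (D : Set G) : Prop := ∀ a ∈ D, ∃ s, Sm D a s ∧ s ≠ a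

/-- no element of `N_a ∩ N_b` centralising `u` moves a line through `u` -/
def NoS (D : Set G) (a : G) : Prop :=
  ∀ b ∈ WSet D a, ∀ u ∈ WSet D a, Sp u b → ∀ g ∈ NG D a, g ∈ NG D b → Commute g u → g ∈ NG D u

omit [Finite G] in
theorem parity {α : Type*} [Finite α] (f g : α → α) (hf : ∀ x, f (f x) = x) (hg : ∀ x, g (g x) = x)
    (h1 : ∀ x, f x ≠ x) {y : α} (h2 : ∀ x, g x = x ↔ x = y) : False := by
  classical
  have := Fintype.ofFinite α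
  have k : ∀ f : Function.End α, (∀ x, f (f x) = x) → Fintype.card α ≡ Nat.card f.fixedPoints [MOD 2] :=
    fun f hf => by rw [Nat.card_eq_fintype_card]; exact Equiv.Perm.card_fixedPoints_modEq (n := 1) (funext hf)
  have k1 := k f hf
  have k2 := k g hg
  rw [(Nat.card_eq_zero (α := f.fixedPoints)).2 (.inl ⟨fun x => h1 x.1 x.2⟩)] at k1
  rw [(Nat.card_eq_one_iff_exists (α := g.fixedPoints)).2
    ⟨⟨y, (h2 y).2 rfl⟩, fun x => Subtype.ext ((h2 x).1 x.2)⟩] at k2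
  exact absurd (k1.symm.trans k2) (by decide)

namespace HX

variable (h : HX D)
include h

theorem adj {a b u g : G} (ha : a ∈ D) (hb : b ∈ WSet D a) (hu : u ∈ WSet D a) (e : Sp u b) (hg : g ∈ NG D a) :
    ∃ p ∈ EG D b, Commute (p * g) u := by
  obtain ⟨x, hx, e1⟩ := h.cj_NG ha hg hu
  obtain ⟨r, hr, e4⟩ := h.shear_surj ha hb hu e.symm hx
  refine ⟨r, hr, mul_inv_eq_iff_eq_mul.1 ?_⟩
  have rr := h.sq_EG hr
  rw [mul_inv_rev, inv_eq_of_mul_eq_one_right rr, show r * g * u * (g⁻¹ * r) = r * (g * u * g⁻¹) * r by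
    simp only [mul_assoc], e1, cj_mul rr, cj_of_comm rr (h.comm_EG2 hb.1 ha hb.2.1 hr hx), conj_eq_cm (h.sq hu.1),
    cm_comm rr (h.sq hu.1) (e4 ▸ h.sq_EG hx), e4, mul_assoc, h.sq_EG hx, mul_one]

theorem NG_norm {a g n : G} (ha : a ∈ D) (c : Commute g a) (hn : n ∈ NG D a) : g * n * g⁻¹ ∈ NG D a :=
  h.NG_cj (Sm.symm (fx_of_comm ha c)) hn

theorem cp {v a b s r : G} (q : Nq D v a b s) (hr : r ∈ NG D a) (c : Commute r b) :
    r⁻¹ * s * r * s ∈ NG D b ∧ Commute (r⁻¹ * s * r * s) a ∧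
    r * (v * (r⁻¹ * s * r * s) * v) * (r⁻¹ * s * r * s)⁻¹ ∈ NG D a ⊓ NG D b ∧
    (v * s * v) * r * (v * s * v) * (r⁻¹ * s * r * s)⁻¹ ∈ NG D a := by
  have sW := h.nq_yW q
  have aW := h.nq_dW q
  have vW := h.nq_cW q
  have ca : Commute r a := commute_of_mem_wclosure hr
  have XW : r⁻¹ * s * r ∈ WSet D b := by simpa using wset_conj' h.ris sW c.inv_left
  have m1 := mul_mem (mem_NG XW) (mem_NG sW)
  have e1 : s * a * s = a * b := by rw [conj_eq_cm (h.sq q.hd), q.e2]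
  have e2 : r⁻¹ * s * r * a * (r⁻¹ * s * r) = a * b := by
    rw [show r⁻¹ * s * r * a * (r⁻¹ * s * r) = r⁻¹ * (s * (r * a * r⁻¹) * s) * r by simp only [mul_assoc], ca.eq,
      mul_inv_cancel_right, e1, (ca.mul_right c).inv_left.eq, inv_mul_cancel_right]
  have c1 : Commute (r⁻¹ * s * r * s) a := by
    generalize r⁻¹ * s * r = X at XW e2
    refine mul_inv_eq_iff_eq_mul.1 ?_
    rw [mul_inv_rev, h.inv q.hy, h.inv XW.1, show X * s * a * (s * X) = X * (s * a * s) * X by simp only [mul_assoc],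
      e1, cj_mul (h.sq XW.1), e2, cj_of_comm (h.sq XW.1) XW.2.1, mul_assoc, h.sq q.hf, mul_one]
  have e3 : s * r * s = r * (r⁻¹ * s * r * s) := by simp only [mul_assoc, mul_inv_cancel_left]
  generalize r⁻¹ * s * r * s = μ at m1 c1 e3 ⊢
  obtain ⟨e, he, e4⟩ : ∃ e ∈ EG D a, v * r * v = e * r :=
    ⟨⁅v, r⁆, h.cmt_mem q.hd (mem_NG vW) hr, by simp [commutatorElement_def, h.inv q.hc]⟩
  have nn := h.inv (h.nq_n q)
  have m2 : v * s * v * r * (v * s * v) ∈ NG D b := by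
    have := h.NG_cj (g := v * s * v) (b := b) (by rw [nn, (h.nq_swap q).2.1]; exact sm_refl q.hf) hr
    rwa [nn] at this
  have e5 : s * (v * s * v * r * (v * s * v)) * s = e * r * (v * μ * v) := by
    rw [h.nq_braid q, ← e4, ← cj_mul (h.sq q.hc), ← e3]
    simp only [mul_assoc, h.cancel q.hy, h.sq q.hy, mul_one]
  generalize v * s * v * r * (v * s * v) = μ' at m2 e5 ⊢
  have eN := h.EG_le' q.hf aW he
  have m3 : r * (v * μ * v) * μ⁻¹ ∈ NG D a := by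
    have := mul_mem (mul_mem hr (mem_NG vW)) (h.NG_norm q.hd c1 (mem_NG vW))
    simpa only [mul_assoc] using this
  have e6 : r * (v * μ * v) * μ⁻¹ = e⁻¹ * (s * μ' * s) * μ⁻¹ := by rw [e5]; simp only [mul_assoc, inv_mul_cancel_left]
  refine ⟨m1, c1, mem_inf.2 ⟨m3, ?_⟩, ?_⟩
  · rw [e6]
    exact mul_mem (mul_mem (inv_mem eN) (mul_mem (mul_mem (mem_NG sW) m2) (mem_NG sW))) (inv_mem m1)
  · have m4 := h.EG_le' q.hd (h.nq_fW q) (h.cmt_mem q.hf (mem_NG sW) m2)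
    have : μ' * μ⁻¹ = ⁅s, μ'⁆⁻¹ * (e * (r * (v * μ * v) * μ⁻¹)) := by
      rw [e6, commutatorElement_def, h.inv q.hy]
      simp [mul_assoc, h.inv q.hy, h.cancel q.hy]
    rw [this]
    exact mul_mem (inv_mem m4) (mul_mem (h.EG_le q.hd he) m3)

theorem comm_of_line {a b w g : G} (ha : a ∈ D) (hb : b ∈ WSet D a) (hn : ¬ Sm D a b) (hw : w ∈ WSet D a)
    (c : Commute w b) (h1 : g ∈ NG D a) (h2 : g ∈ NG D b) : Commute g w :=
  commutatorElement_eq_one_iff_commute.1 (h.EG_inter ha hb.1 hn (h.cmt_mem ha h1 (mem_NG hw))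
    (h.cmt_mem hb.1 h2 (mem_NG (h.rt b hb.1 w hw.1 c))))

theorem nos_cen {a b u g r : G} (ha : a ∈ D) (H : NoS D a) (hb : b ∈ WSet D a) (hu : u ∈ WSet D a) (e : Sp u b)
    (h1 : g ∈ NG D a) (h2 : g ∈ NG D b) (hr : r ∈ NG D a) (c : Commute r b) : Commute g r := by
  have nb := h.nsm hb e.symm hu
  obtain ⟨p, hp, c1⟩ := h.adj ha hb hu e h1
  have h1' := mul_mem (h.EG_le' ha hb hp) h1
  have h2' := mul_mem (h.EG_le hb.1 hp) h2
  have h3 := H b hb u hu e _ h1' h2' c1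
  have key : Commute (p * g) r := by
    generalize p * g = g at h1' h2' h3
    refine commute_of_closure (fun w hw => ?_) hr
    by_cases k1 : Commute w b
    · exact h.comm_of_line ha hb nb hw k1 h1' h2'
    by_cases k2 : Commute w u
    · exact h.comm_of_line ha hu (h.nsm hu e hb) hw k2 h1' h3
    have e1 := h.sp_W hw hb k1
    have e2 := h.sp_W hw hu k2
    obtain ⟨x, hx, c2⟩ := h.adj ha hb hw e1 h1'
    obtain ⟨y, hy, c3⟩ := h.adj ha hu hw e2 h1'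
    have m1 := H b hb w hw e1 _ (mul_mem (h.EG_le' ha hb hx) h1') (mul_mem (h.EG_le hb.1 hx) h2') c2
    have m2 := H u hu w hw e2 _ (mul_mem (h.EG_le' ha hu hy) h1') (mul_mem (h.EG_le hu.1 hy) h3) c3
    by_cases x1 : x = 1
    · simpa [x1] using c2
    by_cases y1 : y = 1
    · simpa [y1] using c3
    have sx := h.sm_of_ne hb.1 hx x1
    have sy := h.sm_of_ne hu.1 hy y1
    obtain ⟨z, hz, e3⟩ := h.uq ha hw (h.W_sm ha hb sx) (h.W_sm ha hu sy) (h.sm_sp sx hw.1 e1.symm).symm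
      (h.sm_sp sy hw.1 e2.symm).symm (by
        simpa [mul_assoc, h.inv sy.2.1] using mul_mem m1 (inv_mem m2))
    refine (h.not_sp sy.2.1 hb.1 ?_ (h.sm_sp sy hb.1 e)).elim
    rw [e3]
    exact (h.comm_EG hx hb.1 (Commute.refl b)).symm.mul_left (h.comm_EG hz hb.1 hb.2.1).symm
  have := (h.cent_EG ha hb nb hr c hp).symm.mul_left key
  rwa [← mul_assoc, h.sq_EG hp, one_mul] at this

theorem sp_of_moved {a b r s : G} (ha : a ∈ D) (hb : b ∈ WSet D a) (hr : r ∈ NG D a) (c : Commute r b)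
    (nr : r ∉ NG D b) (hs : s ∈ WSet D b) (e : Sp s a) : Sp (r * s * r⁻¹) s :=
  h.sp_W (wset_conj' h.ris hs c) hs fun k => nr (h.k1 hb.1 (h.W_symm ha hb) hs e hr c k)

theorem nos_step {v a b s r : G} (q : Nq D v a b s) (H : NoS D a) (hr : r ∈ NG D a) (c : Commute r b) :
    Commute (r * r * (r⁻¹ * s * r)) s := by
  obtain ⟨m1, c1, m2, -⟩ := h.cp q hr c
  have sW := h.nq_yW q
  have aW := h.nq_dW q
  have vW := h.nq_cW q
  have bW := h.nq_fW q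
  have XW : r⁻¹ * s * r ∈ WSet D b := by simpa using wset_conj' h.ris sW c.inv_left
  have a0 := h.sq_NG q.hd hr
  have hε : cm (r * r) s ∈ EG D b := h.cm_EG q.hf (h.EG_le' q.hf aW a0) (mem_NG sW) (h.sq_EG a0) (h.sq q.hy)
  have hX : cm (r⁻¹ * s * r) s ∈ EG D b := h.cm_EG q.hf (mem_NG XW) (mem_NG sW) (h.sq XW.1) (h.sq q.hy)
  have e1 : (r⁻¹ * s * r * s) * r * (r⁻¹ * s * r * s)⁻¹ = r * (cm (r * r) s * cm (r⁻¹ * s * r) s) := by
    rw [← inv_eq_of_mul_eq_one_right (h.sq_EG hX), ← mul_right_inj r, ← mul_assoc r r, ← mul_assoc (r * r),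
      ← conj_eq_cm (h.sq_EG a0)]
    simp [cm, mul_assoc, h.inv q.hy, h.cancel q.hy]
  have hδ := mul_mem hε hX
  have cg := h.nos_cen q.hd H bW vW q.cf m2.1 m2.2 hr c
  have nb : ¬ Sm D b a := h.nsm aW q.dy sW
  have key : cm (r * r) s * cm (r⁻¹ * s * r) s = 1 := by
    generalize cm (r * r) s * cm (r⁻¹ * s * r) s = δ at e1 hδ
    generalize r⁻¹ * s * r * s = μ at m1 c1 m2 e1 cg
    obtain ⟨e, he, e4⟩ : ∃ e ∈ EG D a, v * r * v = e * r :=
      ⟨⁅v, r⁆, h.cmt_mem q.hd (mem_NG vW) hr, by simp [commutatorElement_def, h.inv q.hc]⟩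
    have e2 : v * (μ * r * μ⁻¹) * v = v * (r * δ) * v := by rw [e1]
    have vv := h.sq q.hc
    rw [cj_mul vv, cj_mul vv, cj_mul vv r δ, e4, show v * μ⁻¹ * v = (v * μ * v)⁻¹ by simp [mul_assoc, h.inv q.hc]] at e2
    have e3 : v * μ * v = r⁻¹ * (r * (v * μ * v) * μ⁻¹) * μ := by simp [mul_assoc]
    generalize r * (v * μ * v) * μ⁻¹ = g at m2 cg e3
    have k1 := h.cent_EG q.hf aW nb m1 c1 he
    have k2 := (h.cen he m2.1).symm
    have k3 := (h.cen hδ m2.2).symm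
    have k4 := (h.cen he hr).symm
    have k5 := h.cent_EG q.hd bW (fun t => nb t.symm) hr c hδ
    refine h.eq_one_sp q.hf q.hc q.cf.symm hδ (comm_of_cj vv ?_).symm
    rw [← mul_right_inj (e * r), ← e2, e3]
    calc r⁻¹ * g * μ * (e * r) * (r⁻¹ * g * μ)⁻¹ = r⁻¹ * (g * (μ * e * μ⁻¹ * (μ * r * μ⁻¹)) * g⁻¹) * r := by
          simp only [mul_assoc, mul_inv_rev, inv_inv, inv_mul_cancel_left]
      _ = _ := by
          rw [e1, k1.eq, mul_inv_cancel_right, (k2.mul_right (cg.mul_right k3)).eq, mul_inv_cancel_right,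
            (k4.mul_right ((Commute.refl r).mul_right k5)).inv_left.eq, inv_mul_cancel_right, mul_assoc]
  have c2 := h.cm_EG q.hf (h.EG_le' q.hf aW a0) (mem_NG XW) (h.sq_EG a0) (h.sq XW.1)
  generalize r⁻¹ * s * r = X at XW hX key c2
  generalize r * r = a1 at a0 hε key c2
  have : s * (a1 * X) * s = a1 * X := by
    rw [cj_mul (h.sq q.hy), conj_eq_cm (h.sq_EG a0), conj_eq_cm (h.sq XW.1), mul_assoc, ← mul_assoc _ X,
      ← (h.comm_EG hε XW.1 XW.2.1).eq, mul_assoc X, key, mul_one]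
  exact (comm_of_cj (h.sq q.hy) this).symm

theorem not_nos (q3 : Q3 D) {a b c r : G} (ha : a ∈ D) (hb : b ∈ WSet D a) (hc : c ∈ WSet D b) (e : Sp a c)
    (hr : r ∈ NG D a) (k : Commute r b) (nr : r ∉ NG D b) : ¬ NoS D a := fun H => by
  have aW := h.W_symm ha hb
  have a0 := h.sq_NG ha hr
  have XW : ∀ s, Sm D c s → r⁻¹ * s * r ∈ WSet D b := fun s t => by
    simpa using wset_conj' h.ris (h.W_sm hb.1 hc t) k.inv_left
  have key : ∀ s, Sm D c s → Commute (r * r * (r⁻¹ * s * r)) c := fun s t => by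
    have e1 := (h.sm_sp t ha e.symm).symm
    have sW := h.W_sm hb.1 hc t
    obtain ⟨v, q⟩ := h.exists_nq ha t.2.1 e1
    have s1 := h.nice hb.1 aW sW e1
    exact h.cent_EG hb.1 sW (h.nsm sW e1.symm aW) (mul_mem (h.EG_le' hb.1 aW a0) (mem_NG (XW s t)))
      (h.nos_step q H hr (h.cent_EG ha hb (fun t => h.nsm aW e hc t.symm) hr k s1.mem_EG)) t.symm.mem_EG
  obtain ⟨s, t, ne⟩ := q3 c hc.1
  have t2 := h.sm_of_ne hc.1 (mul_mem t.mem_EG (self_mem_EG hc.1)) fun k => ne (ri_eq_of_mul h.ris t.2.1 k)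
  have c1 := (key s t).mul_left (key c (sm_refl hc.1))
  have m := h.cm_EG hb.1 (mem_NG (XW s t)) (h.EG_le' hb.1 aW a0) (h.sq (XW s t).1) (h.sq_EG a0)
  rw [← mul_assoc, conj_eq_cm (h.sq (XW s t).1), (h.comm_EG m (XW s t).1 (XW s t).2.1).eq, mul_assoc] at c1
  have c2 := (h.comm_EG m hc.1 hc.2.1).symm.mul_left c1
  rw [← mul_assoc, h.sq_EG m, one_mul, show r⁻¹ * s * r * (r⁻¹ * c * r) = r⁻¹ * (s * c) * r⁻¹⁻¹ by simp [mul_assoc]] at c2
  have e2 := h.sp_of_moved ha hb (inv_mem hr) k.inv_left (fun m => nr ((inv_mem_iff).1 m)) (h.W_sm hb.1 hc t2)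
    (h.sm_sp t2 ha e.symm)
  exact h.not_sp (h.cj t2.2.1 _) t2.2.1 (h.sm_comm t2 (h.cj t2.2.1 _) c2) e2

theorem conj_NG {a : G} (ha : a ∈ D) (g : G) : conjBy (NG D a) g = NG D (g * a * g⁻¹) := by
  ext x
  rw [mem_conjBy]
  refine ⟨fun m => by simpa [mul_assoc] using h.NG_cj (sm_refl (h.cj ha g)) m, fun m => ?_⟩
  simpa using h.NG_cj (g := g⁻¹) (b := a) (by simpa [mul_assoc] using sm_refl ha) m

theorem A_eq {b w w' : G} (hb : b ∈ D) (hw : w ∈ WSet D b) (hw' : w' ∈ WSet D b) (hn : ¬ Sm D b w) (hn' : ¬ Sm D b w') :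
    NG D b ⊓ NG D w = NG D b ⊓ NG D w' ↔ Commute w w' :=
  ⟨fun e => commute_of_mem_wclosure (e.le ⟨mem_NG hw, mem_NG (h.selfW hw.1)⟩).2,
    fun c => le_antisymm (fun _ m => ⟨m.1, h.NG_line hb hw' hw hn c.symm m.1 m.2⟩)
      fun _ m => ⟨m.1, h.NG_line hb hw hw' hn' c m.1 m.2⟩⟩

theorem conj_A {b w g : G} (hb : b ∈ D) (hw : w ∈ D) (c : Commute g b) :
    conjBy (NG D b ⊓ NG D w) g = NG D b ⊓ NG D (g * w * g⁻¹) := by
  rw [conjBy_inf, h.conj_NG hb, h.conj_NG hw, c.eq, mul_inv_cancel_right]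

theorem nsm_cj {b w g : G} (hn : ¬ Sm D b w) (c : Commute g b) : ¬ Sm D b (g * w * g⁻¹) := fun s => hn (by
  have := h.sm_cj s g⁻¹
  rw [c.inv_left.eq] at this
  simpa [mul_assoc] using this)

theorem comm_cj_NG {b w g : G} (hb : b ∈ D) (hw : w ∈ WSet D b) (hg : g ∈ NG D b) : Commute (g * w * g⁻¹) w := by
  obtain ⟨e, he, e1⟩ := h.cj_NG hb hg hw
  rw [e1]
  exact (Commute.refl w).mul_left (h.comm_EG he hw.1 hw.2.1).symm

theorem norm_pi {a b c u m : G} (ha : a ∈ D) (hb : b ∈ WSet D a) (hc : c ∈ WSet D b) (e : Sp a c) (hu : u ∈ WSet D a)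
    (e' : Sp u b) (h1 : m ∈ NG D a) (h2 : m ∈ NG D u) (k : Commute m b) :
    conjBy (NG D b ⊓ NG D a ⊔ NG D b ⊓ NG D c) m = NG D b ⊓ NG D a ⊔ NG D b ⊓ NG D c := by
  have ca : Commute m a := commute_of_mem_wclosure h1
  have aW := h.W_symm ha hb
  refine eq_of_le_of_card_ge ?_ (Nat.card_congr (conjByEquiv _ m).toEquiv).le
  rw [conjBy_sup, h.conj_A hb.1 ha k, ca.eq, mul_inv_cancel_right]
  refine sup_le le_sup_left fun y hy => ?_
  obtain ⟨σ, hσ, rfl⟩ := mem_conjBy'.1 hy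
  obtain ⟨s, hs, c1⟩ := h.adj hb.1 hc aW e hσ.1
  have sA : s ∈ NG D b ⊓ NG D c := ⟨h.EG_le' hb.1 hc hs, h.EG_le hc.1 hs⟩
  have m1 := mul_mem sA hσ
  have m2 : ⁅m, s * σ⁆ ∈ NG D b ⊓ NG D a := mem_inf.2 ⟨mul_mem (h.NG_norm hb.1 k m1.1) (inv_mem m1.1), by
    simpa [commutatorElement_def, mul_assoc] using mul_mem h1 (h.NG_norm ha c1 (inv_mem h1))⟩
  have m3 : m * s * m⁻¹ ∈ NG D b ⊓ NG D a ⊔ NG D b ⊓ NG D c := by
    by_cases s1 : s = 1
    · simp [s1]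
    have t := h.sm_of_ne hc.1 hs s1
    have e1 := (h.sm_sp t ha e.symm).symm
    have s2 := h.nice hb.1 aW (h.W_sm hb.1 hc t) e1
    obtain ⟨v, t2, q⟩ := h.partner ha t.2.1 e1 hu (h.sm_sp s2 hu.1 e'.symm).symm
    obtain ⟨n1, -, -, n2⟩ := h.cp q (inv_mem h1)
      (h.cent_EG ha hb (h.nsm hb e'.symm hu) (inv_mem h1) k.inv_left s2.mem_EG)
    have nn := h.inv (h.nq_n q)
    have n3 := h.NG_cj (g := v * s * v) (b := cm a s) (by rw [nn, (h.nq_swap q).2.1]; exact sm_refl q.hf) (inv_mem h1)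
    have n4 := h.NG_cj (g := v * s * v) (b := s) (by rw [nn, (h.nq_swap q).1]; exact sm_refl q.hy)
      (inv_mem (h.NG_eq t2 ▸ h2))
    rw [nn, ← h.NG_eq s2] at n3
    rw [nn, ← h.NG_eq t] at n4
    rw [← h.NG_eq s2] at n1
    generalize v * s * v * m⁻¹ * (v * s * v) = μ' at n2 n3 n4
    have := mul_mem (mem_sup_left (inv_mem (show _ ∈ NG D b ⊓ NG D a from mem_inf.2 ⟨mul_mem n3 (inv_mem n1), n2⟩)))
      (mem_sup_right (mul_mem (show μ' ∈ NG D b ⊓ NG D c from ⟨n3, n4⟩) sA))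
    simpa [mul_assoc, h.sq t.2.1] using this
  have := mul_mem m3 (mul_mem (mem_sup_left m2) (mem_sup_right m1))
  simpa [commutatorElement_def, mul_assoc, ← mul_assoc s s, h.sq_EG hs] using this

theorem one_trans {c k₁ k₂ k₃ u b : G} (hc : c ∈ D) (h1 : k₁ ∈ WSet D c) (h2 : k₂ ∈ WSet D c) (h3 : k₃ ∈ WSet D c)
    (e12 : Sp k₁ k₂) (e13 : Sp k₁ k₃) (e23 : Sp k₂ k₃) (hu : u ∈ WSet D c) (nu : ¬ Sm D c u) (hb : b ∈ WSet D c)
    (nb : ¬ Sm D c b) : ∃ g, Commute g c ∧ Commute (g * u * g⁻¹) b := by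
  have one : ∀ k ∈ WSet D c, ¬ Commute k u → ¬ Commute k b → ∃ g, Commute g c ∧ Commute (g * u * g⁻¹) b :=
    fun k hk n1 n2 => by
      obtain ⟨g, -, c1, c2⟩ := h.tr hc hk hu hb (h.sp_W hk hu n1).symm (h.sp_W hk hb n2).symm
      exact ⟨g, c1, c2⟩
  have two : ∀ {w k k' : G}, w ∈ WSet D c → ¬ Sm D c w → k ∈ WSet D c → k' ∈ WSet D c → Sp k k' → Commute k w →
      ¬ Commute k' w := fun hw nw hk hk' e c1 c2 => h.not_sp hk.1 hk'.1 (h.comm_trans hc hk hw nw hk' c1 c2.symm) e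
  by_cases a1 : Commute k₁ u
  · by_cases a2 : Commute k₂ b
    · exact one _ h3 (two hu nu h1 h3 e13 a1) (two hb nb h2 h3 e23 a2)
    · exact one _ h2 (two hu nu h1 h2 e12 a1) a2
  by_cases a2 : Commute k₁ b
  · by_cases a3 : Commute k₂ u
    · exact one _ h3 (two hu nu h2 h3 e23 a3) (two hb nb h1 h3 e13 a2)
    · exact one _ h2 a3 (two hb nb h1 h2 e12 a2)
  · exact one _ h1 a1 a2

theorem exists_m (q3 : Q3 D) {a b c w : G} (hb : b ∈ D) (ha : a ∈ WSet D b) (hc : c ∈ WSet D b) (hw : w ∈ WSet D b)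
    (e : Sp a c) (e1 : Sp a w) (e2 : Sp c w) :
    ∃ x ∈ WSet D c, Sp x b ∧ ∃ m ∈ NG D c, m ∈ NG D x ∧ Commute m b ∧ m ∉ NG D b := by
  have bW := h.W_symm hb hc
  obtain ⟨r, hr, k1, k2⟩ := h.tr hb hc ha hw e e2.symm
  have := h.not_nos q3 hc.1 bW ha e.symm hr k1 fun m => h.not_sp ha.1 hw.1
    (h.comm_trans hb ha (wset_conj' h.ris ha k1) (h.nsm_cj (h.nsm ha e hc) k1) hw (h.comm_cj_NG hb ha m).symm k2) e1
  simp only [NoS, not_forall] at this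
  obtain ⟨b0, hb0, u0, hu0, e3, σ, m1, m2, k3, n⟩ := this
  obtain ⟨t, ht⟩ := h.exists_cj hb hc.1
  have sr : Sm D (t * b * t⁻¹) c := ht ▸ sm_refl hc.1
  have nb : ¬ Sm D c b := fun s => h.nsm hc e.symm ha s.symm
  have nu := h.nsm hu0 e3 hb0
  obtain ⟨g, c1, c2⟩ := h.one_trans hc.1 (h.W_cj sr ha) (h.W_cj sr hc) (h.W_cj sr hw) (e.conj t) (e1.conj t) (e2.conj t)
    hu0 nu bW nb
  have uW := wset_conj' h.ris hu0 c1
  have nu' := h.nsm_cj nu c1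
  have m3 := h.NG_norm hc.1 c1 m1
  refine ⟨_, wset_conj' h.ris hb0 c1, (h.sp_line hc.1 uW bW nb (wset_conj' h.ris hb0 c1) c2 (e3.conj g)).symm, _, m3,
    h.NG_cj (sm_refl (h.cj hb0.1 g)) m2, ?_, fun m => n ?_⟩
  · obtain ⟨y, hy, p, hp, rfl⟩ := h.np hc.1 uW nu' bW c2.symm
    exact (h.cen hy m3).symm.mul_right (h.cent_EG hc.1 uW nu' m3 (commute_conj k3 g) hp)
  · have := h.NG_line hc.1 uW bW nb c2 m3 m
    rw [← h.conj_NG hu0.1, mem_conjBy] at this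
    simpa [mul_assoc] using this

theorem lam_fix {b k t : G} {P : Subgroup G} (hb : b ∈ D) (hk : k ∈ WSet D b) (nk : ¬ Sm D b k) (ht : t ∈ NG D k)
    (c : Commute t b) (nt : t ∉ NG D b) (hP : conjBy P t = P) :
    ∃ f : {L : Subgroup G // L ≤ P ∧ ∃ w ∈ WSet D b, ¬ Sm D b w ∧ L = NG D b ⊓ NG D w} →
      {L : Subgroup G // L ≤ P ∧ ∃ w ∈ WSet D b, ¬ Sm D b w ∧ L = NG D b ⊓ NG D w},
      (∀ x, f (f x) = x) ∧ ∀ x, f x = x ↔ x.1 = NG D b ⊓ NG D k := by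
  refine ⟨fun L => ⟨conjBy L t, (conjBy_mono L.2.1 t).trans hP.le, ?_⟩, fun L => Subtype.ext ?_, fun L => ?_⟩
  · obtain ⟨w, hw, nw, e⟩ := L.2.2
    exact ⟨_, wset_conj' h.ris hw c, h.nsm_cj nw c, by rw [e, h.conj_A hb hw.1 c]⟩
  · obtain ⟨w, hw, nw, e⟩ := L.2.2
    have c2 := c.mul_left c
    show conjBy (conjBy L.1 t) t = L.1
    rw [conjBy_conjBy, e, h.conj_A hb hw.1 c2, h.A_eq hb (wset_conj' h.ris hw c2) hw (h.nsm_cj nw c2) nw]
    exact h.comm_cj_NG hb hw (h.EG_le' hb hk (h.sq_NG hk.1 ht))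
  · obtain ⟨w, hw, nw, e⟩ := L.2.2
    rw [Subtype.ext_iff]
    show conjBy L.1 t = L.1 ↔ _
    rw [e, h.conj_A hb hw.1 c, h.A_eq hb (wset_conj' h.ris hw c) hw (h.nsm_cj nw c) nw, h.A_eq hb hw hk nw nk]
    refine ⟨fun k1 => by_contra fun k2 => nt (h.k1 hb hk hw (h.sp_W hw hk k2) ht c k1), fun k1 => ?_⟩
    exact h.comm_cj_NG hk.1 (h.rt k hk.1 w hw.1 k1) ht

theorem pi_top (q3 : Q3 D) {a b c : G} (hb : b ∈ D) (ha : a ∈ WSet D b) (hc : c ∈ WSet D b) (e : Sp a c) :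
    NG D b ≤ NG D b ⊓ NG D a ⊔ NG D b ⊓ NG D c := by
  refine (closure_le _).2 fun w hw => by_contra fun n => ?_
  have e1 : Sp a w := h.sp_W ha hw fun k => n (mem_sup_left ⟨mem_NG hw, mem_NG (h.rt a ha.1 w hw.1 k.symm)⟩)
  have e2 : Sp c w := h.sp_W hc hw fun k => n (mem_sup_right ⟨mem_NG hw, mem_NG (h.rt c hc.1 w hw.1 k.symm)⟩)
  have na := h.nsm ha e hc
  have nc := h.nsm hc e.symm ha
  have nw := h.nsm hw e1.symm ha
  obtain ⟨r, hr, k1, k2⟩ := h.tr hb ha hc hw e.symm e1.symm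
  have cW := wset_conj' h.ris hc k1
  have nc' := h.nsm_cj nc k1
  have a1 := (h.A_eq hb cW hw nc' nw).2 k2
  have nr : r ∉ NG D b := fun m => h.not_sp hc.1 hw.1 (h.comm_trans hb hc cW nc' hw (h.comm_cj_NG hb hc m).symm k2) e2
  obtain ⟨x, hx, e3, m, m1, m2, k3, nm⟩ := h.exists_m q3 hb ha hc hw e e1 e2
  obtain ⟨f, f1, f2⟩ := h.lam_fix (P := NG D b ⊓ NG D c ⊔ NG D b ⊓ NG D w) hb ha na hr k1 nr (by
    have c2 := k1.mul_left k1
    rw [conjBy_sup, ← a1, ← h.conj_A hb hc.1 k1, conjBy_conjBy, h.conj_A hb hc.1 c2,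
      (h.A_eq hb (wset_conj' h.ris hc c2) hc (h.nsm_cj nc c2) nc).2
        (h.comm_cj_NG hb hc (h.EG_le' hb ha (h.sq_NG ha.1 hr))), sup_comm])
  obtain ⟨g, g1, g2⟩ := h.lam_fix hb hc nc m1 k3 nm (h.norm_pi hc.1 (h.W_symm hb hc) hw e2 hx e3 m1 m2 k3)
  refine parity f g f1 g1 (fun L k => ?_) (y := ⟨_, le_sup_left, c, hc, nc, rfl⟩) fun L => by
    rw [g2, Subtype.ext_iff]
  have le : NG D b ⊓ NG D a ⊔ NG D b ⊓ NG D c ≤ NG D b ⊓ NG D c ⊔ NG D b ⊓ NG D w :=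
    sup_le ((f2 L).1 k ▸ L.2.1) le_sup_left
  obtain ⟨t, ht, k4, k5⟩ := h.tr hb hc ha hw e e2.symm
  have e4 : conjBy (NG D b ⊓ NG D a ⊔ NG D b ⊓ NG D c) t = NG D b ⊓ NG D c ⊔ NG D b ⊓ NG D w := by
    rw [conjBy_sup, h.conj_A hb ha.1 k4, h.conj_A hb hc.1 k4, (commute_of_mem_wclosure ht).eq, mul_inv_cancel_right,
      (h.A_eq hb (wset_conj' h.ris ha k4) hw (h.nsm_cj na k4) nw).2 k5, sup_comm]
  refine n ?_
  rw [eq_of_le_of_card_ge le (by rw [← e4]; exact (Nat.card_congr (conjByEquiv _ t).toEquiv).ge)]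
  exact mem_sup_right ⟨mem_NG hw, mem_NG (h.selfW hw.1)⟩

/-- the group `N_b ∩ N_c ∩ C(a) ∩ C(x)` is transitive on the lines through `a` different from `a b` -/
theorem s_trans (q3 : Q3 D) {a b c x u u' : G} (hb : b ∈ D) (ha : a ∈ WSet D b) (hc : c ∈ WSet D b) (e : Sp a c)
    (hx : x ∈ WSet D c) (e1 : Sp x b) (hu : u ∈ WSet D a) (hu' : u' ∈ WSet D a) (e2 : Sp u b) (e3 : Sp u' b) :
    ∃ σ ∈ NG D b, σ ∈ NG D c ∧ Commute σ a ∧ Commute σ x ∧ Commute (σ * u * σ⁻¹) u' := by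
  have bW := h.W_symm hb ha
  obtain ⟨g, hg, k1, k2⟩ := h.tr ha.1 bW hu hu' e2 e3
  obtain ⟨y, hy, z, hz, rfl⟩ := (mem_sup_of_norm fun t ht => by
    have ct : Commute t b := commute_of_mem_wclosure ht.1
    rw [h.conj_A hb ha.1 ct, h.A_eq hb (wset_conj' h.ris ha ct) ha (h.nsm_cj (h.nsm ha e hc) ct) (h.nsm ha e hc)]
    exact h.comm_cj_NG hb ha ht.1).1 (h.pi_top q3 hb ha hc e hg)
  have k3 : Commute z a := by simpa using (commute_of_mem_wclosure (inv_mem hy.2)).mul_left k1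
  obtain ⟨p, hp, k4⟩ := h.adj hc.1 (h.W_symm hb hc) hx e1 hz.2
  have pa := h.EG_le' ha.1 bW hp
  refine ⟨_, mul_mem (h.EG_le hb hp) hz.1, mul_mem (h.EG_le' hc.1 (h.W_symm hb hc) hp) hz.2,
    (commute_of_mem_wclosure pa).mul_left k3, k4, ?_⟩
  have uW := wset_conj' h.ris hu k1
  have := h.comm_cj_NG ha.1 uW (mul_mem pa (inv_mem hy.2))
  refine h.comm_trans ha.1 (wset_conj' h.ris hu ((commute_of_mem_wclosure pa).mul_left k3)) uW
    (h.nsm_cj (h.nsm hu e2 bW) k1) hu' (by simpa [mul_assoc] using this) k2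

end HX

end Cfsg.Agent.Lib.Root
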