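import Cfsg.Agent.Lib.Root.RI2
import Cfsg.Agent.Lib.Root.SL2b

set_option autoImplicit false
set_option linter.unusedSectionVars false

/-! # Root involutions: rank one pairs and the commutator case for the groups `E(a)` -/

namespace Cfsg.Agent.Lib.Root

open Cfsg Cfsg.Agent.Lib.Invol Subgroup
open scoped commutatorElement

section diag

variable {k : Type*} [Field k] {G : Type*} [Group G]

theorem ris_zero_of {c d : k} (h1 : c = -c) (h2 : c + d = -d) : c = 0 := by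
  by_cases h : (2 : k) = 0
  · linear_combination h2 - d * h
  · exact (mul_eq_zero.1 (show 2 * c = 0 by linear_combination h1)).resolve_left h

theorem ris_low {M z : Matrix.SpecialLinearGroup (Fin 2) k} {t : k} (hz : z = 1 ∨ z = -1)
    (e : M * xu 1 = xu t * z * M) : M 1 0 = 0 := by
  have e0 := congrArg (fun N : Matrix.SpecialLinearGroup (Fin 2) k => N 1 0) e
  have e1 := congrArg (fun N : Matrix.SpecialLinearGroup (Fin 2) k => N 1 1) e
  rcases hz with rfl | rfl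
  · simpa [Matrix.mul_apply, Fin.sum_univ_two] using e1
  · simp [Matrix.mul_apply, Fin.sum_univ_two, Matrix.vecMul, dotProduct] at e0 e1
    exact ris_zero_of e0 e1

theorem ris_up {M z : Matrix.SpecialLinearGroup (Fin 2) k} {t : k} (hz : z = 1 ∨ z = -1)
    (e : M * xl 1 = xl t * z * M) : M 0 1 = 0 := by
  have e0 := congrArg (fun N : Matrix.SpecialLinearGroup (Fin 2) k => N 0 1) e
  have e1 := congrArg (fun N : Matrix.SpecialLinearGroup (Fin 2) k => N 0 0) e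
  rcases hz with rfl | rfl
  · simpa [Matrix.mul_apply, Fin.sum_univ_two] using e1
  · simp [Matrix.mul_apply, Fin.sum_univ_two, Matrix.vecMul, dotProduct] at e0 e1
    exact ris_zero_of e0 (by rw [add_comm]; exact e1)

theorem ris_norm {φ : Matrix.SpecialLinearGroup (Fin 2) k →* G}
    (hk : φ.ker ≤ center (Matrix.SpecialLinearGroup (Fin 2) k)) {U : Subgroup (Matrix.SpecialLinearGroup (Fin 2) k)}
    {M u : Matrix.SpecialLinearGroup (Fin 2) k} (hM : φ M ∈ normalizer ((U.map φ : Subgroup G) : Set G))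
    (hu : u ∈ U) : ∃ v ∈ U, ∃ z, (z = 1 ∨ z = -1) ∧ M * u = v * z * M := by
  obtain ⟨v, hv, e⟩ := (mem_normalizer_iff.1 hM (φ u)).1 (mem_map_of_mem φ hu)
  refine ⟨v, hv, v⁻¹ * (M * u * M⁻¹), mem_center_sl2 (hk ?_), by group⟩
  rw [MonoidHom.mem_ker, map_mul, map_inv, e, map_mul, map_mul, map_inv, inv_mul_cancel]

theorem diag_comm {A B : Subgroup G} (h : IsPSL2PairOver k A B) {g g' : G} (hg : g ∈ rankOneDiagonal A B)
    (hg' : g' ∈ rankOneDiagonal A B) : Commute g g' := by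
  obtain ⟨φ, h1, h2, rfl, rfl⟩ := h
  have key : ∀ g ∈ rankOneDiagonal ((upperUnipotentSL2 k).map φ) ((lowerUnipotentSL2 k).map φ),
      ∃ M, φ M = g ∧ M 1 0 = 0 ∧ M 0 1 = 0 := by
    rintro g ⟨⟨hg1, hg2⟩, hg3⟩
    rw [← h1] at hg1
    obtain ⟨M, rfl⟩ := hg1
    obtain ⟨v, hv, z, hz, e⟩ := ris_norm h2 hg2 (mem_upper.2 ⟨1, rfl⟩)
    obtain ⟨v', hv', z', hz', e'⟩ := ris_norm h2 hg3 (mem_lower.2 ⟨1, rfl⟩)
    obtain ⟨t, rfl⟩ := mem_upper.1 hv
    obtain ⟨t', rfl⟩ := mem_lower.1 hv'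
    exact ⟨M, rfl, ris_low hz e, ris_up hz' e'⟩
  obtain ⟨M, rfl, a1, a2⟩ := key g hg
  obtain ⟨N, rfl, b1, b2⟩ := key g' hg'
  refine Commute.map ?_ φ
  show M * N = N * M
  ext i j
  fin_cases i <;> fin_cases j <;> simp [Matrix.mul_apply, Fin.sum_univ_two, a1, a2, b1, b2, mul_comm]

end diag

variable {G : Type*} [Group G] [Finite G] {D : Set G}

namespace ND

variable (h : ND D)
include h

theorem conj_EG {a : G} (ha : a ∈ D) (g : G) : conjBy (EG D a) g = EG D (g * a * g⁻¹) := by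
  refine le_antisymm (fun n hn => ?_) fun n hn => ?_
  · obtain ⟨m, hm, rfl⟩ := mem_conjBy'.1 hn
    exact h.EG_cj (sm_refl (h.cj ha g)) hm
  · rw [mem_conjBy]
    have := h.EG_cj (g := g⁻¹) (b := a) (by simpa [mul_assoc] using sm_refl ha) hn
    simpa using this

theorem EG_comm {a : G} (ha : a ∈ D) : IsMulCommutative (EG D a) :=
  subComm_iff.2 fun _ hn _ hm => (h.comm_EG2 ha ha (Commute.refl a) hn hm).eq

theorem card_EG {a b : G} (ha : a ∈ D) (hb : b ∈ D) : Nat.card (EG D a) = Nat.card (EG D b) := by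
  obtain ⟨g, rfl⟩ := h.exists_cj ha hb
  rw [← h.conj_EG ha g]
  exact Nat.card_congr (conjByEquiv _ g).toEquiv

theorem sm_of_HEE (he : HEE D) {a n : G} (ha : a ∈ D) (hn : n ∈ EG D a) (h1 : n ≠ 1) : Sm D a n :=
  h.sm_of_EG ha hn ((he a ha n hn).resolve_left h1)

theorem r1_half (he : HEE D) {a x b : G} (ha : a ∈ D) (hx : x ∈ D) (e : OA a x) (hb : b ∈ WSet D a)
    (nb : ¬ OA b x) {x' : G} (hx' : x' ∈ EG D x) (h1 : x' ≠ 1) :
    ∃ a' ∈ EG D a, a' ≠ 1 ∧ conjBy (EG D a) x' = conjBy (EG D x) a' := by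
  have s := h.sm_of_HEE he hx hx' h1
  have e1 : Sp b x := h.sp_of hb.1 hx (fun c => h.not_comm_W ha hb hx e c.symm) nb
  have e2 : Sp b x' := (h.sm_sp s hb.1 e1.symm).symm
  have e3 : OA a x' := (s.oa ha e.symm).symm
  have e4 : Sp (cm b x') a := four_cm h.ris ha hb.1 s.2.1 e3 e2 hb.2.1.symm
  obtain ⟨a', s', q⟩ := h.partner hb.1 s.2.1 e2 (h.W_symm ha hb) e4.symm
  refine ⟨a', s'.mem_EG, h.ne_one q.hc, ?_⟩
  rw [s'.EG_eq, s.EG_eq, h.conj_EG q.hc, h.conj_EG q.hy, h.inv q.hc, h.inv q.hy, h.nq_braid q]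

theorem r1 (he : HEE D) {a x b : G} (ha : a ∈ D) (hx : x ∈ D) (e : OA a x) (hb : b ∈ WSet D a)
    (nb : ¬ OA b x) : IsRankOnePair (EG D a) (EG D x) := by
  have e1 : Sp b x := h.sp_of hb.1 hx (fun c => h.not_comm_W ha hb hx e c.symm) nb
  have e4 : Sp (cm b x) a := four_cm h.ris ha hb.1 hx e e1 hb.2.1.symm
  refine r1_of_exists (fun e' => ?_) (isNilpotent_of_isMulCommutative (h.EG_comm ha))
    (isNilpotent_of_isMulCommutative (h.EG_comm hx)) (fun a' ha' h1 => ?_)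
    fun x' hx' h1 => h.r1_half he ha hx e hb nb hx' h1
  · exact h.not_oa ha hx (h.comm_EG (e' ▸ self_mem_EG hx) ha (Commute.refl a)) e
  · obtain ⟨x', k1, k2, k3⟩ := h.r1_half he hx ha e.symm (h.colW (h.col' hb.1 hx e1)) e4.not_oa ha' h1
    exact ⟨x', k1, k2, k3.symm⟩

theorem cmt_surj (he : HEE D) {a c : G} (ha : a ∈ D) (hc : c ∈ D) (e : Sp a c) {c1 : G} (hc1 : c1 ∈ EG D c)
    (h1 : c1 ≠ 1) {z : G} (hz : z ∈ EG D (cm a c)) : ∃ p ∈ EG D a, ⁅p, c1⁆ = z := by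
  have hf := h.cm_mem ha hc e
  have la := h.EG_le' hf (h.W1 ha hc e)
  have lc := h.EG_le' hf (h.W2 ha hc e)
  have s := h.sm_of_HEE he hc hc1 h1
  let φ : EG D a →* EG D (cm a c) := MonoidHom.mk' (fun p => ⟨⁅(p : G), c1⁆, h.cmt_mem hf (la p.2) (lc hc1)⟩)
    fun p q => Subtype.ext (h.cmt_mul hf (la p.2) (la q.2) (lc hc1))
  have inj : Function.Injective φ := by
    rw [injective_iff_map_eq_one]
    intro p hp
    by_contra hp1
    have s' := h.sm_of_HEE he ha p.2 fun e => hp1 (Subtype.ext e)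
    have c : Commute (p : G) c1 := commutatorElement_eq_one_iff_commute.1 (congrArg Subtype.val hp)
    exact h.not_sp s'.2.1 s.2.1 c (h.sm_sp s' s.2.1 (h.sm_sp s ha e.symm).symm)
  obtain ⟨p, hp⟩ := ((Nat.bijective_iff_injective_and_card φ).2 ⟨inj, h.card_EG ha hf⟩).2 ⟨z, hz⟩
  exact ⟨p, p.2, congrArg Subtype.val hp⟩

theorem cmt_EG (he : HEE D) {a c : G} (ha : a ∈ D) (hc : c ∈ D) (e : Sp a c) :
    ⁅EG D a, EG D c⁆ = EG D (cm a c) := by
  have hf := h.cm_mem ha hc e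
  have la := h.EG_le' hf (h.W1 ha hc e)
  have lc := h.EG_le' hf (h.W2 ha hc e)
  refine le_antisymm (commutator_le.2 fun p hp q hq => h.cmt_mem hf (la hp) (lc hq)) fun z hz => ?_
  obtain ⟨p, hp, rfl⟩ := h.cmt_surj he ha hc e (self_mem_EG hc) (h.ne_one hc) hz
  exact commutator_mem_commutator hp (self_mem_EG hc)

theorem rcc (he : HEE D) {S : Set (Subgroup G)} {a c : G} (ha : a ∈ D) (hc : c ∈ D) (e : Sp a c)
    (hS : EG D (cm a c) ∈ S) : RootCommutatorCase S (EG D a) (EG D c) := by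
  have hf := h.cm_mem ha hc e
  have la := h.EG_le' hf (h.W1 ha hc e)
  have lc := h.EG_le' hf (h.W2 ha hc e)
  unfold RootCommutatorCase
  rw [h.cmt_EG he ha hc e]
  refine ⟨hS, fun z hz x hx => (h.cen hz (sup_le la lc hx)).eq, fun a1 ha1 h1 => ?_, fun c1 hc1 h1 => ?_⟩
  · refine le_antisymm ((closure_le _).2 ?_) fun z hz => ?_
    · rintro _ ⟨b, hb, rfl⟩
      exact h.cmt_mem hf (la ha1) (lc hb)
    · obtain ⟨p, hp, e1⟩ := h.cmt_surj he hc ha e.symm ha1 h1 (z := z⁻¹) (by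
        rw [h.cm_swap ha hc e]; exact inv_mem hz)
      refine subset_closure ⟨p, hp, ?_⟩
      rw [← inv_inv z, ← e1, commutatorElement_inv]; rfl
  · refine le_antisymm ((closure_le _).2 ?_) fun z hz => ?_
    · rintro _ ⟨b, hb, rfl⟩
      exact h.cmt_mem hf (la hb) (lc hc1)
    · obtain ⟨p, hp, e1⟩ := h.cmt_surj he ha hc e hc1 h1 hz
      exact subset_closure ⟨p, hp, e1⟩

end ND

end Cfsg.Agent.Lib.Root
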