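import Cfsg.Agent.Lib.Root.RIS2a
import Cfsg.Agent.Lib.Root.OT10

set_option autoImplicit false
set_option linter.unusedSectionVars false

/-! # Finite rank one groups with elementary abelian unipotent `2`-subgroups -/

namespace Cfsg.Agent.Lib.Root

open Cfsg Cfsg.Agent.Lib.Invol Subgroup

variable {G : Type*} [Group G] [Finite G]

theorem special_of_sq {A B : Subgroup G} (h : IsRankOnePair A B) (hA : ∀ a ∈ A, a * a = 1)
    (hB : ∀ b ∈ B, b * b = 1) : IsSpecialRankOnePair A B :=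
  special_of_inv h fun a b p => by
    rwa [inv_eq_of_mul_eq_one_right (hA a p.1), inv_eq_of_mul_eq_one_right (hB b p.2.1)]

theorem r1g_iso {A B : Subgroup G} (h : IsRankOneGroup G A B) (hA : ∀ a ∈ A, a * a = 1) (hB : ∀ b ∈ B, b * b = 1)
    (h2 : 2 < Nat.card A) : ∃ (F : Type) (_ : Field F) (_ : Fintype F), CharP F 2 ∧
      Fintype.card F = Nat.card A ∧ Nonempty (G ≃* Matrix.ProjectiveSpecialLinearGroup (Fin 2) F) := by
  have hs := special_of_sq h.2 hA hB
  obtain ⟨a, ha, ha1⟩ := exists_ne_one_of_ne_bot (r1_ne_bot h.2)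
  obtain ⟨b, p⟩ := exists_partner h.2 ha ha1
  have hb := p.2.1
  have hb1 := p.ne_one' h.2
  let D : Set G := {u | u ≠ 1 ∧ ∃ C ∈ unipotentSubgroups A B, u ∈ C}
  have sq : ∀ C ∈ unipotentSubgroups A B, ∀ u ∈ C, u * u = 1 := by
    rintro _ ⟨x, -, rfl⟩ u hu
    obtain ⟨a, ha, rfl⟩ := mem_conjBy'.1 hu
    calc _ = x * (a * a) * x⁻¹ := by group
      _ = 1 := by rw [hA a ha]; group
  have ot : OT D := by
    refine ⟨?_, ?_, ?_⟩
    · rintro u ⟨h1, C, hC, hu⟩
      exact orderOf_two_of (sq C hC u hu) h1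
    · rintro u ⟨h1, C, hC, hu⟩ g
      exact ⟨fun e => h1 (conj_eq_one_iff.1 e), _, unip_conj_mem hC (h.1 ▸ mem_top g), conj_mem_conjBy hu g⟩
    · rintro u ⟨h1, C, hC, hu⟩ v ⟨h1', C', hC', hv⟩ nc
      refine unip_odd h.2 hA hC hC' hu h1 hv h1' ?_
      rintro rfl
      exact nc (elem_comm (sq C hC) hu hv)
  have mA : ∀ u ∈ A, u ≠ 1 → u ∈ D := fun u hu h1 => ⟨h1, A, left_mem_unip, hu⟩
  have mB : ∀ u ∈ B, u ≠ 1 → u ∈ D := fun u hu h1 => ⟨h1, B, right_mem_unip h.2, hu⟩
  have cA : ∀ u ∈ A, u ≠ 1 → ∀ c ∈ D, Commute u c ↔ c ∈ A := by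
    rintro u hu h1 c ⟨h1', C, hC, hc⟩
    exact ⟨fun e => unip_eq_of_commute h.2 left_mem_unip hC hu h1 hc h1' e ▸ hc, elem_comm hA hu⟩
  have nc : ¬ Commute a b := r1_not_commute h.2 ha ha1 hb hb1
  have scc : ∀ s, s ∈ sameCommutingClass D a ↔ s ∈ A ∧ s ≠ 1 := fun s => by
    rw [mem_scc]
    refine ⟨fun hs => ⟨(cA a ha ha1 s hs.1).1 ((hs.2 s hs.1).2 (Commute.refl s)), hs.1.1⟩,
      fun hs => ⟨mA s hs.1 hs.2, fun c hc => ?_⟩⟩
    rw [cA a ha ha1 c hc, cA s hs.1 hs.2 c hc]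
  have cl : closure (sameCommutingClass D a) = A := by
    refine le_antisymm ((closure_le _).2 fun s hs => ((scc s).1 hs).1) fun s hs => ?_
    by_cases h1 : s = 1
    · rw [h1]; exact one_mem _
    · exact subset_closure ((scc s).2 ⟨hs, h1⟩)
  have hg : closure (sameCommutingClass D a ∪ {b}) = ⊤ := by
    have lA : A ≤ closure (sameCommutingClass D a ∪ {b}) := cl ▸ closure_mono Set.subset_union_left
    have lb : b ∈ closure (sameCommutingClass D a ∪ {b}) := subset_closure (Or.inr rfl)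
    rw [eq_top_iff, ← h.1]
    refine sup_le lA ?_
    rw [← special_n_left hs p]
    exact conjBy_le_of_mem lA (mul_mem (mul_mem (lA ha) (inv_mem lb)) (lA ha))
  have toa : ∀ u ∈ D, ∃ g, u = g * a * g⁻¹ := fun u hu => by
    by_cases c : Commute a u
    · have nc' : ¬ Commute b u := fun c' =>
        r1_not_commute h.2 ((cA a ha ha1 u hu).1 c) hu.1 hb hb1 c'.symm.eq
      obtain ⟨k, hk⟩ := ot.exists_conj (mA a ha ha1) (mB b hb hb1) nc
      obtain ⟨l, hl⟩ := ot.exists_conj (mB b hb hb1) hu nc'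
      generalize (a * b) ^ k = g at hk
      generalize (b * u) ^ l = g' at hl
      exact ⟨g' * g, by rw [← hl, ← hk]; group⟩
    · obtain ⟨k, hk⟩ := ot.exists_conj (mA a ha ha1) hu c
      exact ⟨_, hk.symm⟩
  have bt : BT D a b := by
    refine ⟨ot, fun u hu v hv => ?_, mA a ha ha1, mB b hb hb1, nc, ?_, ?_, fun g hg c => ?_⟩
    · obtain ⟨g, rfl⟩ := toa u hu
      obtain ⟨g', rfl⟩ := toa v hv
      exact ⟨g' * g⁻¹, by group⟩
    · rw [eq_top_iff, ← hg]
      exact closure_mono (Set.union_subset (fun s hs => hs.1) (Set.singleton_subset_iff.2 (mB b hb hb1)))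
    · by_contra hn
      push Not at hn
      have : A ≤ zpowers a := fun u hu => by
        by_contra hu'
        refine hn u (mA u hu fun e => hu' (e ▸ one_mem _)) (mA _ (mul_mem ha hu) fun e => hu' ?_)
        rw [eq_inv_of_mul_eq_one_right e]
        exact inv_mem (mem_zpowers a)
      have := card_le_of_le this
      rw [Nat.card_zpowers, orderOf_two_of (hA a ha) ha1] at this
      omega
    · exact (scc g).2 ⟨(cA a ha ha1 g hg).1 c, hg.1⟩
  have l3 : L3 D a b := by
    refine ⟨a, self_mem_scc (mA a ha ha1), ?_⟩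
    have e := special_braid hs p
    rw [inv_eq_of_mul_eq_one_right (hB b hb)] at e
    calc (a * b) ^ 3 = a * b * a * (b * a * b) := by simp [pow_succ, mul_assoc]
      _ = b * (a * (b * b) * a) * b := by rw [e]; simp only [mul_assoc]
      _ = 1 := by rw [hB b hb, mul_one, hA a ha, mul_one, hB b hb]
  have := bt.iso_L2 hg (fun n hn => by
    rw [cl] at hn
    by_cases h1 : n = 1
    · exact .inr h1
    · exact .inl ((scc n).2 ⟨hn, h1⟩)) l3
  rwa [cl] at this

theorem psl2_of_r1 {A B : Subgroup G} (h : IsRankOnePair A B) (hA : ∀ a ∈ A, a * a = 1) (hB : ∀ b ∈ B, b * b = 1) :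
    ∃ (F : Type) (_ : Field F) (_ : Fintype F), Fintype.card F = Nat.card A ∧ IsPSL2PairOver F A B := by
  have cB : Nat.card B = Nat.card A := card_unip (right_mem_unip h)
  by_cases h2 : 2 < Nat.card A
  · have c1 : Nat.card (A.subgroupOf (A ⊔ B)) = Nat.card A :=
      Nat.card_congr (subgroupOfEquivOfLe le_sup_left).toEquiv
    obtain ⟨F, _, _, _, k, ⟨e⟩⟩ := r1g_iso (r1_group_subgroupOf h) (fun a ha => Subtype.ext (hA _ ha))
      (fun a ha => Subtype.ext (hB _ ha)) (c1 ▸ h2)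
    rw [c1] at k
    exact ⟨F, _, _, k, psl2_of_iso e hA hB (by rw [← k, Nat.card_eq_fintype_card])
      (by rw [cB, ← k, Nat.card_eq_fintype_card]) h.ne⟩
  · obtain ⟨a, ha, ha1⟩ := exists_ne_one_of_ne_bot (r1_ne_bot h)
    obtain ⟨b, p⟩ := exists_partner h ha ha1
    have oa := orderOf_two_of (hA a ha) ha1
    have ob := orderOf_two_of (hB b p.2.1) (p.ne_one' h)
    have e1 : zpowers a = A := eq_of_le_of_card_ge (zpowers_le.2 ha) (by rw [Nat.card_zpowers, oa]; omega)
    have e2 : zpowers b = B := eq_of_le_of_card_ge (zpowers_le.2 p.2.1) (by rw [Nat.card_zpowers, ob]; omega)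
    have := psl2_of_partner (special_of_sq h hA hB) (p := 2) p fun a ha => by rw [pow_two, hA a ha]
    rw [e1, e2] at this
    exact ⟨ZMod 2, _, _, by rw [← e1, Nat.card_zpowers, oa, ZMod.card], this⟩

/-- the same with a given field -/
theorem psl2_of_r1' {F : Type*} [Field F] [Fintype F] {A B : Subgroup G} (h : IsRankOnePair A B)
    (hA : ∀ a ∈ A, a * a = 1) (hB : ∀ b ∈ B, b * b = 1) (hF : Fintype.card F = Nat.card A) :
    IsPSL2PairOver F A B := by
  obtain ⟨F', _, _, h1, h2⟩ := psl2_of_r1 h hA hB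
  exact psl2_transport (FiniteField.ringEquivOfCardEq (hF.trans h1.symm)) h2

end Cfsg.Agent.Lib.Root
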