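import Cfsg.Agent.Lib.Root.RI6
import Cfsg.Agent.Lib.Root.RIS1
import Cfsg.Agent.Lib.Root.RIS2

set_option autoImplicit false
set_option linter.unusedSectionVars false

/-! # Non-degenerate root involutions of rank two: the apartment -/

namespace Cfsg.Agent.Lib.Root

open Cfsg Cfsg.Agent.Lib.Invol Subgroup
open scoped commutatorElement

variable {G : Type*} [Group G] [Finite G] {D : Set G}

/-- a path `a ~ b ~ c ~ x` -/
structure Pth (D : Set G) (a b c x : G) : Prop where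
  hb : b ∈ D
  ha : a ∈ WSet D b
  hc : c ∈ WSet D b
  hx : x ∈ WSet D c
  ac : Sp a c
  bx : Sp b x

/-- `m` reverses the path -/
def Jm (D : Set G) (a b c x m : G) : Prop := m ∈ D ∧ Sm D x (m * a * m) ∧ Sm D c (m * b * m)

omit [Finite G] in
theorem cj_eq_of_comm {m m' p : G} (hm : m * m = 1) (hm' : m' * m' = 1) (c : Commute (m * m') p) :
    m * p * m = m' * p * m' :=
  calc m * p * m = m * (p * (m * m')) * m' := by simp only [mul_assoc, hm', mul_one]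
    _ = _ := by rw [← c.eq]; simp only [← mul_assoc, hm, one_mul]

namespace HX

variable (h : HX D)
include h

theorem sm_swap {x y m : G} (hm : m * m = 1) (s : Sm D x (m * y * m)) : Sm D y (m * x * m) := by
  have := h.sm_cj' s hm
  rw [cj_cj hm] at this
  exact this.symm

theorem fx_two {x y m m' : G} (hm : m ∈ D) (hm' : m' ∈ D) (s : Sm D x (m * y * m)) (s' : Sm D x (m' * y * m')) :
    Fx D (m * m') y := by
  simpa [Fx, mul_assoc, h.inv hm, h.inv hm'] using (h.sm_swap (h.sq hm) s).trans (h.sm_cj' s' (h.sq hm))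

theorem comm_cj_of_not_oa {a z : G} (ha : a ∈ D) (hz : z ∈ D) (n : ¬ OA a z) : Commute a (z * a * z) := by
  by_cases c : Commute a z
  · rw [cj_of_comm (h.sq hz) c.symm]
  · rw [conj_eq_cm (h.sq ha)]
    exact (Commute.refl a).mul_right (h.col ha hz (h.sp_of ha hz c n)).comm

theorem not_sm_sp {a c : G} (ha : a ∈ D) (e : Sp a c) : ¬ Sm D a c := h.not_sm_of_sp ha (Commute.refl a) e.symm

theorem j_symm {a b c x m : G} (j : Jm D a b c x m) : Jm D x c b a m :=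
  ⟨j.1, h.sm_swap (h.sq j.1) j.2.1, h.sm_swap (h.sq j.1) j.2.2⟩

theorem j_cj {a b c x m g : G} (j : Jm D a b c x m) (fa : Fx D g a) (fb : Fx D g b) (fc : Fx D g c) (fx : Fx D g x) :
    Jm D a b c x (g * m * g⁻¹) := by
  have k : ∀ {y z : G}, Fx D g y → Fx D g z → Sm D z (m * y * m) → Sm D z (g * m * g⁻¹ * y * (g * m * g⁻¹)) :=
    fun fy fz s => by
      simpa [mul_assoc] using Sm.trans fz (h.sm_cj (s.trans (h.sm_cj' (h.fx_inv fy) (h.sq j.1))) g)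
  exact ⟨h.cj j.1 g, k fa fx j.2.1, k fb fc j.2.2⟩

theorem j_fix {a b c x m m' : G} (j : Jm D a b c x m) (j' : Jm D a b c x m') :
    Fx D (m * m') a ∧ Fx D (m * m') b ∧ Fx D (m * m') c ∧ Fx D (m * m') x :=
  ⟨h.fx_two j.1 j'.1 j.2.1 j'.2.1, h.fx_two j.1 j'.1 j.2.2 j'.2.2,
    h.fx_two j.1 j'.1 (h.j_symm j).2.2 (h.j_symm j').2.2, h.fx_two j.1 j'.1 (h.j_symm j).2.1 (h.j_symm j').2.1⟩

theorem center {m y : G} (hm : m ∈ D) (hy : y ∈ D) (c : Commute y (m * y * m)) (n : ¬ Sm D y (m * y * m)) :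
    y * (m * y * m) ∈ WSet D m := by
  have m1 := h.mul_mem_D hy (h.cj' hy (h.sq hm)) c fun e => n (e ▸ sm_refl hy)
  refine h.rt m hm _ m1 (comm_of_cj (h.sq hm) ?_).symm
  rw [cj_mul (h.sq hm), cj_cj (h.sq hm), c.eq]

section
variable {a b c x : G} (P : Pth D a b c x)
include P

theorem p_symm : Pth D x c b a := ⟨P.hc.1, P.hx, h.W_symm P.hb P.hc, P.ha, P.bx.symm, P.ac.symm⟩
theorem p_oa : OA a x := h.oa_path' P.hb P.hc P.ha P.hx P.ac P.bx
theorem p_bW : b ∈ WSet D a := h.W_symm P.hb P.ha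
theorem p_ba : ¬ Sm D b a := h.nsm P.ha P.ac P.hc
theorem p_bc : ¬ Sm D b c := h.nsm P.hc P.ac.symm P.ha

theorem j_oa {m : G} (j : Jm D a b c x m) : OA a m := h.oa_of_sq P.ha.1 j.1 (h.sm_oa' j.2.1 P.ha.1 (h.p_oa P))

theorem j_oo {m m' : G} (j : Jm D a b c x m) (j' : Jm D a b c x m') (ne : m ≠ m') : OA m m' :=
  h.lemM P.ha.1 j.1 j'.1 (h.j_oa P j) (h.j_oa P j') (j.2.1.symm.trans j'.2.1) ne

theorem j_mem {m : G} (j : Jm D a b c x m) : m ∈ EG D a ⊔ EG D x :=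
  mid_mem (h.sq P.ha.1) (h.j_oa P j) (mem_sup_left (self_mem_EG P.ha.1)) (mem_sup_right j.2.1.mem_EG)

theorem j_exists (q3 : Q3 D) : ∃ m m', Jm D a b c x m ∧ Jm D a b c x m' ∧ m ≠ m' := by
  have key : ∀ y, Sm D x y → ∃ e, Sm D a e ∧ Jm D a b c x (e * y * e) := fun y s => by
    have e1 := (h.sm_sp s P.hb P.bx.symm).symm
    obtain ⟨e, t, q⟩ := h.near_nq P.ha.1 s.2.1 (h.sm_oa' s P.ha.1 (h.p_oa P)) (h.p_bW P) e1.not_oa
    have t1 := h.sm_cj' t (h.sq (h.nq_n q))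
    rw [(h.nq_swap q).1] at t1
    exact ⟨e, t, h.nq_n q, s.trans t1.symm, by
      rw [(h.nq_swap q).2.1]; exact h.nice P.hc.1 (h.p_symm P).hc (h.W_sm P.hc.1 P.hx s) e1⟩
  obtain ⟨y, s, ne⟩ := q3 x P.hx.1
  obtain ⟨e, t, j⟩ := key y s
  obtain ⟨e', t', j'⟩ := key x (sm_refl P.hx.1)
  refine ⟨_, _, j, j', fun k => ne ?_⟩
  have k1 : e * e' * x * (e * e')⁻¹ = y := by
    rw [mul_inv_rev, h.inv t.2.1, h.inv t'.2.1, show e * e' * x * (e' * e) = e * (e' * x * e') * e by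
      simp only [mul_assoc], ← k, cj_cj (h.sq t.2.1)]
  by_cases k2 : e * e' = 1
  · rw [← k1, k2]; simp
  have t2 := h.sm_of_ne P.ha.1 (mul_mem t.mem_EG t'.mem_EG) k2
  exact (h.not_oa t2.2.1 P.hx.1 (h.comm_of_fx t2.2.1 (by rw [Fx, k1]; exact s)) (t2.oa P.hx.1 (h.p_oa P))).elim

theorem p_r1 : IsRankOnePair (EG D a) (EG D x) := h.r1 h.he P.ha.1 P.hx.1 (h.p_oa P) (h.p_bW P) P.bx.not_oa

theorem j_comm {m m' n n' : G} (j : Jm D a b c x m) (j' : Jm D a b c x m') (k : Jm D a b c x n) (k' : Jm D a b c x n') :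
    Commute (m * m') (n * n') := by
  obtain ⟨F, _, _, -, ps⟩ := psl2_of_r1 (h.p_r1 P) (fun _ => h.sq_EG) fun _ => h.sq_EG
  have key : ∀ {m m'}, Jm D a b c x m → Jm D a b c x m' → m * m' ∈ rankOneDiagonal (EG D a) (EG D x) := fun j j' =>
    mem_diagonal (mul_mem (h.j_mem P j) (h.j_mem P j'))
      ((h.conj_EG P.ha.1 _).trans (Sm.EG_eq (h.j_fix j j').1).symm)
      ((h.conj_EG P.hx.1 _).trans (Sm.EG_eq (h.j_fix j j').2.2.2).symm)
  exact diag_comm ps (key j j') (key k k')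

theorem fpf_a {m m' : G} (j : Jm D a b c x m) (j' : Jm D a b c x m') (ne : m ≠ m') :
    ∀ p ∈ EG D a, Commute (m * m') p → p = 1 := fun p hp k => by_contra fun n =>
  have s := h.sm_of_ne P.ha.1 hp n
  ne (mid_uniq (s.oa j.1 (h.j_oa P j)) (s.oa j'.1 (h.j_oa P j')) (cj_eq_of_comm (h.sq j.1) (h.sq j'.1) k))

theorem fpf_b {m m' : G} (j : Jm D a b c x m) (j' : Jm D a b c x m') (ne : m ≠ m') :
    ∀ p ∈ EG D b, Commute (m * m') p → p = 1 := fun p hp k => by_contra fun n => by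
  have s := h.sm_of_ne P.hb hp n
  have s1 := j.2.2.trans (h.sm_cj' s (h.sq j.1))
  have c1 := h.comm_EG2 P.hb P.hc.1 P.hc.2.1.symm hp s1.mem_EG
  have n1 : ¬ Sm D p (m * p * m) := fun t => h.p_bc P (s.trans (t.trans s1.symm))
  have e := cj_eq_of_comm (h.sq j.1) (h.sq j'.1) k
  have w1 := h.center j.1 s.2.1 c1 n1
  have w2 := h.center j'.1 s.2.1 (e ▸ c1) (e ▸ n1)
  rw [← e] at w2
  exact h.not_oa_W (h.W_symm j.1 w1) (h.W_symm j'.1 w2) (h.j_oo P j j' ne)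

theorem j_line (q3 : Q3 D) {m m' u : G} (j : Jm D a b c x m) (j' : Jm D a b c x m') (hu : u ∈ WSet D a) (e : Sp u b) :
    Commute (m * m' * u * (m * m')⁻¹) u := by
  by_cases ne : m = m'
  · rw [ne, h.sq j'.1]; simp
  have ha := P.ha.1
  have nu := h.nsm hu e (h.p_bW P)
  have fa := (h.j_fix j j').1
  have uW := h.W_cj (Sm.symm fa) hu
  obtain ⟨σ, m1, m2, c1, c2, c3⟩ := h.s_trans q3 P.hb P.ha P.hc P.ac P.hx P.bx.symm hu uW e
    (h.sm_sp (Sm.symm (h.j_fix j j').2.1) uW.1 (e.conj _).symm).symm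
  have σσ := h.EG_inter P.hb P.hc.1 (h.p_bc P) (h.sq_NG P.hb m1) (h.sq_NG P.hc.1 m2)
  have cX : EG D a ⊔ EG D x ≤ centralizer {σ} := sup_le
    (fun p hp => mem_centralizer_singleton_iff.2 (h.cent_EG P.hb P.ha (h.p_ba P) m1 c1 hp).symm)
    fun p hp => mem_centralizer_singleton_iff.2 (h.cent_EG P.hc.1 P.hx (h.p_ba (h.p_symm P)) m2 c2 hp).symm
  have c4 : Commute (m * m') σ := mem_centralizer_singleton_iff.1 (cX (mul_mem (h.j_mem P j) (h.j_mem P j')))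
  obtain ⟨k, hk⟩ := (h.j_oo P j j' ne).2
  generalize m * m' = t at fa uW c3 c4 hk
  have mul : ∀ g g', Fx D g a ∧ Commute (g * u * g⁻¹) u → Fx D g' a ∧ Commute (g' * u * g'⁻¹) u →
      Fx D (g * g') a ∧ Commute (g * g' * u * (g * g')⁻¹) u := fun g g' ⟨f, k⟩ ⟨f', k'⟩ =>
    ⟨h.fx_mul f f', h.comm_trans ha (h.W_cj (Sm.symm (h.fx_mul f f')) hu) (h.W_cj (Sm.symm f) hu)
      (fun s => nu (by simpa [mul_assoc] using h.sm_cj (Sm.trans (Sm.symm f) s) g⁻¹)) hu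
      (by simpa [mul_assoc] using commute_conj k' g) k⟩
  have g1 : Fx D (σ * t) a ∧ Commute (σ * t * u * (σ * t)⁻¹) u := ⟨h.fx_mul (fx_of_comm ha c1) fa, by
    simpa [mul_assoc, inv_eq_of_mul_eq_one_right σσ, ← mul_assoc σ σ, σσ] using (commute_conj c3 σ).symm⟩
  have pw : ∀ n : ℕ, Fx D ((σ * t) ^ n) a ∧ Commute ((σ * t) ^ n * u * ((σ * t) ^ n)⁻¹) u := fun n => by
    induction n with
    | zero => exact ⟨fx_of_comm ha (by simp), by simp⟩
    | succ n ih => rw [pow_succ]; exact mul _ _ ih g1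
  have := (pw (2 * (k + 1))).2
  rwa [c4.symm.mul_pow, pow_mul σ, pow_two, σσ, one_pow, one_mul, show 2 * (k + 1) = orderOf t + 1 by omega, pow_succ,
    pow_orderOf_eq_one, one_mul] at this

theorem tor_fix (q3 : Q3 D) {u : G} (hu : u ∈ WSet D a) (e : Sp u b) :
    ∃ w ∈ WSet D a, Sp w b ∧ Commute w u ∧ ∀ m m', Jm D a b c x m → Jm D a b c x m' → Fx D (m * m') w := by
  obtain ⟨n, n', k, k', ne⟩ := h.j_exists P q3
  have ha := P.ha.1
  have bW := h.p_bW P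
  obtain ⟨r, hr, f⟩ := h.fix_exists ha (h.j_fix k k').1 bW (h.j_fix k k').2.1 (h.fpf_b P k k' ne) hu e
    (h.j_line P q3 k k' hu e)
  have rN := h.EG_le' ha bW hr
  have c1 := h.comm_cj_NG ha hu rN
  have wW := wset_conj' h.ris hu (commute_of_mem_wclosure rN)
  have e1 := e.conj r
  rw [(h.comm_EG hr P.hb (Commute.refl b)).symm.eq, mul_inv_cancel_right] at e1
  rw [inv_eq_of_mul_eq_one_right (h.sq_EG hr)] at c1 wW e1
  refine ⟨_, wW, e1, c1, fun m m' j j' => ?_⟩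
  generalize r * u * r = w at f wW e1
  have fa := (h.j_fix j j').1
  have f2 := h.fx_cj f (m * m')
  rw [(h.j_comm P j j' k k').eq, mul_inv_cancel_right] at f2
  exact h.fix_uniq ha bW (h.j_fix k k').2.1 (h.fpf_b P k k' ne) wW (h.W_cj (Sm.symm fa) wW)
    (fun s => h.nsm wW e1 bW (by simpa [mul_assoc] using h.sm_cj (Sm.trans (Sm.symm fa) s) (m * m')⁻¹))
    (h.j_line P q3 j j' wW e1).symm e1 f f2

theorem odd_case {u n n' m s : G} (j : Jm D a b c x n) (j' : Jm D a b c x n') (ne : n ≠ n') (k : Jm D u a b c m)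
    (hs : s ∈ D) (e : s * m * s = n) (f1 : Fx D (n * n') (s * a * s)) (f2 : Fx D (n * n') (s * b * s)) :
    ∃ f ∈ WSet D n, ∃ g ∈ WSet D n, Sp f g ∧ ¬ OA f n' ∧ ¬ OA g n' := by
  have ss := h.sq hs
  have o := h.j_oo P j j' ne
  have hy := h.cj' P.ha.1 ss
  have hy' := h.cj' P.hb ss
  have s1 : Sm D (s * b * s) (n * (s * a * s) * n) := by
    have := h.sm_cj' k.2.2 ss
    rwa [cj_mul ss, cj_mul ss, e] at this
  have s2 : Sm D (s * b * s) (n' * (s * a * s) * n') := by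
    refine s1.trans ?_
    simpa [Fx, mul_assoc, h.inv j.1, h.inv j'.1, h.cancel j.1, h.sq j.1] using h.sm_cj' f1 (h.sq j.1)
  have cy : Commute (s * a * s) (s * b * s) := comm_cj ss P.ha.2.1
  have ny : ¬ Sm D (s * a * s) (s * b * s) := fun t => h.p_ba P (by
    have := h.sm_cj' t ss
    rw [cj_cj ss, cj_cj ss] at this
    exact this.symm)
  have gen : ∀ {y y' : G}, y ∈ D → Commute y y' → ¬ Sm D y y' → Sm D y' (n * y * n) → Sm D y' (n' * y * n') →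
      ∃ f ∈ WSet D n, ∃ f' ∈ WSet D n', Commute f f' ∧ Commute y f ∧ Commute y f' ∧ Commute y' f ∧ Commute y' f' :=
    fun {y y'} hy c1 n1 t t' => by
      have c2 := h.sm_comm t hy c1
      have c3 := h.sm_comm t' hy c1
      have c4 := h.sm_comm t t.1 (Commute.refl _)
      have c5 := h.sm_comm t' t.1 (Commute.refl _)
      exact ⟨_, h.center j.1 hy c2 fun k => n1 (k.trans t.symm), _, h.center j'.1 hy c3 fun k => n1 (k.trans t'.symm),
        ((Commute.refl y).mul_right c3).mul_left (c2.symm.mul_right (h.sm_comm t' t.2.1 c4.symm)),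
        (Commute.refl y).mul_right c2, (Commute.refl y).mul_right c3, c1.symm.mul_right c4, c1.symm.mul_right c5⟩
  obtain ⟨f, hf, f', hf', c0, c1, c2, c3, c4⟩ := gen P.hb P.hc.2.1.symm (h.p_bc P) j.2.2 j'.2.2
  obtain ⟨g, hg, g', hg', d0, d1, d2, d3, d4⟩ := gen hy cy ny s1 s2
  have n1 : ¬ OA f n' := fun t => (h.W_symm j'.1 hf').2.2 f hf.1 c0 t.symm
  have n2 : ¬ OA g n' := fun t => (h.W_symm j'.1 hg').2.2 g hg.1 d0 t.symm
  refine ⟨f, hf, g, hg, h.sp_W hf hg fun c5 => ?_, n1, n2⟩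
  have t1 := h.up j.1 j'.1 o hf hg c5 n1 n2
  have nf : ¬ Commute n' f := fun t => h.not_comm_W j.1 hf j'.1 o t
  have c6 : Commute f' g' := by_contra fun c6 => nf (h.sm_comm ((h.nice j'.1 hf' hg' (h.sp_W hf' hg' c6)).trans
    (h.nice hf.1 (h.rt f hf.1 f' hf'.1 c0.symm) (h.rt f hf.1 g' hg'.1 (h.sm_comm t1.symm hg'.1 d0.symm))
      (h.sp_W hf' hg' c6)).symm) j'.1 (Commute.refl _))
  have t2 := h.up j'.1 j.1 o.symm hf' hg' c6 (fun t => (h.W_symm j.1 hf).2.2 f' hf'.1 c0.symm t.symm)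
    fun t => (h.W_symm j.1 hg).2.2 g' hg'.1 d0.symm t.symm
  have nff : ¬ Sm D f f' := fun t => nf (h.sm_comm t.symm j'.1 hf'.2.1.symm)
  have pt : ∀ y ∈ D, Commute y g → Commute y g' → Fx D (n * n') y → Sm D b y ∨ Sm D c y := fun y hy k1 k2 fy => by
    have k3 := h.rt f hf.1 y hy (h.sm_comm t1.symm hy k1)
    have k4 := h.sm_comm t2.symm hy k2
    have k5 := h.rt f hf.1 f' hf'.1 c0.symm
    refine or_iff_not_imp_left.2 fun nb => h.fix_uniq P.hb P.ha (h.j_fix j j').1 (h.fpf_a P j j' ne) P.hc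
      (h.rt b P.hb y hy (h.comm_trans hf.1 k3 k5 nff (h.rt f hf.1 b P.hb c1) k4 c2.symm)) nb
      (h.comm_trans hf.1 k3 k5 nff (h.rt f hf.1 c P.hc.1 c3) k4 c4.symm).symm P.ac.symm (h.j_fix j j').2.2.1 fy
  rcases pt _ hy d1 d2 f1 with t | t <;> rcases pt _ hy' d3 d4 f2 with t' | t'
  · exact ny (t.symm.trans t')
  · exact h.not_sm_sp P.ha.1 P.ac ((h.sm_swap ss t).trans t'.symm)
  · have := h.comm_cj_NG P.hb P.ha (mem_NG (h.rt b P.hb s hs (h.comm_of_norm hs t')))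
    rw [h.inv hs] at this
    exact h.not_sp P.ha.1 P.hc.1 (h.sm_comm t.symm P.ha.1 this.symm) P.ac
  · exact ny (t.symm.trans t')

theorem even_case {u n n' m : G} (hu : u ∈ WSet D a) (j : Jm D a b c x n) (j' : Jm D a b c x n') (ne : n ≠ n')
    (k : Jm D u a b c m) (f : Fx D (n * n') u) : OA n m ∨ OA n' m := by
  by_contra no
  rw [not_or] at no
  have ha := P.ha.1
  have mm := h.sq k.1
  have nx : ∀ v, Sm D u v → ¬ Commute v x := fun v s t => h.not_comm_W ha (h.W_sm ha hu s) P.hx.1 (h.p_oa P) t.symm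
  have key : ∀ n, Jm D a b c x n → ¬ OA n m → Sp n m ∧ OA a (cm n m) ∧ Sm D (n * u * n) (cm n m * a * cm n m) :=
    fun n j no => by
      have nn := h.sq j.1
      have t1 : Sm D u (m * (n * (m * a * m) * n) * m) :=
        (h.sm_swap mm k.2.1).trans (h.sm_cj' (j.2.2.trans (h.sm_cj' k.2.2 nn)) mm)
      have e : Sp n m := h.sp_of j.1 k.1 (fun c => nx _ t1 (by
        rw [cj_mul nn, cj_mul nn, cj_of_comm nn c, cj_cj mm]
        exact (h.sm_comm j.2.1 P.hx.1 (Commute.refl x)).symm)) no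
      have hz := h.cm_mem j.1 k.1 e
      have t2 : Sm D (n * u * n) (cm n m * a * cm n m) := by
        nth_rw 2 [← h.cm_swap j.1 k.1 e]
        simpa only [cm, mul_assoc] using h.sm_cj' t1 nn
      refine ⟨e, by_contra fun o => ?_, t2⟩
      have c1 := h.sm_comm t2.symm ha (h.comm_cj_of_not_oa ha hz o)
      have := comm_cj nn c1
      rw [cj_cj nn] at this
      exact nx u (sm_refl hu.1) (h.sm_comm j.2.1.symm hu.1 this.symm)
  obtain ⟨e1, o1, t1⟩ := key n j no.1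
  obtain ⟨e2, o2, t2⟩ := key n' j' no.2
  have z1 := h.cm_mem j.1 k.1 e1
  have z2 := h.cm_mem j'.1 k.1 e2
  have t3 : Sm D (n * u * n) (n' * u * n') := by
    simpa [Fx, mul_assoc, h.inv j.1, h.inv j'.1, h.cancel j.1, h.sq j.1] using h.sm_cj' f (h.sq j.1)
  by_cases e : cm n m = cm n' m
  · exact h.not_oa_W (h.W1 j.1 k.1 e1) (e ▸ h.W1 j'.1 k.1 e2) (h.j_oo P j j' ne)
  · exact h.not_oa_W (h.W_symm z1 (h.W2 j.1 k.1 e1)) (h.W_symm z2 (h.W2 j'.1 k.1 e2))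
      (h.lemM ha z1 z2 o1 o2 (t1.symm.trans (t3.trans t2)) e)

theorem two_lines (q3 : Q3 D) : ∃ f ∈ WSet D a, ∃ g ∈ WSet D a, Sp f g ∧ ¬ OA f x ∧ ¬ OA g x := by
  have ha := P.ha.1
  have bW := h.p_bW P
  obtain ⟨u0, hu0, e0⟩ := h.exists_sp ha bW fun s => h.p_ba P s.symm
  obtain ⟨u, hu, e, -, fu⟩ := h.tor_fix P q3 hu0 e0.symm
  have Q : Pth D u a b c := ⟨ha, hu, bW, P.hc, e, P.ac⟩
  have Q' := h.p_symm Q
  obtain ⟨y, hy, e1, c1, fy⟩ := h.tor_fix Q' q3 P.hx P.bx.symm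
  obtain ⟨n, n', j, j', ne⟩ := h.j_exists P q3
  obtain ⟨m, m', k, k', ne'⟩ := h.j_exists Q q3
  have bc := Q'.ha
  have bW' := h.p_bW Q'
  have s : Sm D x y := by
    obtain ⟨fa, fb, fc, fx⟩ := h.j_fix j j'
    have f0 := fu _ _ j j'
    have f1 := h.fx_cj (fy _ _ (h.j_symm (h.j_cj k (h.fx_inv f0) (h.fx_inv fa) (h.fx_inv fb) (h.fx_inv fc)))
      (h.j_symm (h.j_cj k' (h.fx_inv f0) (h.fx_inv fa) (h.fx_inv fb) (h.fx_inv fc)))) (n * n')
    have fp := h.fpf_b P j j' ne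
    generalize n * n' = t at fa fb fc fx f0 f1 fp
    have yW := h.W_cj (Sm.symm fc) hy
    have ny := h.nsm hy e1 bW'
    have f2 : Fx D t y := h.fix_uniq P.hc.1 bW' (h.j_fix k k').2.2.1 (h.fpf_b Q' (h.j_symm k) (h.j_symm k') ne') hy yW
      (fun s => ny (by simpa [mul_assoc] using h.sm_cj (Sm.trans (Sm.symm fc) s) t⁻¹))
      (h.comm_trans P.hc.1 hy P.hx (h.p_ba (h.p_symm P)) yW c1 (h.sm_comm (Sm.symm fx) yW.1 (commute_conj c1 t)).symm)
      e1 (fy _ _ (h.j_symm k) (h.j_symm k')) (by simpa [mul_assoc] using f1)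
    exact h.fix_uniq P.hc.1 bW' fb fp P.hx hy ny c1.symm P.bx.symm fx f2
  let T : Set G := {t | (∃ m m', Jm D a b c x m ∧ Jm D a b c x m' ∧ t = m * m') ∨
    ∃ m m', Jm D u a b c m ∧ Jm D u a b c m' ∧ t = m * m'}
  have gen : ∀ t ∈ T, Fx D t u ∧ Fx D t a ∧ Fx D t b ∧ Fx D t c ∧ Fx D t x := by
    rintro _ (⟨m, m', k, k', rfl⟩ | ⟨m, m', k, k', rfl⟩)
    · exact ⟨fu _ _ k k', h.j_fix k k'⟩
    · obtain ⟨f1, f2, f3, f4⟩ := h.j_fix k k'
      exact ⟨f1, f2, f3, f4, h.fx_congr s.symm (fy _ _ (h.j_symm k) (h.j_symm k'))⟩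
  have all : ∀ t ∈ closure T, Fx D t a ∧ Fx D t b := fun t ht => by
    induction ht using closure_induction with
    | mem t ht => exact ⟨(gen t ht).2.1, (gen t ht).2.2.1⟩
    | one => exact ⟨fx_of_comm ha (Commute.one_left _), fx_of_comm P.hb (Commute.one_left _)⟩
    | mul _ _ _ _ h1 h2 => exact ⟨h.fx_mul h1.1 h2.1, h.fx_mul h1.2 h2.2⟩
    | inv _ _ h1 => exact ⟨h.fx_inv h1.1, h.fx_inv h1.2⟩
  have nrm : ∀ w ∈ D, (∀ t ∈ T, w * (t * w * t⁻¹) ∈ T) → w ∈ normalizer (closure T : Set G) := fun w hw H =>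
    mem_norm_closure (h.sq hw) fun t ht => by
      simpa [mul_assoc, h.inv hw] using mul_mem (subset_closure (H t ht)) (subset_closure ht)
  have N1 : ∀ w, Jm D a b c x w → w ∈ normalizer (closure T : Set G) := fun w k => nrm w k.1 fun t ht =>
    .inl ⟨_, _, k, h.j_cj k (gen t ht).2.1 (gen t ht).2.2.1 (gen t ht).2.2.2.1 (gen t ht).2.2.2.2, rfl⟩
  have N2 := nrm m k.1 fun t ht =>
    .inr ⟨_, _, k, h.j_cj k (gen t ht).1 (gen t ht).2.1 (gen t ht).2.2.1 (gen t ht).2.2.2.1, rfl⟩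
  have main : ∀ n n', Jm D a b c x n → Jm D a b c x n' → n ≠ n' → OA n m →
      ∃ f ∈ WSet D a, ∃ g ∈ WSet D a, Sp f g ∧ ¬ OA f x ∧ ¬ OA g x := fun n n' j j' ne o => by
    obtain ⟨s, hs, o1, e2⟩ := h.exists_mid k.1 j.1 o.symm
    have sN := mid_mem (h.sq k.1) o1 N2 (e2 ▸ N1 n j)
    have f1 := all _ ((mem_normalizer_iff.1 sN (n * n')).1 (subset_closure (.inl ⟨n, n', j, j', rfl⟩)))
    have f2 := h.fx_cj f1.1 s
    have f3 := h.fx_cj f1.2 s
    rw [h.inv hs, cj_cj (h.sq hs)] at f2 f3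
    obtain ⟨f, hf, g, hg, e3, n1, n2⟩ := h.odd_case P j j' ne k hs e2 f2 f3
    have un : ∀ n, Jm D a b c x n → EG D n ∈ unipotentSubgroups (EG D a) (EG D x) := fun n j => by
      obtain ⟨t, ht, e⟩ := conj_in_of_oa h.ris ha j.1 (h.j_oa P j) (mem_sup_left (self_mem_EG ha)) (h.j_mem P j)
      exact ⟨t, ht, by rw [h.conj_EG ha, ← e]⟩
    have o2 := h.j_oo P j j' ne
    obtain ⟨t, -, t1, t2⟩ := r1_two_trans (h.p_r1 P) (un n j) (un n' j') fun e =>
      h.not_oa j.1 j'.1 (h.comm_EG (e ▸ self_mem_EG j'.1) j.1 (Commute.refl n)) o2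
    rw [conjBy_eq_iff, h.conj_EG j.1] at t1
    rw [conjBy_eq_iff, h.conj_EG j'.1] at t2
    have s1 := h.sm_of_EG (h.cj j.1 t⁻¹) (t1 ▸ self_mem_EG ha) ha
    have s2 := h.sm_of_EG (h.cj j'.1 t⁻¹) (t2 ▸ self_mem_EG P.hx.1) P.hx.1
    exact ⟨_, h.W_cj s1 hf, _, h.W_cj s1 hg, e3.conj _,
      fun o => n1 (oa_conj_iff.1 (h.sm_oa' s2.symm (h.cj hf.1 _) o)),
      fun o => n2 (oa_conj_iff.1 (h.sm_oa' s2.symm (h.cj hg.1 _) o))⟩
  rcases h.even_case P hu j j' ne k (fu _ _ j j') with o | o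
  · exact main n n' j j' ne o
  · exact main n' n j' j ne.symm o

end

theorem allNear (q3 : Q3 D) : AllNear D := by
  intro a ha x hx _
  have key := h.pc x hx a ha
  clear ha
  induction key with
  | refl => exact ⟨x, h.selfW hx, not_oa_self x⟩
  | @tail a u _ l ih =>
    have l := prodAdj_col l
    have ha := l.left
    have hu := h.colW l
    by_cases e : OA a x
    swap
    · exact ⟨a, h.colW l.symm, e⟩
    obtain ⟨b, hb, nb⟩ := ih e
    by_cases c : Commute b u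
    · exact ⟨b, h.rt u hu.1 b hb.1 c, nb⟩
    have e1 := h.sp_of_near ha hx e hb nb
    have P : Pth D a b (cm b x) x := ⟨hb.1, h.W_symm ha hb, h.colW (h.col hb.1 hx e1), h.W2 hb.1 hx e1,
      h.sp_cm ha hx e hb.1 hb.2.1 e1, e1⟩
    have fin : ∀ f ∈ WSet D a, ¬ Commute f b → ¬ OA f x → ∃ b ∈ WSet D u, ¬ OA b x := fun f hf n1 n2 => by
      obtain ⟨σ, -, -, -, c2, c3⟩ := h.s_trans q3 P.hb P.ha P.hc P.ac P.hx e1.symm hf hu (h.sp_W hf hb n1)
        (h.sp_W hb hu c).symm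
      refine ⟨_, h.rt u hu.1 _ (h.cj hf.1 σ) c3, fun o => n2 (oa_conj_iff (g := σ).1 ?_)⟩
      rwa [c2.eq, mul_inv_cancel_right]
    obtain ⟨f, hf, g, hg, e2, n1, n2⟩ := h.two_lines P q3
    by_cases c1 : Commute f b
    · exact fin g hg (fun c2 => h.not_sp hf.1 hg.1
        (h.comm_trans ha hf hb (fun s => nb (s.oa hx e)) hg c1 c2.symm) e2) n2
    · exact fin f hf c1 n1

end HX

end Cfsg.Agent.Lib.Root
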