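import Cfsg.Agent.Lib.Root.RI2
import Cfsg.Agent.Lib.Core.Basic

set_option autoImplicit false
set_option linter.unusedSectionVars false

/-! # Non-degenerate root involutions with `|E(a)| = 2` and no planes: the bound `2¹⁰`.  Owner: helper8. -/

namespace Cfsg.Agent.Lib.Root

open Cfsg Cfsg.Agent.Lib.Invol Subgroup
open scoped commutatorElement

/-- a self-orthogonal Steiner quadruple system has at most eight points -/
theorem quad_le_eight {α : Type*} [DecidableEq α] (L : Finset α) (d : α → α → ZMod 2)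
    (hd : ∀ x ∈ L, ∀ y ∈ L, d x y = if x = y then 0 else 1) (B : α → α → α → α → Prop)
    (h1 : ∀ x ∈ L, ∀ y ∈ L, ∀ z ∈ L, ∃ w ∈ L, B w x y z)
    (h2 : ∀ w ∈ L, ∀ x ∈ L, ∀ y ∈ L, ∀ z ∈ L, B w x y z → d w x + (d w y + d x y) + (d w z + d x z + d y z) = 0)
    (h3 : ∀ w ∈ L, ∀ x ∈ L, ∀ y ∈ L, ∀ z ∈ L, ∀ w' ∈ L, ∀ x' ∈ L, ∀ y' ∈ L, ∀ z' ∈ L, B w x y z → B w' x' y' z' →
      d w' w + d x' w + d y' w + d z' w + (d w' x + d x' x + d y' x + d z' x) + (d w' y + d x' y + d y' y + d z' y) +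
        (d w' z + d x' z + d y' z + d z' z) = 0) : L.card ≤ 8 := by
  have h4 : ∀ w ∈ L, ∀ x ∈ L, ∀ y ∈ L, ∀ z ∈ L, B w x y z → x ≠ y → x ≠ z → y ≠ z → w ≠ x ∧ w ≠ y ∧ w ≠ z := by
    intro w hw x hx y hy z hz hB n1 n2 n3
    have := h2 w hw x hx y hy z hz hB
    simp only [hd, hw, hx, hy, hz] at this
    refine ⟨?_, ?_, ?_⟩ <;> rintro rfl <;> simp [n1, n2, n3, n1.symm, n2.symm, n3.symm] at this <;> revert this <;> decide
  by_contra hc
  obtain ⟨p, hp, q, hq, r, hr, pq, pr, qr⟩ := (Finset.two_lt_card (s := L)).1 (by omega)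
  obtain ⟨s, hs, B0⟩ := h1 p hp q hq r hr
  obtain ⟨sp, sq, sr⟩ := h4 s hs p hp q hq r hr B0 pq pr qr
  have c1 : 5 ≤ (L \ {p, q, r, s}).card :=
    le_trans (by have := Finset.card_le_four (a := p) (b := q) (c := r) (d := s); omega) (Finset.le_card_sdiff _ _)
  obtain ⟨y, hy⟩ := (Finset.card_pos (s := L \ {p, q, r, s})).1 (by omega)
  have c2 := Finset.card_erase_of_mem hy
  simp only [Finset.mem_sdiff, Finset.mem_insert, Finset.mem_singleton, not_or] at hy
  obtain ⟨hy, yp, yq, yr, ys⟩ := hy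
  choose! g g1 g2 using h1 p hp y hy
  have c3 := Finset.card_le_card_of_injOn (s := (L \ {p, q, r, s}).erase y) (t := {q, r, s}) g (fun z hz => by
    simp only [Finset.coe_erase, Finset.coe_sdiff, Finset.coe_insert, Finset.coe_singleton, Set.mem_sdiff, Finset.mem_coe,
      Set.mem_insert_iff, Set.mem_singleton_iff, not_or] at hz ⊢
    obtain ⟨⟨hz, zp, zq, zr, zs⟩, zy⟩ := hz
    have n := (h4 _ (g1 z hz) p hp y hy z hz (g2 z hz) (Ne.symm yp) (Ne.symm zp) (Ne.symm zy)).1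
    have := h3 s hs p hp q hq r hr _ (g1 z hz) p hp y hy z hz B0 (g2 z hz)
    by_contra hn
    simp only [not_or] at hn
    simp [hd, hp, hq, hr, hs, hy, hz, g1 z hz, n, hn, pq, pr, sp.symm, yp, yq, yr, ys, zp, zq, zr, zs] at this
    revert this; decide) (fun z hz z' hz' e => by
    simp only [Finset.coe_erase, Finset.coe_sdiff, Finset.coe_insert, Finset.coe_singleton, Set.mem_sdiff, Finset.mem_coe,
      Set.mem_insert_iff, Set.mem_singleton_iff, not_or] at hz hz'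
    obtain ⟨⟨hz, zp, -⟩, zy⟩ := hz
    obtain ⟨⟨hz', zp', -⟩, zy'⟩ := hz'
    obtain ⟨n1, n2, n3⟩ := h4 _ (g1 z hz) p hp y hy z hz (g2 z hz) (Ne.symm yp) (Ne.symm zp) (Ne.symm zy)
    obtain ⟨-, -, n4⟩ := h4 _ (g1 z' hz') p hp y hy z' hz' (g2 z' hz') (Ne.symm yp) (Ne.symm zp') (Ne.symm zy')
    have := h3 _ (g1 z hz) p hp y hy z hz _ (g1 z' hz') p hp y hy z' hz' (g2 z hz) (g2 z' hz')
    by_contra hn
    rw [← e] at this n4
    simp [hd, hp, hy, hz, hz', g1 z hz, n1, n2, n3, n1.symm, n2.symm, n4.symm, yp, zp', zy', Ne.symm yp, Ne.symm zp, Ne.symm zy,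
      Ne.symm hn] at this
    revert this; decide)
  have := Finset.card_le_three (a := q) (b := r) (c := s)
  omega

variable {G : Type*} [Group G] [Finite G] {D : Set G}

theorem eq_of_pow_two_odd {x y : G} (hx : Odd (orderOf x)) (hy : Odd (orderOf y)) (e : x ^ 2 = y ^ 2) : x = y := by
  obtain ⟨k, hk⟩ := hx.mul hy
  have h1 : ∀ z : G, orderOf z ∣ orderOf x * orderOf y → z = (z ^ 2) ^ (k + 1) := fun z hz => by
    rw [← pow_mul, show 2 * (k + 1) = 2 * k + 1 + 1 by ring, ← hk, pow_succ, orderOf_dvd_iff_pow_eq_one.1 hz, one_mul]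
  rw [h1 x (dvd_mul_right _ _), e, ← h1 y (dvd_mul_left _ _)]

open Classical in
/-- the commutator form -/
noncomputable def bF (x y : G) : ZMod 2 := if ⁅x, y⁆ = 1 then 0 else 1
open Classical in
/-- the squaring form -/
noncomputable def qF (x : G) : ZMod 2 := if x * x = 1 then 0 else 1

theorem bF_comm (x y : G) : bF x y = bF y x := by
  classical
  refine if_congr ?_ rfl rfl
  simp only [commutatorElement_eq_one_iff_commute, Commute.symm_iff (a := x)]

namespace ND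

variable (h : ND D) (rt : RT D) (q2 : ∀ a ∈ D, ∀ n ∈ EG D a, n = 1 ∨ n = a) {a b c u w x y z : G}
include h q2

theorem sm_eq (s : Sm D a b) : a = b := ((q2 a s.1 b s.mem_EG).resolve_left (h.ne_one s.2.1)).symm

theorem colb (hb : b ∈ D) (hw : w ∈ WSet D b) (n : w ≠ b) : Col D b w := by
  obtain ⟨e, s, l⟩ := h.exists_col hb hw fun s => n (h.sm_eq q2 s).symm
  rwa [← h.sm_eq q2 s] at l

theorem cmb (hb : b ∈ D) (hc : c ∈ WSet D b) (hw : w ∈ WSet D b) (e : Sp c w) : cm c w = b :=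
  (h.sm_eq q2 (h.nice hb hc hw e)).symm

theorem bF_mul (hb : b ∈ D) (hx : x ∈ NG D b) (hy : y ∈ NG D b) (hz : z ∈ NG D b) : bF (x * y) z = bF x z + bF y z := by
  rcases q2 b hb _ (h.cmt_mem hb hx hz) with e1 | e1 <;> rcases q2 b hb _ (h.cmt_mem hb hy hz) with e2 | e2 <;>
    simp [bF, h.cmt_mul hb hx hy hz, e1, e2, h.ne_one hb, h.sq hb]
  decide

theorem qF_mul (hb : b ∈ D) (hx : x ∈ NG D b) (hy : y ∈ NG D b) : qF (x * y) = qF x + qF y + bF x y := by
  have e : x * y * (x * y) = (x * x) * ⁅x⁻¹, y⁆ * (y * y) := by simp only [commutatorElement_def]; group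
  have e' : bF x y = bF x⁻¹ y := by
    classical exact if_congr (by simp only [commutatorElement_eq_one_iff_commute, Commute.inv_left_iff]) rfl rfl
  rw [e', qF, e]
  rcases q2 b hb _ (h.sq_NG hb hx) with e1 | e1 <;> rcases q2 b hb _ (h.sq_NG hb hy) with e2 | e2 <;>
    rcases q2 b hb _ (h.cmt_mem hb (inv_mem hx) hy) with e3 | e3 <;>
    simp [qF, bF, e1, e2, e3, h.ne_one hb, h.sq hb] <;> decide

include rt

theorem no_plane (hb : b ∈ D) (hw : w ∈ WSet D b) (hx : x ∈ WSet D b) (n1 : w ≠ b) (n2 : x ≠ b) (e : Commute w x) :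
    x = w ∨ x = w * b := by
  obtain ⟨f, l, e1⟩ := h.exists_f hb hw fun s => n1 (h.sm_eq q2 s).symm
  have hf := h.colW l
  have key : ∀ y ∈ D, Commute w y → Commute f y → y = b := fun y hy c1 c2 =>
    (h.cmb q2 hy (rt y hy w hw.1 c1) (rt y hy f hf.1 c2) e1).symm.trans (h.cmb q2 hb hw hf e1)
  have c : ∀ y ∈ WSet D b, Sp y f → ⁅y, f⁆ = b := fun y hy e => by
    rw [commutatorElement_def, h.inv hy.1, h.inv hf.1]; exact h.cmb q2 hb hy hf e
  by_cases n3 : x = w
  · exact Or.inl n3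
  have l2 := h.colb q2 hw.1 (rt w hw.1 x hx.1 e.symm) n3
  have := key _ l2.mul ((Commute.refl w).mul_right e) (commutatorElement_eq_one_iff_commute.1 (by
    rw [h.cmt_mul hb (mem_NG hw) (mem_NG hx) (mem_NG hf), c w hw e1,
      c x hx (h.sp_W hx hf fun c => n2 (key x hx.1 e c.symm)), h.sq hb])).symm
  exact Or.inr (by rw [← this, h.cancel hw.1])

omit rt q2 in
theorem cj_path {g a' b' : G} (ha' : a' ∈ D) (e1 : g * a * g⁻¹ = a') (e2 : g * b * g⁻¹ = b') (hu : u ∈ WSet D a)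
    (e : Sp u b) : g * u * g⁻¹ ∈ WSet D a' ∧ Sp (g * u * g⁻¹) b' :=
  ⟨h.W_cj (e1 ▸ sm_refl (e1 ▸ ha')) hu, e2 ▸ e.conj g⟩

omit rt in
theorem block (l : Col D b a) (hu : u ∈ WSet D a) (e : Sp u b) (hx : x ∈ WSet D b ∧ Sp x a) (hy : y ∈ WSet D b ∧ Sp y a)
    (hz : z ∈ WSet D b ∧ Sp z a) : ∃ w, (w ∈ WSet D b ∧ Sp w a) ∧ Commute (w * x * y * z) u := by
  have hb := l.left
  have ha := l.right
  have h1 : ∀ c, c ∈ WSet D b ∧ Sp c a → ∀ c', c' ∈ WSet D b ∧ Sp c' a →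
      c * c' * u * (c * c')⁻¹ ∈ {v | v ∈ WSet D a ∧ Sp v b} := fun c hc c' hc' => by
    have k : ∀ c, c ∈ WSet D b ∧ Sp c a → c * a * c = a * b := fun c hc => by
      rw [conj_eq_cm (h.sq ha), h.cmb q2 hb (h.colW l) hc.1 hc.2.symm]
    refine h.cj_path ha ?_ (by rw [(hc.1.2.1.mul_left hc'.1.2.1).eq, mul_inv_cancel_right]) hu e
    rw [mul_inv_rev, h.inv hc.1.1, h.inv hc'.1.1, show c * c' * a * (c' * c) = c * (c' * a * c') * c by group, k c' hc',
      cj_mul (h.sq hc.1.1), k c hc, cj_of_comm (h.sq hc.1.1) hc.1.2.1, mul_assoc, h.sq hb, mul_one]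
  have q : Nq D u a b x := ⟨hu.1, ha, hb, hx.1.1, e, hx.2.symm, h.cmb q2 ha hu (h.colW l.symm) e,
    h.cmb q2 hb (h.colW l) hx.1 hx.2.symm⟩
  have i := h.inv (h.nq_n q)
  have h2 := Set.ncard_le_ncard_of_injOn (s := {v | v ∈ WSet D a ∧ Sp v b}) (t := {c | c ∈ WSet D b ∧ Sp c a})
    (fun v => u * x * u * v * (u * x * u)⁻¹) (fun v hv => h.cj_path hb (by rw [i]; exact (h.nq_swap q).2.1)
      (by rw [i]; exact (h.nq_swap q).2.2.1) hv.1 hv.2) fun v _ v' _ e => by simpa using e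
  have o : ∀ c, c ∈ WSet D b ∧ Sp c a → Odd (orderOf (u * c)) := fun c hc =>
    (h.oa_path' ha (h.colW l.symm) hu hc.1 e hc.2.symm).2
  obtain ⟨w, hw, e1⟩ := Set.surj_on_of_inj_on_of_ncard_le (s := {c | c ∈ WSet D b ∧ Sp c a})
    (t := {v | v ∈ WSet D a ∧ Sp v b}) (fun c _ => x * c * u * (x * c)⁻¹) (fun c hc => h1 x hx c hc)
    (fun c c' hc hc' e => mul_left_cancel (a := u) (eq_of_pow_two_odd (o c hc) (o c' hc') (by
      have : c * u * c⁻¹ = c' * u * c'⁻¹ := by simpa [← mul_assoc] using (by simpa [mul_assoc] using e :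
        c * (u * (c⁻¹ * x⁻¹)) = c' * (u * (c'⁻¹ * x⁻¹)))
      rw [h.inv hc.1.1, h.inv hc'.1.1] at this
      simp only [pow_two, mul_assoc] at this ⊢
      rw [this]))) h2 (Set.toFinite _) _ (h1 y hy z hz)
  refine ⟨w, hw, ?_⟩
  rw [← h.inv hw.1.1, ← h.inv hx.1.1]
  calc _ = w⁻¹ * x⁻¹ * (y * z * u * (y * z)⁻¹) * (y * z) := by group
    _ = _ := by rw [e1]; group

theorem bound (hb : b ∈ D) : Nat.card (closure (commutingMembers D b)) ≤ 2 ^ 10 := by
  classical
  obtain ⟨c0, hc0, e0⟩ := h.four b hb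
  obtain ⟨a, l⟩ : ∃ a, Col D b a := ⟨_, h.col hb hc0 e0⟩
  have ha := l.right
  obtain ⟨u, lu, eu⟩ := h.exists_f ha (h.colW l.symm) fun s => l.ne h.ris (h.sm_eq q2 s).symm
  have hu := h.colW lu
  have hab := l.mul
  have nb : ∀ c, c ∈ WSet D b ∧ Sp c a → c ≠ b := by rintro _ hc rfl; exact h.not_sp hb ha l.comm hc.2
  obtain ⟨L, ⟨L1, L2⟩, L3⟩ := (Set.toFinite {L : Finset G | (∀ c ∈ L, c ∈ WSet D b ∧ Sp c a) ∧
    ∀ c ∈ L, ∀ c' ∈ L, Commute c c' → c = c'}).exists_maximal ⟨∅, by simp⟩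
  have L4 : ∀ c, c ∈ WSet D b ∧ Sp c a → ∃ p ∈ L, c = p ∨ c = p * b := fun c hc => by
    by_contra hn
    push Not at hn
    have k : ∀ p ∈ L, ¬ Commute p c := fun p hp e =>
      (h.no_plane rt q2 hb (L1 p hp).1 hc.1 (nb p (L1 p hp)) (nb c hc) e).elim (hn p hp).1 (hn p hp).2
    refine (hn c (L3 (y := insert c L) ⟨(Finset.forall_mem_insert _ _ _).2 ⟨hc, L1⟩, ?_⟩ (Finset.subset_insert _ _) (by simp))).1 rfl
    simp only [Finset.mem_insert, forall_eq_or_imp]
    exact ⟨⟨fun _ => trivial, fun p hp e => (k p hp e.symm).elim⟩, fun p hp => ⟨fun e => (k p hp e).elim, L2 p hp⟩⟩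
  have N : ∀ {p}, p ∈ L → p ∈ NG D b := fun hp => mem_NG (L1 _ hp).1
  have Nb := mem_NG (h.selfW hb)
  have S : ∀ s ∈ NG D b, Commute s u → s ∈ NG D (b * a) := fun s hs e => by
    have := h.NG_cj (g := u) (by
      rw [h.inv hu.1, conj_eq_cm (h.sq hb), h.cmb q2 ha (h.colW l.symm) hu eu]; exact sm_refl hab) hs
    rwa [← e.eq, mul_inv_cancel_right] at this
  have E : ∀ n ∈ EG D b, n ∈ EG D (b * a) → n = 1 := fun n h1 h2 => by
    rcases q2 _ hb n h1 with e | rfl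
    · exact e
    · exact absurd (by simpa using (q2 _ hab _ h2).resolve_left (h.ne_one hb)) (h.ne_one ha)
  have b0 : ∀ s ∈ NG D b, bF b s = 0 := fun s hs =>
    if_pos (commutatorElement_eq_one_iff_commute.2 (h.cen (self_mem_EG hb) hs))
  have T : ∀ s ∈ NG D b, Commute s u ∨ Commute (b * s) u → qF s = 0 ∧
      ∀ t ∈ NG D b, Commute t u → bF s t = 0 := fun s hs e => by
    have k : ∀ s ∈ NG D b, Commute s u → qF s = 0 ∧ ∀ t ∈ NG D b, Commute t u → bF s t = 0 := fun s hs e =>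
      ⟨if_pos (E _ (h.sq_NG hb hs) (h.sq_NG hab (S s hs e))),
        fun t ht e' => if_pos (E _ (h.cmt_mem hb hs ht) (h.cmt_mem hab (S s hs e) (S t ht e')))⟩
    refine e.elim (k s hs) fun e => ?_
    have := k _ (mul_mem Nb hs) e
    rw [h.qF_mul q2 hb Nb hs, b0 s hs, show qF b = 0 from if_pos (h.sq hb), zero_add, add_zero] at this
    exact ⟨this.1, fun t ht e' => by simpa [h.bF_mul q2 hb Nb hs ht, b0 t ht] using this.2 t ht e'⟩
  have T' : ∀ s ∈ NG D b, Commute s u ∨ Commute (b * s) u → ∀ t ∈ NG D b, Commute t u ∨ Commute (b * t) u →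
      bF s t = 0 := fun s hs e t ht e' => e'.elim ((T s hs e).2 t ht) fun e' => by
    have := (T s hs e).2 _ (mul_mem Nb ht) e'
    rwa [bF_comm, h.bF_mul q2 hb Nb ht hs, b0 s hs, zero_add, bF_comm] at this
  have q0 : ∀ {p}, p ∈ L → qF p = 0 := fun hp => if_pos (h.sq (L1 _ hp).1.1)
  have B3 : ∀ {w x y}, w ∈ L → x ∈ L → y ∈ L → ∀ t ∈ NG D b, bF (w * x * y) t = bF w t + bF x t + bF y t :=
    fun hw hx hy t ht => by rw [h.bF_mul q2 hb (mul_mem (N hw) (N hx)) (N hy) ht, h.bF_mul q2 hb (N hw) (N hx) ht]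
  have B4 : ∀ {w x y z}, w ∈ L → x ∈ L → y ∈ L → z ∈ L → ∀ t ∈ NG D b,
      bF (w * x * y * z) t = bF w t + bF x t + bF y t + bF z t := fun hw hx hy hz t ht => by
    rw [h.bF_mul q2 hb (mul_mem (mul_mem (N hw) (N hx)) (N hy)) (N hz) ht, B3 hw hx hy t ht]
  have L8 : L.card ≤ 8 := by
    refine quad_le_eight L bF (fun x hx y hy => ?_)
      (fun w x y z => Commute (w * x * y * z) u ∨ Commute (b * (w * x * y * z)) u) (fun x hx y hy z hz => ?_)
      (fun w hw x hx y hy z hz e => ?_) fun w hw x hx y hy z hz w' hw' x' hx' y' hy' z' hz' e e' => ?_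
    · simp only [bF, commutatorElement_eq_one_iff_commute]
      exact if_congr ⟨L2 x hx y hy, fun e => e ▸ Commute.refl x⟩ rfl rfl
    · obtain ⟨w, hw, e⟩ := h.block q2 l hu eu.symm (L1 x hx) (L1 y hy) (L1 z hz)
      obtain ⟨p, hp, rfl | rfl⟩ := L4 w hw
      · exact ⟨_, hp, Or.inl e⟩
      · exact ⟨p, hp, Or.inr (by rwa [(L1 p hp).1.2.1.eq, mul_assoc b, mul_assoc b, mul_assoc b] at e)⟩
    · have := (T _ (mul_mem (mul_mem (mul_mem (N hw) (N hx)) (N hy)) (N hz)) e).1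
      rw [h.qF_mul q2 hb (mul_mem (mul_mem (N hw) (N hx)) (N hy)) (N hz), h.qF_mul q2 hb (mul_mem (N hw) (N hx)) (N hy),
        h.qF_mul q2 hb (N hw) (N hx), B3 hw hx hy _ (N hz), h.bF_mul q2 hb (N hw) (N hx) (N hy)] at this
      simpa only [q0 hw, q0 hx, q0 hy, q0 hz, zero_add, add_zero] using this
    · have m := mul_mem (mul_mem (mul_mem (N hw') (N hx')) (N hy')) (N hz')
      have := T' _ (mul_mem (mul_mem (mul_mem (N hw) (N hx)) (N hy)) (N hz)) e _ m e'
      rwa [B4 hw hx hy hz _ m, bF_comm w, bF_comm x, bF_comm y, bF_comm z, B4 hw' hx' hy' hz' _ (N hw),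
        B4 hw' hx' hy' hz' _ (N hx), B4 hw' hx' hy' hz' _ (N hy), B4 hw' hx' hy' hz' _ (N hz)] at this
  have gen : ∀ X : Finset G, (∀ x ∈ X, x ∈ WSet D b) → Nat.card (closure (insert b (X : Set G))) ≤ 2 ^ (X.card + 1) := by
    have two : ∀ x ∈ D, Nat.card (zpowers x) = 2 := fun x hx => by rw [Nat.card_zpowers, h.ris.orderOf_eq x hx]
    intro X
    induction X using Finset.induction_on with
    | empty => intro _; simp [← zpowers_eq_closure, two b hb]
    | insert x X hx ih =>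
      intro hX
      have k : closure (insert b (X : Set G)) ≤ NG D b := closure_mono (by
        rintro _ (rfl | hy)
        exacts [h.selfW hb, hX _ (Finset.mem_insert_of_mem hy)])
      have hx' := hX x (Finset.mem_insert_self _ _)
      have := Nat.le_of_dvd (Nat.mul_pos Nat.card_pos Nat.card_pos) (Core.card_sup_dvd (H := zpowers x)
        (N := closure (insert b (X : Set G))) (zpowers_le.2 (mem_normalizer_fintype fun y hy => by
          rw [show x * y * x⁻¹ = ⁅x, y⁆ * y by simp [commutatorElement_def]]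
          refine mul_mem ?_ hy
          rcases q2 b hb _ (h.cmt_mem hb (mem_NG hx') (k hy)) with e | e <;> rw [e]
          exacts [one_mem _, subset_closure (Set.mem_insert _ _)])))
      rw [two x hx'.1, zpowers_eq_closure, ← Subgroup.closure_union, Set.singleton_union, Set.insert_comm, ← Finset.coe_insert] at this
      have := ih fun y hy => hX y (Finset.mem_insert_of_mem hy)
      rw [Finset.card_insert_of_notMem hx, pow_succ]
      omega
  have fin := gen (insert a L) (by simpa [h.colW l] using fun p hp => (L1 p hp).1)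
  refine (card_le_of_le ((closure_le _).2 fun c hc => ?_)).trans (fin.trans (Nat.pow_le_pow_right two_pos (by
    have := Finset.card_insert_le a L; omega)))
  have hc' := rt b hb c hc.1 hc.2
  have mb : b ∈ closure (insert b ((insert a L : Finset G) : Set G)) := subset_closure (Set.mem_insert _ _)
  have mp : ∀ p ∈ insert a L, c = p ∨ c = p * b → c ∈ closure (insert b ((insert a L : Finset G) : Set G)) := by
    rintro p hp (e | e) <;> rw [e]
    exacts [subset_closure (Or.inr hp), mul_mem (subset_closure (Or.inr hp)) mb]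
  by_cases e : c = b
  · exact e ▸ mb
  by_cases e' : Commute a c
  · exact mp a (Finset.mem_insert_self _ _) (h.no_plane rt q2 hb (h.colW l) hc' (l.ne h.ris).symm e e')
  · obtain ⟨p, hp, e⟩ := L4 c ⟨hc', (h.sp_W (h.colW l) hc' e').symm⟩
    exact mp p (Finset.mem_insert_of_mem hp) e

end ND
end Cfsg.Agent.Lib.Root
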