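import Cfsg.Agent.Lib.Root.RI7
import Cfsg.Agent.Lib.Root.RIB

set_option autoImplicit false

/-! # Non-degenerate root involutions: the main theorem -/

namespace Cfsg.Agent.Lib.Root

open Cfsg Subgroup

variable {G : Type*} [Group G] [Finite G] {D : Set G}

theorem ND.main (h : ND D) (hO : pCore 2 G = ⊥) : HEE D ∧ (AllNear D ∨ ∀ d ∈ D, Nat.card (EG D d) = 2 ∧
    Nat.card (closure (commutingMembers D d)) ≤ 2 ^ 10) := by
  have he := h.hee hO
  refine ⟨he, ?_⟩
  by_cases rt : RT D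
  swap
  · exact .inl (h.allNear_of_not_RT rt)
  by_cases q3 : Q3 D
  · exact .inl (HX.allNear ⟨h, rt, he⟩ q3)
  simp only [Q3, not_forall, not_exists, not_and, not_not] at q3
  obtain ⟨a, ha, q3⟩ := q3
  have q2 : ∀ b ∈ D, ∀ n ∈ EG D b, n = 1 ∨ n = b := fun b hb n hn => (he b hb n hn).imp_right fun m => by
    obtain ⟨g, rfl⟩ := h.exists_cj hb ha
    simpa using q3 _ (h.sm_cj (h.sm_of_EG hb hn m) g)
  refine .inr fun d hd => ⟨?_, h.bound rt q2 hd⟩
  rw [Nat.card_eq_two_iff' (1 : EG D d)]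
  exact ⟨⟨d, self_mem_EG hd⟩, fun e => h.ne_one hd (congrArg Subtype.val e),
    fun n hn => Subtype.ext ((q2 d hd n n.2).resolve_left fun e => hn (Subtype.ext e))⟩

end Cfsg.Agent.Lib.Root
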