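import Cfsg.Agent.Lib.Root.RIS1
import Cfsg.Agent.Lib.Root.RIS2
import Cfsg.Agent.Lib.Root.OT12
import Cfsg.Agent.Lib.Root.Disc2
import Cfsg.Agent.BS.S.ZD

set_option autoImplicit false
set_option linter.unusedSectionVars false

/-! # The root involution theorem from its non-degenerate core -/

namespace Cfsg.Agent.Lib.Root

open Cfsg Cfsg.Agent.Lib.Invol Subgroup
open scoped commutatorElement

variable {G : Type*} [Group G] [Finite G] {D : Set G}

theorem kroot_of_pairs (hcl : IsRootInvolutionClass D) {E : G → Subgroup G}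
    (hsq : ∀ a ∈ D, ∀ n ∈ E a, n * n = 1) (hmem : ∀ a ∈ D, a ∈ E a)
    (hcj : ∀ a ∈ D, ∀ g, conjBy (E a) g = E (g * a * g⁻¹))
    (pair : ∀ a ∈ D, ∀ b ∈ D, ⁅E a, E b⁆ = ⊥ ∨ IsRankOnePair (E a) (E b) ∨
      ∀ S : Set (Subgroup G), (∀ c ∈ D, E c ∈ S) → RootCommutatorCase S (E a) (E b)) {d : G} (hd : d ∈ D) :
    ∃ (F : Type) (_ : Field F) (_ : Fintype F), Fintype.card F = Nat.card (E d) ∧
      IsKRootSubgroupSet F {A : Subgroup G | ∃ g : G, A = conjBy (E d) g} ∧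
      IsConjClassOfSubgroups {A : Subgroup G | ∃ g : G, A = conjBy (E d) g} := by
  have mem : ∀ A, A ∈ {A : Subgroup G | ∃ g : G, A = conjBy (E d) g} ↔ ∃ a ∈ D, A = E a := fun A => by
    constructor
    · rintro ⟨g, rfl⟩
      exact ⟨_, hcl.1.conj_mem d hd g, hcj d hd g⟩
    · rintro ⟨a, ha, rfl⟩
      obtain ⟨g, rfl⟩ := hcl.2.2 d hd a ha
      exact ⟨g, (hcj d hd g).symm⟩
  have nb : ∀ a ∈ D, E a ≠ ⊥ := fun a ha e => ri_ne_one hcl.1 ha (mem_bot.1 (e ▸ hmem a ha))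
  have hp : IsPGroup 2 (E d) := fun g => ⟨1, Subtype.ext (by simpa [pow_two] using hsq d hd _ g.2)⟩
  obtain ⟨n, hn⟩ := hp.exists_card_eq
  have n0 : n ≠ 0 := by
    rintro rfl
    exact nb d hd (card_eq_one.1 (by simpa using hn))
  letI : Fintype (GaloisField 2 n) := Fintype.ofFinite _
  have hF : Fintype.card (GaloisField 2 n) = Nat.card (E d) := by
    rw [hn, ← GaloisField.card 2 n n0, Nat.card_eq_fintype_card]
  refine ⟨GaloisField 2 n, inferInstance, inferInstance, hF, ⟨⟨?_, ?_, ?_, ?_, ?_⟩, ?_⟩, ⟨_, 1, rfl⟩, ?_⟩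
  · intro A hA
    obtain ⟨a, ha, rfl⟩ := (mem A).1 hA
    exact subComm_iff.2 fun x hx y hy => (elem_comm (hsq a ha) hx hy).eq
  · intro A hA
    obtain ⟨a, ha, rfl⟩ := (mem A).1 hA
    exact nb a ha
  · rw [eq_top_iff, ← hcl.1.generates, closure_le]
    intro a ha
    exact (le_iSup₂ (f := fun A (_ : A ∈ {A : Subgroup G | ∃ g : G, A = conjBy (E d) g}) => A) (E a)
      ((mem _).2 ⟨a, ha, rfl⟩)) (hmem a ha)
  · rintro _ ⟨g, rfl⟩ g'
    exact ⟨_, conjBy_conjBy _ _ _⟩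
  · intro A hA B hB
    obtain ⟨a, ha, rfl⟩ := (mem A).1 hA
    obtain ⟨b, hb, rfl⟩ := (mem B).1 hB
    exact (pair a ha b hb).imp_right fun h => h.imp_right fun h => h _ fun c hc => (mem _).2 ⟨c, hc, rfl⟩
  · intro A hA B hB r
    have cA : Nat.card A = Nat.card (E d) := by
      obtain ⟨g, rfl⟩ := hA
      exact card_conjBy _ _
    obtain ⟨a, ha, rfl⟩ := (mem A).1 hA
    obtain ⟨b, hb, rfl⟩ := (mem B).1 hB
    exact psl2_of_r1' r (hsq a ha) (hsq b hb) (hF.trans cA.symm)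
  · rintro _ ⟨g, rfl⟩ _ ⟨g', rfl⟩
    exact ⟨g' * g⁻¹, by rw [conjBy_conjBy, inv_mul_cancel_right]⟩

theorem twoZ_eq_bot (hO : pCore 2 G = ⊥) (hZ : center G = ⊥) : twoZCore G = ⊥ := by
  rw [eq_bot_iff, ← hZ]
  refine fun g hg => mem_center_iff.2 fun y => ?_
  have := comm_mem_pCore hg y
  rw [hO, mem_bot] at this
  rw [← one_mul (g * y), ← this]; group

theorem IsBender.of_equiv {G' : Type*} [Group G'] (e : G ≃* G') (h : IsBender G') : IsBender G := by
  rcases h with ⟨F, _, _, h1, h2, ⟨ψ⟩⟩ | ⟨F, _, _, m, h1, h2, ⟨ψ⟩⟩ | ⟨F, _, _, q, h1, h2, h3, ⟨ψ⟩⟩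
  · exact .inl ⟨F, _, _, h1, h2, ⟨e.trans ψ⟩⟩
  · exact .inr (.inl ⟨F, _, _, m, h1, h2, ⟨e.trans ψ⟩⟩)
  · exact .inr (.inr ⟨F, _, _, q, h1, h2, h3, ⟨e.trans ψ⟩⟩)

theorem LC.conj_scs (h : LC D) (a g : G) :
    conjBy (sameCommutingSubgroup D a) g = sameCommutingSubgroup D (g * a * g⁻¹) := by
  refine le_antisymm (fun n hn => ?_) fun n hn => ?_
  · obtain ⟨m, hm, rfl⟩ := mem_conjBy'.1 hn
    exact h.closure_conj hm g
  · rw [mem_conjBy]
    have := h.closure_conj hn g⁻¹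
    simpa [mul_assoc, sameCommutingSubgroup] using this

theorem LC.sq_scs (h : LC D) {a n : G} (hn : n ∈ sameCommutingSubgroup D a) : n * n = 1 :=
  sq_of_mem_closure (fun _ hs => h.ot.sq hs.1) (fun _ hs _ hs' => (same_scc a).comm' hs hs') hn

theorem LC.r1 (h : LC D) (hO : pCore 2 G = ⊥) (hZ : center G = ⊥) (hc : IsConnectedSet (CommAdj D) D) {a x : G}
    (ha : a ∈ D) (hx : x ∈ D) (nc : ¬ Commute a x) :
    IsRankOnePair (sameCommutingSubgroup D a) (sameCommutingSubgroup D x) := by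
  obtain ⟨F, _, _, _, h1, ⟨e⟩⟩ := h.iso_L2 hO hZ ha hx nc (h.l3 hc ha hx nc)
  have e1 : sameCommutingSubgroup D a ⊔ sameCommutingSubgroup D x = closure (sameCommutingClass D a ∪ {x}) :=
    le_antisymm (sup_le (closure_mono Set.subset_union_left) (h.closure_le_pair ha hx nc))
      ((closure_le _).2 (Set.union_subset (fun s hs => mem_sup_left (subset_closure hs))
        (Set.singleton_subset_iff.2 (mem_sup_right (subset_closure (self_mem_scc hx))))))
  have c1 : Nat.card (sameCommutingSubgroup D a) = Nat.card F := by rw [Nat.card_eq_fintype_card (α := F), h1]; rfl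
  obtain ⟨g, hg⟩ := h.cl a ha x hx
  refine (special_of_psl2 (psl2_of_iso ((MulEquiv.subgroupCongr e1).trans e) (fun _ => h.sq_scs)
    (fun _ => h.sq_scs) c1 (by rw [← c1, hg, ← h.conj_scs, card_conjBy]) fun e => nc ?_)).1
  exact h.comm_closure (a := a) (show x ∈ sameCommutingSubgroup D a from e ▸ subset_closure (self_mem_scc hx)) ha
    (Commute.refl a)

theorem exists_oa (hD : IsRootInvolutionSet D) (hne : D.Nonempty) (hO : pCore 2 G = ⊥) :
    ∃ a ∈ D, ∃ b ∈ D, OA a b := by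
  by_contra! hn
  have := pgroup_closure_of_pairs_in (p := 2) ⊤ (K := D) (fun _ _ => mem_top _) (fun x hx g _ => hD.conj_mem x hx g)
    fun a ha b hb => pgroup_pair (ri_sq hD ha) (ri_sq hD hb) (ri_pow4 hD ha hb (hn a ha b hb))
  rw [hD.generates] at this
  obtain ⟨a, ha⟩ := hne
  exact ri_ne_one hD ha (mem_bot.1 (hO ▸ le_pCore' inferInstance this (mem_top a)))

theorem ND.scc_iff (h : ND D) {d e : G} (hd : d ∈ D) : e ∈ sameCommutingClass D d ↔ Sm D d e :=
  ⟨fun s => ⟨hd, s.1, (commutingMembers_eq_iff h.ris h.oc hd s.1).1 s.2⟩,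
    fun s => ⟨s.2.1, (commutingMembers_eq_iff h.ris h.oc hd s.2.1).2 s.2.2⟩⟩

theorem ND.scs_eq (h : ND D) {d : G} (hd : d ∈ D) : sameCommutingSubgroup D d = EG D d :=
  congrArg Subgroup.closure (Set.ext fun _ => h.scc_iff hd)

theorem shell (main : ND D → HEE D ∧ (AllNear D ∨ ∀ d ∈ D, Nat.card (EG D d) = 2 ∧
      Nat.card (closure (commutingMembers D d)) ≤ 2 ^ 10)) (hcl : IsRootInvolutionClass D)
    (hO : pCore 2 G = ⊥) (hZ : center G = ⊥) (hDD : (D ∩ commutingProducts D).Nonempty) :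
    (¬ IsConnectedSet (CommAdj D) D ∧
      ((∃ (F : Type) (_ : Field F) (_ : Fintype F), CharP F 2 ∧ 4 ≤ Fintype.card F ∧
          Nonempty (G ≃* Matrix.ProjectiveSpecialLinearGroup (Fin 2) F)) ∨
        Lie.IsoSuzuki G ∨
        (∃ (F : Type) (_ : Field F) (_ : Fintype F) (q : ℕ), CharP F 2 ∧ Fintype.card F = q ^ 2 ∧ 4 ≤ q ∧
          Nonempty (G ≃* PSU 3 F q)))) ∨
    (IsConnectedSet (CommAdj D) D ∧
      (∀ d ∈ D, (sameCommutingSubgroup D d : Set G) = sameCommutingClass D d ∪ {1}) ∧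
      ((∀ d ∈ D, ∃ (F : Type) (_ : Field F) (_ : Fintype F),
          Fintype.card F = Nat.card ↥(sameCommutingSubgroup D d) ∧
          IsKRootSubgroupSet F {A : Subgroup G | ∃ g : G, A = conjBy (sameCommutingSubgroup D d) g} ∧
          IsConjClassOfSubgroups {A : Subgroup G | ∃ g : G, A = conjBy (sameCommutingSubgroup D d) g}) ∨
       (IsNondegenerateRootInvolutionSet D ∧ ∀ d ∈ D, Nat.card ↥(sameCommutingSubgroup D d) = 2 ∧
          Nat.card ↥(closure (commutingMembers D d)) ≤ 2 ^ 10))) := by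
  have hD := hcl.1
  by_cases hc : IsConnectedSet (CommAdj D) D
  swap
  · refine .inl ⟨hc, IsBender.of_equiv ?_ (disc_bender (BS.ZD.zds _) hD hDD hc)⟩
    exact (QuotientGroup.quotientBot.symm).trans (QuotientGroup.quotientMulEquivOfEq (twoZ_eq_bot hO hZ).symm)
  refine .inr ⟨hc, ?_⟩
  by_cases h4 : ∃ a ∈ D, ∃ b ∈ D, orderOf (a * b) = 4
  swap
  · push Not at h4
    have h := LC.of ⟨hD, h4⟩ hcl hDD
    refine ⟨fun d hd => Set.ext fun n => ⟨h.mem_closure_scc hO hZ hd, ?_⟩, .inl fun d hd => ?_⟩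
    · rintro (hn | rfl)
      exacts [subset_closure hn, one_mem _]
    · refine kroot_of_pairs hcl (E := sameCommutingSubgroup D) (fun _ _ _ => h.sq_scs)
        (fun a ha => subset_closure (self_mem_scc ha)) (fun a _ => h.conj_scs a) (fun a ha b hb => ?_) hd
      by_cases c : Commute a b
      · refine .inl (comm_iff.1 fun n hn m hm => ?_)
        exact (commute_of_closure (fun s hs => (h.comm_closure hm hs.1
          (((mem_scc.1 hs).2 b hb).1 c).symm).symm) hn).symm.eq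
      · exact .inr (.inl (h.r1 hO hZ hc ha hb c))
  obtain ⟨a, b, l⟩ := col_of_mem_prod hDD
  have nd : IsNondegenerateRootInvolutionSet D :=
    ⟨hD, ⟨a, l.left, b, l.right, l.ne hD, l.comm.eq⟩, exists_oa hD hcl.2.1 hO, h4⟩
  obtain ⟨oc, pc, -⟩ := nondeg_data BS.ZD.zds nd hcl
  have h : ND D := by
    refine ⟨hD, oc, pc, fun c hc => ?_, hZ⟩
    obtain ⟨u, hu, v, hv, e⟩ := h4
    obtain ⟨g, rfl⟩ := hcl.2.2 u hu c hc
    exact ⟨_, hD.conj_mem v hv g, Sp.conj e g⟩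
  obtain ⟨he, hm⟩ := main h
  refine ⟨fun d hd => Set.ext fun n => ⟨fun hn => ?_, ?_⟩, hm.imp (fun an d hd => ?_) fun hm => ⟨nd, fun d hd => ?_⟩⟩
  · rw [h.scs_eq hd] at hn
    by_cases h1 : n = 1
    · exact .inr h1
    · exact .inl ((h.scc_iff hd).2 (h.sm_of_HEE he hd hn h1))
  · rintro (hn | rfl)
    exacts [subset_closure hn, one_mem _]
  · rw [h.scs_eq hd]
    refine kroot_of_pairs hcl (E := EG D) (fun _ _ _ => h.sq_EG) (fun _ => self_mem_EG) (fun a => h.conj_EG)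
      (fun a ha b hb => ?_) hd
    rcases ri_tri hD ha hb with e | e | e
    · exact .inl (comm_iff.1 fun n hn m hm => (h.comm_EG2 ha hb e hn hm).eq)
    · obtain ⟨c, hc, nc⟩ := an a ha b hb e
      exact .inr (.inl (h.r1 he ha hb e hc nc))
    · exact .inr (.inr fun S hS => h.rcc he ha hb e (hS _ (h.cm_mem ha hb e)))
  · rw [h.scs_eq hd]
    exact hm d hd

end Cfsg.Agent.Lib.Root
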